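import Cfsg.Statements.S2299
import Cfsg.Agent.H1.SL2More

set_option autoImplicit false
open Cfsg

namespace Cfsg.Agent.S2299

/-- Over a finite field F with q elements, q odd, every irreducible complex character of SL₂ has degree 1, q, q + 1, q − 1, (q + 1)/2 or (q − 1)/2; and when q ≥ 5 (so that these six numbers are distinct) there are exactly one irreducible character of degree 1, one of degree q, (q − 3)/2 of degree q + 1, (q − 1)/2 of degree q − 1, two of degree (q + 1)/2 and two of degree (q − 1)/2. -/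
theorem result {F : Type*} [Field F] [Fintype F] (hodd : Odd (Fintype.card F)) :
    (∀ χ : Matrix.SpecialLinearGroup (Fin 2) F → ℂ, Cfsg.IsIrrCharacter (Matrix.SpecialLinearGroup (Fin 2) F) χ →
      χ 1 = 1 ∨ χ 1 = (Fintype.card F : ℂ) ∨ χ 1 = (Fintype.card F : ℂ) + 1 ∨ χ 1 = (Fintype.card F : ℂ) - 1 ∨
        χ 1 = (((Fintype.card F + 1) / 2 : ℕ) : ℂ) ∨ χ 1 = (((Fintype.card F - 1) / 2 : ℕ) : ℂ)) ∧
    (5 ≤ Fintype.card F →
      Nat.card {χ : Cfsg.IrrCharacter (Matrix.SpecialLinearGroup (Fin 2) F) // (χ : Matrix.SpecialLinearGroup (Fin 2) F → ℂ) 1 = 1} = 1 ∧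
      Nat.card {χ : Cfsg.IrrCharacter (Matrix.SpecialLinearGroup (Fin 2) F) // (χ : Matrix.SpecialLinearGroup (Fin 2) F → ℂ) 1 = (Fintype.card F : ℂ)} = 1 ∧
      Nat.card {χ : Cfsg.IrrCharacter (Matrix.SpecialLinearGroup (Fin 2) F) // (χ : Matrix.SpecialLinearGroup (Fin 2) F → ℂ) 1 = (Fintype.card F : ℂ) + 1} = (Fintype.card F - 3) / 2 ∧
      Nat.card {χ : Cfsg.IrrCharacter (Matrix.SpecialLinearGroup (Fin 2) F) // (χ : Matrix.SpecialLinearGroup (Fin 2) F → ℂ) 1 = (Fintype.card F : ℂ) - 1} = (Fintype.card F - 1) / 2 ∧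
      Nat.card {χ : Cfsg.IrrCharacter (Matrix.SpecialLinearGroup (Fin 2) F) // (χ : Matrix.SpecialLinearGroup (Fin 2) F → ℂ) 1 = (((Fintype.card F + 1) / 2 : ℕ) : ℂ)} = 2 ∧
      Nat.card {χ : Cfsg.IrrCharacter (Matrix.SpecialLinearGroup (Fin 2) F) // (χ : Matrix.SpecialLinearGroup (Fin 2) F → ℂ) 1 = (((Fintype.card F - 1) / 2 : ℕ) : ℂ)} = 2) := by
  classical
  obtain ⟨E, _, _, _, ⟨Q⟩⟩ := H1.exists_quadEmb F
  have h2 := H2.two_ne_zero_of_odd hodd
  rw [H1.cast_half_add hodd, H1.cast_half_sub hodd]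
  have hdeg : ∀ χ : Matrix.SpecialLinearGroup (Fin 2) F → ℂ, Cfsg.IsIrrCharacter _ χ →
      χ 1 = 1 ∨ χ 1 = (Fintype.card F : ℂ) ∨ χ 1 = (Fintype.card F : ℂ) + 1 ∨
        χ 1 = (Fintype.card F : ℂ) - 1 ∨ χ 1 = ((Fintype.card F : ℂ) + 1) / 2 ∨
        χ 1 = ((Fintype.card F : ℂ) - 1) / 2 := by
    intro χ hχ
    rcases H1.irr_SL2_cases_deg Q hχ with h | h | h | h | h | h <;> simp [h.1]
  refine ⟨hdeg, fun hq => ?_⟩
  have hq4 : 4 ≤ Fintype.card F := by omega
  have c1 := H1.card_degree_eq_one 1 H1.isIrrCharacter_one rfl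
    (fun χ hχ hd => H1.irr_SL2_deg_one Q hq4 hχ hd)
  have c2 := H1.card_degree_eq_one (Fintype.card F) (H1.isIrr_resSL_st (F := F) 1)
    (by rw [H1.resSL_one, H1.st_one]) (fun χ hχ hd => H1.irr_SL2_deg_q Q hχ hd)
  have c5 : Nat.card {χ : Cfsg.IrrCharacter (Matrix.SpecialLinearGroup (Fin 2) F) //
      (χ : Matrix.SpecialLinearGroup (Fin 2) F → ℂ) 1 = ((Fintype.card F : ℂ) + 1) / 2} = 2 := by
    obtain ⟨χ₁, χ₂, h₁, h₂, hne, -, h⟩ := H1.exists_isHalf (H1.isIrr_ps (H1.eta_ne_one h2))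
      (H1.inner_resSL_ps_self_of_sq H1.eta_sq)
    exact H1.card_degree_eq_two _ h₁.1 h₂.1 hne (by rw [h₁.one, H1.ps_one])
      (by rw [h₂.one, H1.ps_one]) (fun χ hχ hd => h χ (H1.irr_SL2_deg_half_add Q hq4 hχ hd))
  have c6 : Nat.card {χ : Cfsg.IrrCharacter (Matrix.SpecialLinearGroup (Fin 2) F) //
      (χ : Matrix.SpecialLinearGroup (Fin 2) F → ℂ) 1 = ((Fintype.card F : ℂ) - 1) / 2} = 2 := by
    obtain ⟨θ, a1, a2⟩ := H1.exists_theta_order_two Q h2
    obtain ⟨χ₁, χ₂, h₁, h₂, hne, -, h⟩ := H1.exists_isHalf (H1.isIrr_cusp Q a2)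
      (H1.inner_resSL_cusp_self_of_sq Q a1)
    refine H1.card_degree_eq_two _ h₁.1 h₂.1 hne (by rw [h₁.one, H1.cusp_one])
      (by rw [h₂.one, H1.cusp_one]) (fun χ hχ hd => h χ ?_)
    obtain ⟨θ', b1, b2, b⟩ := H1.irr_SL2_deg_half_sub Q hq4 hχ hd
    exact b.of_resSL_eq (H1.resSL_cusp_eq_of_order_two Q b1 b2 a1 a2)
  have hD : ∀ χ : Matrix.SpecialLinearGroup (Fin 2) F → ℂ, Cfsg.IsIrrCharacter _ χ →
      χ 1 ∈ ({1, (Fintype.card F : ℂ), (Fintype.card F : ℂ) + 1, (Fintype.card F : ℂ) - 1,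
        ((Fintype.card F : ℂ) + 1) / 2, ((Fintype.card F : ℂ) - 1) / 2} : Finset ℂ) := by
    intro χ hχ
    simpa using hdeg χ hχ
  have h0 := H1.card_ne_nat (F := F) (n := 0) (by omega)
  have h1 := H1.card_ne_nat (F := F) (n := 1) (by omega)
  have h2' := H1.card_ne_nat (F := F) (n := 2) (by omega)
  have h3 := H1.card_ne_nat (F := F) (n := 3) (by omega)
  have k1 := H1.card_add_ne_zero (F := F) 1
  have k3 := H1.card_add_ne_zero (F := F) 3
  push_cast at h0 h1 h2' h3 k1 k3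
  have e1 := H1.sum_count_by_degree _ hD
  have e2 := H1.sum_sq_by_degree _ hD
  rw [Finset.sum_insert, Finset.sum_insert, Finset.sum_insert, Finset.sum_insert,
    Finset.sum_insert, Finset.sum_singleton, c1, c2, c5, c6] at e1 e2
  · rw [H2.card_conjClasses_SL2_odd h2, Nat.card_eq_fintype_card (α := F)] at e1
    rw [H1.card_SL2'] at e2
    refine ⟨c1, c2, ?_, ?_, c5, c6⟩
    · symm
      apply Nat.div_eq_of_eq_mul_right (by norm_num)
      apply Nat.cast_injective (R := ℂ)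
      push_cast [Nat.cast_sub (show 3 ≤ Fintype.card F by omega)] at e1 e2 ⊢
      apply mul_left_cancel₀ (mul_ne_zero two_ne_zero h0)
      linear_combination ((Fintype.card F : ℂ) - 1) ^ 2 * e1 - e2
    · symm
      apply Nat.div_eq_of_eq_mul_right (by norm_num)
      apply Nat.cast_injective (R := ℂ)
      push_cast [H1.cast_card_sub_one] at e1 e2 ⊢
      apply mul_left_cancel₀ (mul_ne_zero two_ne_zero h0)
      linear_combination e2 - ((Fintype.card F : ℂ) + 1) ^ 2 * e1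
  all_goals
    simp only [Finset.mem_insert, Finset.mem_singleton, not_or]
    repeat' apply And.intro
  all_goals
    intro h
    first
      | exact one_ne_zero (by linear_combination h : (1 : ℂ) = 0)
      | exact one_ne_zero (by linear_combination -h : (1 : ℂ) = 0)
      | exact two_ne_zero (by linear_combination h : (2 : ℂ) = 0)
      | exact h0 (by linear_combination -h)
      | exact h1 (by linear_combination -h)
      | exact h1 (by linear_combination 2 * h)
      | exact h1 (by linear_combination -2 * h)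
      | exact h2' (by linear_combination -h)
      | exact h3 (by linear_combination 2 * h)
      | exact h3 (by linear_combination -2 * h)
      | exact k1 (by linear_combination 2 * h)
      | exact k3 (by linear_combination 2 * h)

end Cfsg.Agent.S2299
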