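import Cfsg.Statements.S2437
import Cfsg.Agent.H2.SL2Syl

set_option autoImplicit false
open Cfsg

namespace Cfsg.Agent.S2437

/-- Over a finite field F with q elements, q odd, the upper triangular subgroup of SL₂ (a Borel subgroup, of order q(q − 1)) has exactly q + 3 conjugacy classes. -/
theorem result {F : Type*} [Field F] [Fintype F] (hodd : Odd (Fintype.card F)) :
    Nat.card (ConjClasses ((Cfsg.upperTriangularGL 2 F).comap Matrix.SpecialLinearGroup.toGL)) = Fintype.card F + 3 := by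
  open Cfsg.Agent.H2 in
  have h2 := two_ne_zero_of_odd hodd
  rw [← Nat.card_eq_fintype_card]
  set B := (Cfsg.upperTriangularGL 2 F).comap (Matrix.SpecialLinearGroup.toGL (n := Fin 2) (R := F)) with hB
  have hm : ∀ g : Matrix.SpecialLinearGroup (Fin 2) F, g ∈ B ↔ g.1 1 0 = 0 := by
    intro g
    constructor
    · intro h; exact h (show (0 : Fin 2) < 1 by decide)
    · intro h i j hij
      fin_cases i <;> fin_cases j <;> simp_all
  have hdet : ∀ g : B, g.1.1 0 0 * g.1.1 1 1 = 1 := fun g => by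
    have := g.1.det_coe
    rwa [Matrix.det_fin_two, (hm _).1 g.2, mul_zero, sub_zero] at this
  let f : Fˣ × F → B := fun s => ⟨toSL !![(s.1 : F), s.2; 0, (s.1 : F)⁻¹] (by simp [Matrix.det_fin_two_of]),
    (hm _).2 rfl⟩
  have hf : Function.Bijective f := by
    constructor
    · rintro ⟨a, b⟩ ⟨c, d⟩ h
      have h1 := congrArg (fun g : B => g.1.1 0 0) h
      have h3 := congrArg (fun g : B => g.1.1 0 1) h
      exact Prod.ext (Units.ext h1) h3
    · intro g
      refine ⟨(Units.mk0 (g.1.1 0 0) (left_ne_zero_of_mul_eq_one (hdet g)), g.1.1 0 1), Subtype.ext (SL_ext ?_)⟩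
      exact m2_ext rfl rfl ((hm _).1 g.2).symm (inv_eq_of_mul_eq_one_right (hdet g))
  have hc : Nat.card B = (Nat.card F - 1) * Nat.card F := by
    rw [← Nat.card_eq_of_bijective f hf, Nat.card_prod, Nat.card_units]
  have hcen : ∀ x : B, ¬ Sc x.1 → Nat.card (Cen x) = Nat.card (Cen x.1) := by
    intro x hx
    refine Nat.card_eq_of_bijective (fun y => ⟨y.1.1, mem_Cen.2 (congrArg Subtype.val (mem_Cen.1 y.2))⟩) ⟨?_, ?_⟩
    · intro y z h
      exact Subtype.ext (Subtype.ext (congrArg (fun w : Cen x.1 => w.1) h))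
    · rintro ⟨y, hy⟩
      obtain ⟨a, b, e⟩ := (mem_Cen_SL hx).1 hy
      exact ⟨⟨⟨y, (hm _).2 (by rw [e]; simp [(hm _).1 x.2])⟩, mem_Cen.2 (Subtype.ext (mem_Cen.1 hy))⟩, rfl⟩
  have hne : (1 : Fˣ) ≠ -1 := fun h => h2 (by
    have := congrArg Units.val h
    simp only [Units.val_one, Units.val_neg] at this
    linear_combination this)
  have hSS : ∀ s : Fˣ × F, SS (f s).1 ↔ ¬ (s.1 = 1 ∨ s.1 = -1) := by
    intro s
    have h0 := s.1.ne_zero
    have : tr (f s).1 = s.1 + (s.1 : F)⁻¹ := by simp [f, tr, Matrix.trace_fin_two]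
    rw [SS, this, not_iff_not, Units.ext_iff, Units.ext_iff, Units.val_one, Units.val_neg, Units.val_one,
      ← sq_eq_one_iff]
    constructor
    · intro h
      field_simp at h
      have : ((s.1 : F) ^ 2 - 1) ^ 2 = 0 := by linear_combination h
      exact sub_eq_zero.1 (pow_eq_zero_iff two_ne_zero |>.1 this)
    · intro h
      field_simp
      linear_combination ((s.1 : F) ^ 2 - 1) * h
  have hSc : ∀ s : Fˣ × F, Sc (f s).1 ↔ (s.1 = 1 ∨ s.1 = -1) ∧ s.2 = 0 := by
    intro s
    constructor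
    · intro h
      exact ⟨not_not.1 fun h' => ((hSS s).2 h').not_sc h, h.1⟩
    · rintro ⟨h | h, h'⟩ <;> refine ⟨h', rfl, ?_⟩ <;> simp [f, h]
  have c1 : {x : B | Sc x.1}.ncard = 2 := by
    have : {x : B | Sc x.1} = f '' (({1, -1} : Set Fˣ) ×ˢ {0}) := by
      ext x
      obtain ⟨s, rfl⟩ := hf.2 x
      rw [hf.1.mem_set_image]
      exact hSc s
    rw [this, Set.ncard_image_of_injective _ hf.1, Set.ncard_prod, Set.ncard_pair hne, Set.ncard_singleton]
  have c2 : {x : B | ¬ SS x.1}.ncard = 2 * Nat.card F := by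
    have : {x : B | ¬ SS x.1} = f '' (({1, -1} : Set Fˣ) ×ˢ Set.univ) := by
      ext x
      obtain ⟨s, rfl⟩ := hf.2 x
      rw [hf.1.mem_set_image]
      simp [hSS]
      tauto
    rw [this, Set.ncard_image_of_injective _ hf.1, Set.ncard_prod, Set.ncard_pair hne, Set.ncard_univ]
  have hsub : {x : B | Sc x.1} ⊆ {x : B | ¬ SS x.1} := fun x hx h => h.not_sc hx
  have c3 := Set.ncard_add_ncard_compl {x : B | ¬ SS x.1}
  have h := card_comm_pairs (G := B)
  rw [finsum_three _ {x : B | Sc x.1} ({x : B | ¬ SS x.1} \ {x : B | Sc x.1}) {x : B | ¬ SS x.1}ᶜ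
    Set.disjoint_sdiff_right (by rw [Set.union_sdiff_cancel hsub]; exact disjoint_compl_right)
    (by rw [Set.union_sdiff_cancel hsub, Set.union_compl_self]) (a := (Nat.card F - 1) * Nat.card F)
    (b := 2 * Nat.card F) (c := Nat.card F - 1), Set.ncard_sdiff hsub, c1, c2, hc] at h
  · rw [c2, hc] at c3
    have h1 : 1 < Nat.card F := Finite.one_lt_card
    obtain ⟨n, hn⟩ : ∃ n, Nat.card F = n + 1 := ⟨Nat.card F - 1, by omega⟩
    rw [hn] at h c3 ⊢
    simp only [Nat.add_sub_cancel, show 2 * (n + 1) - 2 = 2 * n by omega] at h c3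
    apply Nat.eq_of_mul_eq_mul_right (show 0 < n * (n + 1) from Nat.mul_pos (by omega) (by omega))
    rw [h]
    nlinarith
  · intro x hx
    have : Cen x = ⊤ := eq_top_iff.2 fun y _ => mem_Cen.2 (Subtype.ext (mem_Cen.1 (Sc.mem_Cen hx y.1)).symm)
    rw [this, Subgroup.card_top, hc]
  · intro x hx
    rw [hcen x hx.2, card_Cen_unip hx.2 hx.1, card_center_of_ne h2]
  · intro x hx
    have h1 : SS x.1 := not_not.1 hx
    rw [hcen x h1.not_sc]
    refine h1.card_Cen_of_root (x := x.1.1 0 0) ?_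
    rw [tr, Matrix.trace_fin_two]
    linear_combination -hdet x

end Cfsg.Agent.S2437
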