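import Cfsg.Statements.S2421
import Cfsg.Agent.H6.UnipDegree
import Cfsg.Agent.H1.CharSpan

set_option autoImplicit false
open scoped MatrixGroups
open Cfsg

namespace Cfsg.Agent.S2421

/-- Irreducible characters of `GL_n(q)` indexed by partitions: for `ν` a partition of `n` written with `n` non-decreasing parts `ν_0 ≤ ⋯ ≤ ν_{n−1}` (zeros allowed; positions counted from 0) and `λ_i = ν_i + i`, the alternating sum over permutations `κ` of `{0, …, n−1}` of `sign κ` times the permutation character on partial flags of type `λ − κ` (terms with a negative entry omitted) is an irreducible complex character of `GL_n(q)`. For `ν = (1, …, 1)` this is the Steinberg character. -/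
theorem result {F : Type*} [Field F] [Fintype F] {n : ℕ} (ν : Fin n → ℕ) (hmono : Monotone ν) (hsum : ∑ i, ν i = n) :
    Cfsg.IsIrrCharacter (GL (Fin n) F) (Cfsg.unipotentCharacterGL n F ν) := by
  classical
  apply H1.IsGeneralizedCharacter.isIrr
  · have e : Cfsg.unipotentCharacterGL n F ν = ∑ κ : Equiv.Perm (Fin n),
        if ∀ i : Fin n, (κ i).val ≤ ν i + i.val then
          ((Equiv.Perm.sign κ : ℤˣ) : ℤ) •
            fixedPointCharacter (parabolicGL n F fun i => ν i + i.val - (κ i).val)
        else 0 := by
      funext g
      rw [unipotentCharacterGL, Finset.sum_apply]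
      refine Finset.sum_congr rfl fun κ _ => ?_
      split_ifs
      · simp
      · rfl
    rw [e]
    refine H1.isGeneralizedCharacter_sum _ _ fun κ _ => ?_
    split_ifs
    · exact H1.IsGeneralizedCharacter.zsmul
        (H1.IsCharacter.isGeneralized (H1.isCharacter_fixedBy _)) _
    · exact H1.IsCharacter.isGeneralized H1.isCharacter_zero
  · have h := H6.inner_unipotentCharacterGL (F := F) ν ν hmono hsum hmono hsum
    rw [if_pos rfl] at h
    rw [← h, classInner]
    congr 1
    refine Finset.sum_congr rfl fun g _ => ?_
    congr 1
    simp only [unipotentCharacterGL, map_sum]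
    refine Finset.sum_congr rfl fun κ _ => ?_
    split_ifs
    · simp [fixedPointCharacter]
    · simp
  · obtain ⟨r, hr, e⟩ := H6.unipotentCharacterGL_one_pos (F := F) ν hmono hsum
    rw [e]
    simpa using hr

end Cfsg.Agent.S2421
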