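import Cfsg.Statements.S2035
import Cfsg.Agent.H9.PubMath
import Cfsg.Agent.L0.Mu.M12P2
import Cfsg.Agent.L0.Mu.M12P3
import Cfsg.Agent.L0.M12.Low

set_option autoImplicit false
open Cfsg

namespace Cfsg.Agent.S2035

/-- The Schur multiplier of the Mathieu group M₁₂ (the stabiliser of a dodecad in the automorphism group of the length-24 binary code) is cyclic of order 2; here the Schur multiplier is described through stem extensions, as in the definitions: surjective homomorphisms onto the group from a finite group, whose kernel is central in that finite group and contained in that finite group's commutator subgroup. -/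
theorem result : Cfsg.HasCyclicSchurMultiplier ↥Cfsg.Spor.M12 2 := by
  obtain ⟨A, g, ht, hb, hc, -⟩ := H9.pubM12
  exact L0.hasSchur_of (L0.M12Pres.lower (L0.M12Pres.isPres hb ht hc))
    (L0.upper_cyclic (k2 := 1) (k3 := 0) rfl
    (L0.M12P2.pm hb ht hc) ((L0.M12P3.pm hb ht hc).mono (by norm_num))
    (L0.pmult_rest hc [] (by simp) (by decide +kernel) (by decide +kernel)))

end Cfsg.Agent.S2035
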