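import Cfsg.Statements.S2036
import Cfsg.Agent.H9.PubMath
import Cfsg.Agent.L0.Mu.M22P2
import Cfsg.Agent.L0.Mu.M22P3
import Cfsg.Agent.L0.M22.Low

set_option autoImplicit false
open Cfsg

namespace Cfsg.Agent.S2036

/-- The Schur multiplier of the Mathieu group M₂₂ (the permutations in the automorphism group of the length-24 binary code that fix each of two given points) is cyclic of order 12; here the Schur multiplier is described through stem extensions, as in the definitions: surjective homomorphisms onto the group from a finite group, whose kernel is central in that finite group and contained in that finite group's commutator subgroup. -/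
theorem result : Cfsg.HasCyclicSchurMultiplier ↥Cfsg.Spor.M22 12 := by
  obtain ⟨A, g, ht, hb, hc, -⟩ := H9.pubM22
  exact L0.hasSchur_of (L0.M22Pres.lower (L0.M22Pres.isPres hb ht hc))
    (L0.upper_cyclic (k2 := 2) (k3 := 1) rfl
    (L0.M22P2.pm hb ht hc) (L0.M22P3.pm hb ht hc)
    (L0.pmult_rest hc [] (by simp) (by decide +kernel) (by decide +kernel)))

end Cfsg.Agent.S2036
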