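import Cfsg.Statements.S2037
import Cfsg.Agent.L0.Bridge9
import Cfsg.Agent.L0.Mu.M23P2
import Cfsg.Agent.L0.Mu.M23P3

set_option autoImplicit false
open Cfsg

namespace Cfsg.Agent.S2037

/-- The Schur multiplier of the Mathieu group M₂₃ (the stabiliser of a point in the automorphism group of the length-24 binary code) is trivial; here the Schur multiplier is described through stem extensions, as in the definitions: surjective homomorphisms onto the group from a finite group, whose kernel is central in that finite group and contained in that finite group's commutator subgroup. -/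
theorem result : Cfsg.HasCyclicSchurMultiplier ↥Cfsg.Spor.M23 1 := by
  obtain ⟨g0, hg⟩ := H9.exists_tab_math (T := H9.OutM23.T) H9.memP23 (k := 3) (ts := H9.OutM23.ts)
    (tis := H9.OutM23.tis) (by decide +kernel)
  obtain ⟨g, -, h⟩ := H9.OutM23.ok hg H9.card_M23_le
  have hb := L0.ofRA_base h.base
  have ht := L0.ofRA_tab h.tab
  exact L0.hasSchur_of (L0.lowerMult_one _) (L0.upper_cyclic (k2 := 0) (k3 := 0) rfl
    ((L0.M23P2.pm hb ht h.card).mono (by norm_num)) ((L0.M23P3.pm hb ht h.card).mono (by norm_num))
    (L0.pmult_rest h.card [] (by simp) (by decide +kernel) (by decide +kernel)))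

end Cfsg.Agent.S2037
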