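import Cfsg.Statements.S2039
import Cfsg.Agent.H9.OutJ1
import Cfsg.Agent.L0.Mu.J1P2

set_option autoImplicit false
open Cfsg

namespace Cfsg.Agent.S2039

/-- The Schur multiplier of the Janko group J₁ (the group generated by two explicit 7 × 7 matrices over the integers modulo 11) is trivial; here the Schur multiplier is described through stem extensions, as in the definitions: surjective homomorphisms onto the group from a finite group, whose kernel is central in that finite group and contained in that finite group's commutator subgroup. -/
theorem result : Cfsg.HasCyclicSchurMultiplier ↥Cfsg.Spor.J1 1 := by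
  obtain ⟨A, g, -, ht, hb, hc, -⟩ := H9.OutJ1.pub
  haveI : Finite Cfsg.Spor.J1 := Nat.finite_of_card_ne_zero (by rw [hc]; norm_num)
  exact L0.hasSchur_of (L0.lowerMult_one _) (L0.upper_cyclic (k2 := 0) (k3 := 0) rfl
    ((L0.J1P2.pm hb ht hc).mono (by norm_num))
    ((L0.pmult_of_not_sq_dvd Nat.prime_three (by rw [hc]; norm_num)).mono (by norm_num))
    (L0.pmult_rest hc [] (by simp) (by decide +kernel) (by decide +kernel)))

end Cfsg.Agent.S2039
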