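import Cfsg.Statements.S2040
import Cfsg.Agent.L0.Jan.J2Low
import Cfsg.Agent.L0.Mu.J2P2
import Cfsg.Agent.L0.Mu.J2P3
import Cfsg.Agent.L0.Mu.J2P5

set_option autoImplicit false
open Cfsg

namespace Cfsg.Agent.S2040

/-- The Schur multiplier of the Hall–Janko group J₂ (the icosian reflection group modulo its centre) is cyclic of order 2; here the Schur multiplier is described through stem extensions, as in the definitions: surjective homomorphisms onto the group from a finite group, whose kernel is central in that finite group and contained in that finite group's commutator subgroup. -/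
theorem result : Cfsg.HasCyclicSchurMultiplier Cfsg.Spor.J2 2 := by
  obtain ⟨A, g, ht, hb, hc, -⟩ := H9.OutJ2.pub
  have hU : L0.UpperMult Cfsg.Spor.J2 (Multiplicative (ZMod 2)) :=
    L0.upper_cyclic (k2 := 1) (k3 := 0) rfl (L0.J2P2.pm hb ht hc)
      ((L0.J2P3.pm hb ht hc).mono (by norm_num))
      (L0.pmult_rest hc [5] (by simpa using L0.J2P5.pm hb ht hc)
        (by decide +kernel) (by decide +kernel))
  exact L0.hasSchur_of (L0.J2Low.lower hU) hU

end Cfsg.Agent.S2040
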