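import Cfsg.Statements.S2041
import Cfsg.Agent.L0.Jan.J3Low
import Cfsg.Agent.L0.Mu.J3P2
import Cfsg.Agent.L0.Mu.J3P3

set_option autoImplicit false
open Cfsg

namespace Cfsg.Agent.S2041

/-- For any field with 4 elements and any element ω of it with ω² + ω + 1 = 0: the Schur multiplier of the Janko group J₃ (the group generated by explicit 9 × 9 matrices over that field built from ω, taken modulo its centre) is cyclic of order 3; here the Schur multiplier is described through stem extensions, as in the definitions: surjective homomorphisms onto the group from a finite group, whose kernel is central in that finite group and contained in that finite group's commutator subgroup. -/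
theorem result {F : Type*} [Field F] [Fintype F] (hF : Fintype.card F = 4) (ω : F) (hω : ω ^ 2 + ω + 1 = 0) : Cfsg.HasCyclicSchurMultiplier (Cfsg.Spor.J3 F ω) 3 := by
  haveI := H9.charP_of_card_four hF
  obtain ⟨A, g, -, ht, hb, hc, -⟩ := H9.OutJ3.pub hω
  haveI := H9.OutJ3.finite hω
  have hU : L0.UpperMult (Cfsg.Spor.J3 F ω) (Multiplicative (ZMod 3)) :=
    L0.upper_cyclic (k2 := 0) (k3 := 1) rfl ((L0.J3P2.pm hb ht hc).mono (by norm_num))
      (L0.J3P3.pm hb ht hc)
      (L0.pmult_rest hc [] (by simp) (by decide +kernel) (by decide +kernel))
  exact L0.hasSchur_of (L0.J3Low.lower hω hU) hU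

end Cfsg.Agent.S2041
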