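import Cfsg.Statements.S2043
import Cfsg.Agent.L0.Co1.Low
import Cfsg.Agent.L0.Mu.Co1P2
import Cfsg.Agent.L0.Mu.Co1P3
import Cfsg.Agent.L0.Mu.Co1P5
import Cfsg.Agent.L0.Mu.Co1P7
import Cfsg.Agent.L0.Bridge9

set_option autoImplicit false
open Cfsg

namespace Cfsg.Agent.S2043

/-- The Schur multiplier of the Conway group Co₁ (the automorphism group of the rank-24 lattice modulo its centre) is cyclic of order 2; here the Schur multiplier is described through stem extensions, as in the definitions: surjective homomorphisms onto the group from a finite group, whose kernel is central in that finite group and contained in that finite group's commutator subgroup. -/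
theorem result : Cfsg.HasCyclicSchurMultiplier Cfsg.Spor.Co1 2 := by
  obtain ⟨A, g, ht, hb, hc, -⟩ := H9.OutCo1.pub
  have ht := L0.Co1Low.tab8 ht
  haveI : Finite Cfsg.Spor.Co1 := Nat.finite_of_card_ne_zero (by rw [hc]; norm_num)
  exact L0.hasSchur_of L0.Co1Low.lower (L0.upper_cyclic (k2 := 1) (k3 := 0) rfl (L0.Co1P2.pm hb ht hc)
    ((L0.Co1P3.pm hb ht hc).mono (by norm_num))
    (L0.pmult_rest hc [5, 7] (by simpa using ⟨L0.Co1P5.pm hb ht hc, L0.Co1P7.pm hb ht hc⟩)
      (by decide +kernel) (by decide +kernel)))

end Cfsg.Agent.S2043
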