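import Cfsg.Statements.S2044
import Cfsg.Agent.L0.Mu.Co2P2
import Cfsg.Agent.L0.Mu.Co2P3
import Cfsg.Agent.L0.Mu.Co2P5

set_option autoImplicit false
open Cfsg

namespace Cfsg.Agent.S2044

/-- The Schur multiplier of the Conway group Co₂ (the stabiliser of a minimal vector of the rank-24 lattice) is trivial; here the Schur multiplier is described through stem extensions, as in the definitions: surjective homomorphisms onto the group from a finite group, whose kernel is central in that finite group and contained in that finite group's commutator subgroup. -/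
theorem result : Cfsg.HasCyclicSchurMultiplier ↥Cfsg.Spor.Co2 1 := by
  obtain ⟨A, g, ht, hb, hc, -⟩ := H9.OutCo2.pub
  exact L0.hasSchur_of (L0.lowerMult_one _) (L0.upper_cyclic (k2 := 0) (k3 := 0) rfl
    ((L0.Co2P2.pm hb ht hc).mono (by norm_num)) ((L0.Co2P3.pm hb ht hc).mono (by norm_num))
    (L0.pmult_rest hc [5] (by simpa using L0.Co2P5.pm hb ht hc) (by decide +kernel) (by decide +kernel)))

end Cfsg.Agent.S2044
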