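import Cfsg.Statements.S2047
import Cfsg.Agent.L0.Mu.McLP2
import Cfsg.Agent.L0.Mu.McLP3
import Cfsg.Agent.L0.Mu.McLP5
import Cfsg.Agent.L0.McL.Low

set_option autoImplicit false
open Cfsg

namespace Cfsg.Agent.S2047

/-- The Schur multiplier of the McLaughlin group (as a two-vector stabiliser in the automorphism group of the rank-24 lattice) is cyclic of order 3; here the Schur multiplier is described through stem extensions, as in the definitions: surjective homomorphisms onto the group from a finite group, whose kernel is central in that finite group and contained in that finite group's commutator subgroup. -/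
theorem result : Cfsg.HasCyclicSchurMultiplier ↥Cfsg.Spor.McL 3 := by
  obtain ⟨A, g, ht, hb, hc, -⟩ := H9.OutMcL.pub
  exact L0.hasSchur_of (L0.McLPres.lower (L0.McLPres.isPres hb ht hc))
    (L0.upper_cyclic (k2 := 0) (k3 := 1) rfl
    ((L0.McLP2.pm hb ht hc).mono (by norm_num)) (L0.McLP3.pm hb ht hc)
    (L0.pmult_rest hc [5] (by simpa using L0.McLP5.pm hb ht hc) (by decide +kernel) (by decide +kernel)))

end Cfsg.Agent.S2047
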