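import Cfsg.Statements.S2049
import Cfsg.Agent.L0.Mu.HeP2
import Cfsg.Agent.L0.Mu.HeP3
import Cfsg.Agent.L0.Mu.HeP5
import Cfsg.Agent.L0.Mu.HeP7

set_option autoImplicit false
open Cfsg

namespace Cfsg.Agent.S2049

/-- The Schur multiplier of the Held group (the finitely presented group of the definitions) is trivial; here the Schur multiplier is described through stem extensions, as in the definitions: surjective homomorphisms onto the group from a finite group, whose kernel is central in that finite group and contained in that finite group's commutator subgroup. -/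
theorem result : Cfsg.HasCyclicSchurMultiplier Cfsg.Spor.He 1 := by
  haveI := L0.HeG.card_le.1
  obtain ⟨A, g, ht, hb, hc, -⟩ := H9.OutHe.pub
  exact L0.hasSchur_of (L0.lowerMult_one _) (L0.upper_cyclic (k2 := 0) (k3 := 0) rfl
    ((L0.HeP2.pm hb ht hc).mono (by norm_num)) ((L0.HeP3.pm hb ht hc).mono (by norm_num))
    (L0.pmult_rest hc [5, 7] (by simpa using ⟨L0.HeP5.pm hb ht hc, L0.HeP7.pm hb ht hc⟩)
      (by decide +kernel) (by decide +kernel)))

end Cfsg.Agent.S2049
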