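import Cfsg.Statements.S2051
import Cfsg.Agent.L0.Jan.RuLow
import Cfsg.Agent.L0.Mu.RuP2
import Cfsg.Agent.L0.Mu.RuP3
import Cfsg.Agent.L0.Mu.RuP5

set_option autoImplicit false
open Cfsg

namespace Cfsg.Agent.S2051

/-- The Schur multiplier of the Rudvalis group (the unitary automorphism group of the rank-28 Gaussian lattice modulo its centre) is cyclic of order 2; here the Schur multiplier is described through stem extensions, as in the definitions: surjective homomorphisms onto the group from a finite group, whose kernel is central in that finite group and contained in that finite group's commutator subgroup. -/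
theorem result : Cfsg.HasCyclicSchurMultiplier Cfsg.Spor.Ru 2 := by
  obtain ⟨A, g, ht, hb, hc, -⟩ := H9.OutRu.pub
  haveI : Finite Cfsg.Spor.Ru := Nat.finite_of_card_ne_zero (by rw [hc]; norm_num)
  have hU : L0.UpperMult Cfsg.Spor.Ru (Multiplicative (ZMod 2)) :=
    L0.upper_cyclic (k2 := 1) (k3 := 0) rfl (L0.RuP2.pm hb ht hc)
      ((L0.RuP3.pm hb ht hc).mono (by norm_num))
      (L0.pmult_rest hc [5] (by simpa using L0.RuP5.pm hb ht hc)
        (by decide +kernel) (by decide +kernel))
  exact L0.hasSchur_of (L0.RuLow.lower hU) hU

end Cfsg.Agent.S2051
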