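import Cfsg.Statements.S2052
import Cfsg.Agent.L0.ON.Chn
import Cfsg.Agent.L0.Mu.ONP2
import Cfsg.Agent.L0.Mu.ONP3
import Cfsg.Agent.L0.Mu.ONP7

set_option autoImplicit false
open Cfsg

namespace Cfsg.Agent.S2052

/-- The Schur multiplier of the O'Nan group (the finitely presented group of the definitions) is cyclic of order 3; here the Schur multiplier is described through stem extensions, as in the definitions: surjective homomorphisms onto the group from a finite group, whose kernel is central in that finite group and contained in that finite group's commutator subgroup. -/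
theorem result : Cfsg.HasCyclicSchurMultiplier Cfsg.Spor.ON 3 := by
  haveI := L0.ONG.card_le.1
  obtain ⟨A, ht⟩ := L0.ONG.exists_act
  obtain ⟨hb, hc⟩ := L0.ONChn.ch ht L0.ONG.card_le.2
  exact L0.hasSchur_of L0.ONG.lower (L0.upper_cyclic (k2 := 0) (k3 := 1) rfl
    ((L0.ONP2.pm hb ht hc).mono (by norm_num)) (L0.ONP3.pm hb ht hc)
    (L0.pmult_rest hc [7] (by simpa using L0.ONP7.pm hb ht hc)
      (by decide +kernel) (by decide +kernel)))

end Cfsg.Agent.S2052
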