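import Cfsg.Statements.S2053
import Cfsg.Agent.L0.Mu.Fi22P2
import Cfsg.Agent.L0.Mu.Fi22P3
import Cfsg.Agent.L0.Mu.Fi22P5
import Cfsg.Agent.L0.Fi22.Low

set_option autoImplicit false
open Cfsg

namespace Cfsg.Agent.S2053

/-- The Schur multiplier of the Fischer group Fi₂₂ (the finitely presented group of the definitions) is cyclic of order 6; here the Schur multiplier is described through stem extensions, as in the definitions: surjective homomorphisms onto the group from a finite group, whose kernel is central in that finite group and contained in that finite group's commutator subgroup. -/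
theorem result : Cfsg.HasCyclicSchurMultiplier Cfsg.Spor.Fi22 6 := by
  haveI := L0.Fi22G.card_le.1
  obtain ⟨A, g, ht, hb, hc, -⟩ := H9.OutFi22.pub
  exact L0.hasSchur_of L0.Fi22G.lower (L0.upper_cyclic (k2 := 1) (k3 := 1) rfl
    (L0.Fi22P2.pm hb ht hc) (L0.Fi22P3.pm hb ht hc)
    (L0.pmult_rest hc [5] (by simpa using L0.Fi22P5.pm hb ht hc) (by decide +kernel) (by decide +kernel)))

end Cfsg.Agent.S2053
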