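import Cfsg.Statements.S2055
import Cfsg.Agent.L0.Fi24.Pair
import Cfsg.Agent.L0.Mu.Fi24P2
import Cfsg.Agent.L0.Mu.Fi24P3
import Cfsg.Agent.L0.Mu.Fi24P5
import Cfsg.Agent.L0.Mu.Fi24P7

set_option autoImplicit false
open Cfsg

namespace Cfsg.Agent.S2055

/-- The Schur multiplier of the Fischer group Fi₂₄′ (the commutator subgroup of the presented group Fi₂₄) is cyclic of order 3; here the Schur multiplier is described through stem extensions, as in the definitions: surjective homomorphisms onto the group from a finite group, whose kernel is central in that finite group and contained in that finite group's commutator subgroup. -/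
theorem result : Cfsg.HasCyclicSchurMultiplier Cfsg.Spor.Fi24' 3 := by
  obtain ⟨A, -, ht, hb, hc⟩ := L0.Fi24G.exists_act'
  exact L0.hasSchur_of L0.Fi24G.lower (L0.upper_cyclic (k2 := 0) (k3 := 1) rfl
    ((L0.Fi24P2.pm hb ht hc).mono (by norm_num)) (L0.Fi24P3.pm hb ht hc)
    (L0.pmult_rest hc [5, 7] (by simpa using ⟨L0.Fi24P5.pm hb ht hc, L0.Fi24P7.pm hb ht hc⟩)
      (by decide +kernel) (by decide +kernel)))

end Cfsg.Agent.S2055
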