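import Cfsg.Statements.S2057
import Cfsg.Agent.L0.Th.Grp

set_option autoImplicit false
open Cfsg

namespace Cfsg.Agent.S2057

/-- The Schur multiplier of the Thompson group (the finitely presented group of the definitions) is trivial; here the Schur multiplier is described through stem extensions, as in the definitions: surjective homomorphisms onto the group from a finite group, whose kernel is central in that finite group and contained in that finite group's commutator subgroup. -/
theorem result : Cfsg.HasCyclicSchurMultiplier Cfsg.Spor.Th 1 := by
  haveI := L0.ThG.finite
  exact L0.hasSchur_of (L0.lowerMult_one _) L0.ThG.upper

end Cfsg.Agent.S2057
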