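import Cfsg.Statements.S2086
import Cfsg.Agent.H6.StMult

set_option autoImplicit false
open Cfsg

namespace Cfsg.Agent.S2086

/-- Schur multipliers of the linear groups: for n ≥ 2 and a field F with q elements (q ≥ 4 when n = 2), apart from the five exceptional pairs (n, q) = (2, 4), (2, 9), (3, 2), (3, 4), (4, 2), the Schur multiplier of PSL_n(F) is cyclic of order gcd(n, q − 1); here the Schur multiplier is described through stem extensions, as in the definitions. -/
theorem result {F : Type*} [Field F] [Fintype F] {q : ℕ} (hF : Fintype.card F = q) (n : ℕ) (hn : 2 ≤ n) (h2 : n = 2 → 4 ≤ q) (hexc : (n, q) ∉ ({(2, 4), (2, 9), (3, 2), (3, 4), (4, 2)} : Set (ℕ × ℕ))) : Cfsg.HasCyclicSchurMultiplier (Matrix.ProjectiveSpecialLinearGroup (Fin n) F) (Nat.gcd n (q - 1)) := by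
  subst hF
  obtain ⟨e⟩ := H6.center_SL_equiv (K := F) (n := n) (by omega)
  let π : Matrix.SpecialLinearGroup (Fin n) F →* Matrix.ProjectiveSpecialLinearGroup (Fin n) F :=
    QuotientGroup.mk' _
  have hπ : Function.Surjective π := QuotientGroup.mk'_surjective _
  have hker : π.ker = Subgroup.center _ := QuotientGroup.ker_mk' _
  refine ⟨⟨Matrix.SpecialLinearGroup (Fin n) F, inferInstance, inferInstance, π,
    ⟨hπ, hker.le, ?_⟩, ⟨(MulEquiv.subgroupCongr hker).trans e⟩⟩, fun Γ _ _ σ hσ => ?_⟩
  · rw [H6.commutator_SL_eq_top]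
    · exact le_top
    by_cases h3 : 3 ≤ n
    · exact Or.inl h3
    · right
      have := h2 (by omega)
      by_contra hc
      push Not at hc
      have h := (FiniteField.forall_pow_eq_one_iff F 2).mp fun a =>
        Units.ext (by simpa using hc a a.ne_zero)
      have := Nat.le_of_dvd two_pos h
      omega
  · obtain ⟨ψ, hψ⟩ := (H6.CExt.ofSurj hσ.1 hσ.2.1).exists_hom_SL hn h2 hexc π
    obtain ⟨f, hf⟩ := H6.exists_surj_ker hσ hπ hψ
    exact ⟨f.comp ((MulEquiv.subgroupCongr hker).trans e).symm.toMonoidHom,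
      hf.comp ((MulEquiv.subgroupCongr hker).trans e).symm.surjective⟩

end Cfsg.Agent.S2086
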