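import Cfsg.Statements.S2088
import Cfsg.Agent.H3.Mu.L34.Schur
import Cfsg.Agent.H3.Mu.L34.Vec
import Cfsg.Agent.H3.Fld3

set_option autoImplicit false
open Cfsg

namespace Cfsg.Agent.S2088

/-- Exceptional Schur multiplier: over the field with 4 elements, PSL₃ has Schur multiplier isomorphic to the product of cyclic groups of orders 3, 4 and 4 (order 48, not cyclic; here the Schur multiplier is described through stem extensions, as in the definitions). -/
theorem result {F : Type*} [Field F] [Fintype F] (hF : Fintype.card F = 4) : Cfsg.HasSchurMultiplier (Matrix.ProjectiveSpecialLinearGroup (Fin 3) F) (Multiplicative (ZMod 3 × ZMod 4 × ZMod 4)) := by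
  obtain ⟨φ, hφ⟩ := H3.exists_emb4 hF
  exact H3.schur_quot (z := 3) (H3.L34.model hφ _ Matrix.SpecialLinearGroup.coeMonoidHom_injective
    H3.sl_center fun i hi => H3.sl_gen φ (by revert i; decide +kernel)) (fun _ h => H3.L34.schur h)
    (by norm_num) (H3.card_SL_of hF (by decide +kernel)).le
    (H3.le_card_center Matrix.SpecialLinearGroup.coeMonoidHom_injective hφ.bij.1 (H3.qw 2 1 1)
      (H3.sl_gen φ (by decide +kernel)) (by norm_num) (by decide +kernel) (by decide +kernel))

end Cfsg.Agent.S2088
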