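import Cfsg.Statements.S2090
import Cfsg.Agent.H3.Mu.U43.Schur
import Cfsg.Agent.H3.Mu.U43.Vec
import Cfsg.Agent.H3.Fld3

set_option autoImplicit false
open Cfsg

namespace Cfsg.Agent.S2090

/-- Exceptional Schur multiplier: PSU₄(3), realised over the field with 9 elements, has Schur multiplier isomorphic to the product of cyclic groups of orders 4, 3 and 3 (order 36, not cyclic; here the Schur multiplier is described through stem extensions, as in the definitions). -/
theorem result {F : Type*} [Field F] [Fintype F] (hF : Fintype.card F = 9) : Cfsg.HasSchurMultiplier (Cfsg.PSU 4 F 3) (Multiplicative (ZMod 4 × ZMod 3 × ZMod 3)) := by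
  obtain ⟨φ, hφ⟩ := H3.exists_emb9 hF
  have hF' : Fintype.card F = 3 ^ 2 := hF
  exact H3.schur_quot (z := 4) (H3.U43.model hφ _ (H3.suMat_inj 4 3) (H3.su_center hF')
    fun i hi => H3.su_gen hF' φ (by revert i; decide +kernel)
      (H3.det_map_eq_one φ (m := 1) Nat.prime_three hφ.char (by revert i; decide +kernel)))
    (fun _ h => H3.U43.schur h) (by norm_num) (H3.card_SU_of hF' (by decide +kernel)).le
    (H3.le_card_center (H3.suMat_inj 4 3) hφ.bij.1 (H3.qw 3 2 0)
      (H3.su_gen hF' φ (by decide +kernel) (H3.det_smul_one_map φ (by decide +kernel)))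
      (by norm_num) (by decide +kernel) (by decide +kernel))

end Cfsg.Agent.S2090
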