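import Cfsg.Statements.S2092
import Cfsg.Agent.H6.CSp

set_option autoImplicit false
open Cfsg

namespace Cfsg.Agent.S2092

/-- Schur multipliers of the symplectic groups: for m ≥ 2 and a field F with q elements (q ≥ 3 when m = 2), with (m, q) ≠ (3, 2), the Schur multiplier of PSp_2m(F) is cyclic of order gcd(2, q − 1); here the Schur multiplier is described through stem extensions, as in the definitions. -/
theorem result {F : Type*} [Field F] [Fintype F] {q : ℕ} (hF : Fintype.card F = q) (m : ℕ) (hm : 2 ≤ m) (h2 : m = 2 → 3 ≤ q) (hexc : ¬ (m = 3 ∧ q = 2)) : Cfsg.HasCyclicSchurMultiplier (Cfsg.PSp m F) (Nat.gcd 2 (q - 1)) := by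
  subst hF
  exact H6.schur_sp m F hm (by omega)

end Cfsg.Agent.S2092
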