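import Cfsg.Statements.S2093
import Cfsg.Agent.H3.Mu.S62.Schur
import Cfsg.Agent.H3.Mu.S62.Vec
import Cfsg.Agent.H3.Fld3
import Cfsg.Agent.H5.Sp

set_option autoImplicit false
open Cfsg

namespace Cfsg.Agent.S2093

/-- Exceptional Schur multiplier: over the field with 2 elements, PSp₆ has Schur multiplier cyclic of order 2 (here the Schur multiplier is described through stem extensions, as in the definitions). -/
theorem result {F : Type*} [Field F] [Fintype F] (hF : Fintype.card F = 2) : Cfsg.HasCyclicSchurMultiplier (Cfsg.PSp 3 F) 2 := by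
  obtain ⟨φ, hφ⟩ := H3.exists_emb_prime Nat.prime_two hF
  exact H3.schur_quot (z := 1) (H3.S62.model hφ (Matrix.symplecticGroup (Fin 3) F).subtype
    Subtype.val_injective (fun _ h => H5.mem_center_sp_iff.mp h)
    fun i hi => H3.sp_gen φ (by revert i; decide +kernel)) (fun _ h => H3.S62.schur h)
    Nat.one_pos (by rw [H5.card_sp, hF]; decide +kernel) Nat.card_pos

end Cfsg.Agent.S2093
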