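import Cfsg.Statements.S2094
import Cfsg.Agent.H6.COrth3

set_option autoImplicit false
open Cfsg

namespace Cfsg.Agent.S2094

/-- Schur multipliers of the odd-dimensional orthogonal groups: for m ≥ 3 and a field F of odd order q with (m, q) ≠ (3, 3), the Schur multiplier of PΩ_(2m+1)(F) (for the form x₀² + Σ xᵢyᵢ) is cyclic of order 2 = gcd(2, q − 1); here the Schur multiplier is described through stem extensions, as in the definitions. -/
theorem result {F : Type*} [Field F] [Fintype F] {q : ℕ} (hF : Fintype.card F = q) (hq : Odd q) (m : ℕ) (hm : 3 ≤ m) (hexc : ¬ (m = 3 ∧ q = 3)) : Cfsg.HasCyclicSchurMultiplier (Cfsg.POmega F (Cfsg.quadFormOdd m F)) 2 := by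
  subst hF
  exact H6.schur_odd m (H6.two_ne_zero_of_odd_card F hq) hm (by omega)

end Cfsg.Agent.S2094
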