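import Cfsg.Statements.S2095
import Cfsg.Agent.H3.Mu.O7.Schur
import Cfsg.Agent.H3.Mu.O7.Vec
import Cfsg.Agent.H3.Mu.O7.Cen
import Cfsg.Agent.H3.Orth

set_option autoImplicit false
open Cfsg

namespace Cfsg.Agent.S2095

instance : Fact (Nat.Prime 3) := ⟨Nat.prime_three⟩

/-- order of the basis vectors -/
def b (i : ℕ) : Unit ⊕ (Fin 3 ⊕ Fin 3) :=
  [.inr (.inl 0), .inr (.inr 0), .inr (.inl 1), .inr (.inr 1), .inr (.inl 2), .inr (.inr 2)].getD i
    (.inl ())

theorem cnt : ∀ i < 7, (Finset.univ.filter fun v : Unit ⊕ (Fin 3 ⊕ Fin 3) → ZMod 3 =>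
    quadFormOdd 3 (ZMod 3) v = quadFormOdd 3 (ZMod 3) (Pi.single (b i) 1) ∧ v ≠ 0 ∧
      ∀ j < i, quadFormOdd 3 (ZMod 3) (v + Pi.single (b j) 1) =
        quadFormOdd 3 (ZMod 3) (Pi.single (b i) 1 + Pi.single (b j) 1)).card ≤
      [728, 243, 80, 27, 8, 3, 2].getD i 0 := by
  intro i hi
  interval_cases i <;> decide +kernel

theorem gens : ∀ i < 5, let Q := quadFormOdd 3 (ZMod 3)
    let v := H3.Vec.dec H3.O7.P H3.O7.e (1 : ZMod 3)
      ([0x41000208080, 0x40800408000, 0x80010404080, 0x40810200002, 0x40820408081].getD i 0)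
    let w := H3.Vec.dec H3.O7.P H3.O7.e (1 : ZMod 3)
      ([0x80020200082, 0x80810400001, 0x10400002, 0x1000204000, 0x80020204101].getD i 0)
    Q v * Q v = 1 ∧ Q w * Q w = 1 ∧ H3.O7.M i = H3.rm Q v * H3.rm Q w * (H3.rm Q v * H3.rm Q w) := by
  decide +kernel

/-- Exceptional Schur multiplier: over the field with 3 elements, PΩ₇ (for the form x₀² + Σ xᵢyᵢ) has Schur multiplier cyclic of order 6 (the product of cyclic groups of orders 3 and 2; here the Schur multiplier is described through stem extensions, as in the definitions). -/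
theorem result {F : Type*} [Field F] [Fintype F] (hF : Fintype.card F = 3) : Cfsg.HasCyclicSchurMultiplier (Cfsg.POmega F (Cfsg.quadFormOdd 3 F)) 6 := by
  classical
  obtain ⟨φ, hφ⟩ := H3.exists_emb_prime Nat.prime_three hF
  have hQ : ∀ v, H6.qOdd 3 F (φ ∘ v) = φ (quadFormOdd 3 (ZMod 3) v) := fun v => by
    simp [H6.qOdd_apply, quadFormOdd]
  have h0 : (2 : F) ≠ 0 := H6.two_ne_zero_of_odd_card F (by rw [hF]; decide)
  have h1 := H3.card_O_le hφ.bij hQ b _ 7 (by decide +kernel) cnt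
  have h2 := H3.card_Omega_four (H6.qOdd_nondeg 3 F h0) (by simp)
    (v := Pi.single (.inl ()) 1) (w := Pi.single (.inr (.inl 0)) 1 - Pi.single (.inr (.inr 0)) 1)
    (by simp [H6.qOdd_apply]) (by
      have : ringChar F ≠ 2 := fun h => h0 (by exact_mod_cast (h ▸ ringChar.Nat.cast_ringChar (R := F)))
      have h3 := quadraticChar_neg_one this
      rw [hF] at h3
      simpa [H6.qOdd_apply, Fin.sum_univ_three] using h3)
  have h3 : Nat.card (Omega F (H6.qOdd 3 F)) ≤ 4585351680 :=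
    Nat.le_of_mul_le_mul_right (h2.trans (h1.trans (by decide +kernel))) (by norm_num)
  have hm := H3.O7.modelc hφ (H3.omMat (H6.qOdd 3 F)) (fun i hi => H3.omega_gen hQ (gens i hi))
    H3.O7.card h3
  exact H3.schur_quot_bot (H3.O7.schur hm).2.2 (H3.O7.cen hm)

end Cfsg.Agent.S2095
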