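import Cfsg.Statements.S2097
import Cfsg.Agent.H6.COrth3

set_option autoImplicit false
open Cfsg

namespace Cfsg.Agent.S2097

/-- Schur multipliers of the even-dimensional orthogonal groups of plus type and even rank: for even l ≥ 4 and a field F with q elements, (l, q) ≠ (4, 2), the Schur multiplier of PΩ⁺_2l(F) (for the form Σ xᵢyᵢ) is the product of two cyclic groups of order gcd(2, q^l − 1) (so trivial for q even and a four-group for q odd; here the Schur multiplier is described through stem extensions, as in the definitions). -/
theorem result {F : Type*} [Field F] [Fintype F] {q : ℕ} (hF : Fintype.card F = q) (l : ℕ) (hl : 4 ≤ l) (heven : Even l) (hexc : ¬ (l = 4 ∧ q = 2)) : Cfsg.HasSchurMultiplier (Cfsg.POmega F (Cfsg.quadFormPlus l F)) (Multiplicative (ZMod (Nat.gcd 2 (q ^ l - 1)) × ZMod (Nat.gcd 2 (q ^ l - 1)))) := by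
  subst hF
  exact H6.schur_plus_even l hl heven (by omega)

end Cfsg.Agent.S2097
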