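import Cfsg.Statements.S2098
import Cfsg.Agent.H3.Mu.O8.Schur
import Cfsg.Agent.H3.Mu.O8.Vec
import Cfsg.Agent.H3.Mu.O8.Cen
import Cfsg.Agent.H3.Orth

set_option autoImplicit false
open Cfsg

namespace Cfsg.Agent.S2098

instance : Fact (Nat.Prime 2) := ⟨Nat.prime_two⟩

/-- order of the basis vectors -/
def b (i : ℕ) : Fin 4 ⊕ Fin 4 :=
  [.inl 0, .inr 0, .inl 1, .inr 1, .inl 2, .inr 2, .inl 3].getD i (.inr 3)

theorem cnt : ∀ i < 8, (Finset.univ.filter fun v : Fin 4 ⊕ Fin 4 → ZMod 2 =>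
    quadFormPlus 4 (ZMod 2) v = quadFormPlus 4 (ZMod 2) (Pi.single (b i) 1) ∧ v ≠ 0 ∧
      ∀ j < i, quadFormPlus 4 (ZMod 2) (v + Pi.single (b j) 1) =
        quadFormPlus 4 (ZMod 2) (Pi.single (b i) 1 + Pi.single (b j) 1)).card ≤
      [135, 64, 35, 16, 9, 4, 2, 1].getD i 0 := by decide +kernel

theorem gens : ∀ i < 6, let Q := quadFormPlus 4 (ZMod 2)
    let v := H3.Vec.dec H3.O8.P H3.O8.e (1 : ZMod 2) ([0x17, 0xcb, 0xf1, 0x6d, 0x1b, 0xe8].getD i 0)
    let w := H3.Vec.dec H3.O8.P H3.O8.e (1 : ZMod 2) ([0xbb, 0x44, 0xcb, 0x8e, 0x62, 0x2f].getD i 0)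
    Q v * Q v = 1 ∧ Q w * Q w = 1 ∧ H3.O8.M i = H3.rm Q v * H3.rm Q w * (H3.rm Q v * H3.rm Q w) := by
  decide +kernel

/-- Exceptional Schur multiplier: over the field with 2 elements, PΩ⁺₈ (for the form Σ xᵢyᵢ) has Schur multiplier a four-group, the product of two cyclic groups of order 2 (here the Schur multiplier is described through stem extensions, as in the definitions). -/
theorem result {F : Type*} [Field F] [Fintype F] (hF : Fintype.card F = 2) : Cfsg.HasSchurMultiplier (Cfsg.POmega F (Cfsg.quadFormPlus 4 F)) (Multiplicative (ZMod 2 × ZMod 2)) := by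
  obtain ⟨φ, hφ⟩ := H3.exists_emb_prime Nat.prime_two hF
  have hQ : ∀ v, H6.qPlus 4 F (φ ∘ v) = φ (quadFormPlus 4 (ZMod 2) v) := fun v => by
    simp [H6.qPlus_apply, quadFormPlus]
  have h1 := H3.card_O_le hφ.bij hQ b _ 8 (by decide +kernel) cnt
  have h2 := H3.card_Omega_two (H6.qPlus_nondeg 4 F) (by simp)
    (v := Pi.single (.inl 0) 1 + Pi.single (.inr 0) 1) (by simp [H6.qPlus_apply, Fin.sum_univ_four])
  have h3 : Nat.card (Omega F (H6.qPlus 4 F)) ≤ 174182400 :=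
    Nat.le_of_mul_le_mul_right (h2.trans (h1.trans (by decide +kernel))) Nat.two_pos
  have hm := H3.O8.modelc hφ (H3.omMat (H6.qPlus 4 F)) (fun i hi => H3.omega_gen hQ (gens i hi))
    H3.O8.card h3
  exact H3.schur_quot_bot (H3.O8.schur hm).2.2 (H3.O8.cen hm)

end Cfsg.Agent.S2098
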