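import Cfsg.Statements.S2099
import Cfsg.Agent.H6.COrth4

set_option autoImplicit false
open Cfsg

namespace Cfsg.Agent.S2099

/-- Schur multipliers of the even-dimensional orthogonal groups of minus type: for l ≥ 4 and a field F with q elements, the Schur multiplier of PΩ⁻_2l(F) (for the form Σ_{i<l−1} xᵢyᵢ + z₁² + a z₁z₂ + b z₂² with the binary part anisotropic) is cyclic of order gcd(4, q^l + 1); here the Schur multiplier is described through stem extensions, as in the definitions. -/
theorem result {F : Type*} [Field F] [Fintype F] {q : ℕ} (hF : Fintype.card F = q) (l : ℕ) (hl : 4 ≤ l) (a b : F) (hab : ∀ z₁ z₂ : F, z₁ ^ 2 + a * z₁ * z₂ + b * z₂ ^ 2 = 0 → z₁ = 0 ∧ z₂ = 0) : Cfsg.HasCyclicSchurMultiplier (Cfsg.POmega F (Cfsg.quadFormMinus (l - 1) F a b)) (Nat.gcd 4 (q ^ l + 1)) := by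
  subst hF
  obtain ⟨m, rfl⟩ : ∃ m, l = m + 1 := ⟨l - 1, by omega⟩
  exact H6.schur_minus m hab (by omega)

end Cfsg.Agent.S2099
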