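import Cfsg.Statements.S2100
import Cfsg.Agent.H8.CoverSmall
import Cfsg.Agent.H7.ChainG2

set_option autoImplicit false
open Cfsg

namespace Cfsg.Agent.S2100

/-- Schur multipliers of the Chevalley groups of type G₂: over a field with q ≥ 5 elements the Schur multiplier of G₂(q) is trivial (here the Schur multiplier is described through stem extensions, as in the definitions); the cases q = 3 and q = 4 are exceptional and q = 2 gives a non-simple group. -/
theorem result {F : Type*} [Field F] [Fintype F] (hF : 5 ≤ Fintype.card F) : Cfsg.HasCyclicSchurMultiplier ↥(Cfsg.Lie.chevG2.group F) 1 := by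
  exact H8.hasSchur_one_of_unimod H8.unimodG2 fun Γ _ π h1 h2 =>
    H8.lift_G2 h1 h2 H8.isChev_xg.toIsSt H8.isChev_xg.top ⟨Finset.univ, hF⟩

end Cfsg.Agent.S2100
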