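import Cfsg.Statements.S2101
import Cfsg.Agent.H3.Mu.G23.Schur
import Cfsg.Agent.H3.Mu.G23.Vec
import Cfsg.Agent.H3.Mu.G23.Cen
import Cfsg.Agent.H3.Chev

set_option autoImplicit false
open Cfsg

namespace Cfsg.Agent.S2101

instance : Fact (Nat.Prime 3) := ⟨Nat.prime_three⟩

theorem gens : ∀ i < 4, H3.G23.M i = Lie.chevG2.x (ZMod 3) ([7, 6, 4, 5].getD i 0) 1 := by
  decide +kernel

theorem model {F : Type*} [Field F] [Fintype F] (hF : Fintype.card F = 3) :
    H3.Model (Lie.chevG2.group F) 364 4 H3.G23.T H3.G23.Bf := by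
  obtain ⟨φ, hφ⟩ := H3.exists_emb_prime Nat.prime_three hF
  exact H3.G23.modelc hφ (H3.glMat _) (fun i hi => H3.chev_gen φ (gens i hi)) H3.G23.card
    (H3.card_chev_le hF (H8.card_group (c := (Lie.chevG2, [2, 6])) (by simp)) (by decide +kernel)
      (by norm_num))

/-- Exceptional Schur multiplier: over the field with 3 elements the Chevalley group of type G₂ has Schur multiplier cyclic of order 3 (here the Schur multiplier is described through stem extensions, as in the definitions). -/
theorem result {F : Type*} [Field F] [Fintype F] (hF : Fintype.card F = 3) : Cfsg.HasCyclicSchurMultiplier ↥(Cfsg.Lie.chevG2.group F) 3 := by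
  exact (H3.G23.schur (model hF)).2.2

end Cfsg.Agent.S2101
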