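import Cfsg.Statements.S2103
import Cfsg.Agent.H8.CoverSmall
import Cfsg.Agent.H8.NTabF4
import Cfsg.Agent.H7.ChainF4

set_option autoImplicit false
open Cfsg

namespace Cfsg.Agent.S2103

/-- Schur multipliers of the Chevalley groups of type F₄: over a finite field with more than 2 elements the Schur multiplier of F₄(q) is trivial (here the Schur multiplier is described through stem extensions, as in the definitions); q = 2 is exceptional. -/
theorem result {F : Type*} [Field F] [Fintype F] (hF : 3 ≤ Fintype.card F) : Cfsg.HasCyclicSchurMultiplier ↥(Cfsg.Lie.chevF4.group F) 1 := by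
  have h3 : ∃ v : F, v ≠ 0 ∧ v ≠ 1 := by
    by_contra h1
    push Not at h1
    classical
    have : Fintype.card F = 2 := Finset.card_eq_two.2 ⟨0, 1, zero_ne_one, by
      ext v; by_cases hv : v = 0 <;> simp [hv, h1 v]⟩
    omega
  exact H8.hasSchur_one_of_unimod H8.unimodF4 fun Γ _ π h1 h2 =>
    H8.lift_of_small h1 h2 H8.isChev_xg.toIsSt H8.isChev_xg.top h3

end Cfsg.Agent.S2103
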