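import Cfsg.Statements.S2104
import Cfsg.Agent.H3.Mu.F42.Schur
import Cfsg.Agent.H3.Mu.F42.Vec
import Cfsg.Agent.H3.Chev

set_option autoImplicit false
open Cfsg

namespace Cfsg.Agent.S2104

theorem gens : ∀ i < 8, H3.F42.M i = Lie.chevF4.x (ZMod 2) ([33, 27, 25, 24, 14, 20, 22, 23].getD i 0) 1 := by
  decide +kernel

theorem base : H3.F42.Bs = H3.F42.Bf := by decide +kernel

/-- Exceptional Schur multiplier: over the field with 2 elements the Chevalley group of type F₄ has Schur multiplier cyclic of order 2 (here the Schur multiplier is described through stem extensions, as in the definitions). -/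
theorem result {F : Type*} [Field F] [Fintype F] (hF : Fintype.card F = 2) : Cfsg.HasCyclicSchurMultiplier ↥(Cfsg.Lie.chevF4.group F) 2 := by
  obtain ⟨φ, hφ⟩ := H3.exists_emb_prime Nat.prime_two hF
  obtain ⟨K, hK⟩ := H3.F42.model hφ (H3.glMat _) (H3.glMat_inj _) fun i hi => H3.chev_gen φ (gens i hi)
  rw [base] at hK
  exact H3.schur_of_sub (H3.F42.schur hK) (H3.card_chev_le hF
    (H8.card_group (c := (Lie.chevF4, [2, 6, 8, 12])) (by simp)) (by decide +kernel) (by norm_num))

end Cfsg.Agent.S2104
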