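import Cfsg.Statements.S2107
import Cfsg.Agent.H8.CoverSmall
import Cfsg.Agent.H8.NTabE8
import Cfsg.Agent.H8.LiftTabE8
import Cfsg.Agent.H7.ChainE8

set_option autoImplicit false
open Cfsg

namespace Cfsg.Agent.S2107

/-- Schur multipliers of the Chevalley groups of type E₈: over every finite field the Schur multiplier of E₈(q) is trivial (here the Schur multiplier is described through stem extensions, as in the definitions). -/
theorem result {F : Type*} [Field F] [Fintype F] : Cfsg.HasCyclicSchurMultiplier ↥(Cfsg.Lie.chevE8.group F) 1 := by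
  exact H8.hasSchur_one_of_unimod H8.unimodE8 fun Γ _ π h1 h2 =>
    H8.lift_of_rich h1 h2 H8.isChev_xg.toIsSt H8.isChev_xg.top

end Cfsg.Agent.S2107
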