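import Cfsg.Statements.S2112
import Cfsg.Agent.H3.Mu.Sz8.Schur
import Cfsg.Agent.H3.Mu.Sz8.Vec
import Cfsg.Agent.H3.Fld3
import Cfsg.Agent.H2.SzGen
import Cfsg.Agent.H2.SzStruct

set_option autoImplicit false
open Cfsg

namespace Cfsg.Agent.S2112

open Matrix Cfsg.Lie in
theorem gen {R F : Type*} [CommRing R] [Field F] (φ : R →+* F) {M N : Matrix (Fin 4) (Fin 4) R}
    (h0 : M * N = 1) (h1 : ∀ i j, altForm4 (fun a => M a i) (fun a => M a j) = if i.val + j.val = 3 then 1 else 0)
    (h2 : star4 M = M.map (· ^ 4)) :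
    ∃ x : Lie.Sz F 4, ((Units.coeHom _).comp (Lie.Sz F 4).subtype) x = M.map φ := by
  have h3 : M.map φ * N.map φ = 1 := by rw [← Matrix.map_mul, h0]; simp
  refine ⟨⟨⟨M.map φ, N.map φ, h3, mul_eq_one_comm.mp h3⟩, Subgroup.subset_closure ⟨?_, ?_⟩⟩, rfl⟩
  · intro u v
    have h4 := fun i j => congrArg φ (h1 i j)
    simp only [altForm4, map_add, map_mul] at h4
    simp only [altForm4, Units.coeHom_apply, Matrix.mulVec, dotProduct, Fin.sum_univ_four,
      Matrix.map_apply]
    have a00 := h4 0 0; have a01 := h4 0 1; have a02 := h4 0 2; have a03 := h4 0 3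
    have a10 := h4 1 0; have a11 := h4 1 1; have a12 := h4 1 2; have a13 := h4 1 3
    have a20 := h4 2 0; have a21 := h4 2 1; have a22 := h4 2 2; have a23 := h4 2 3
    have a30 := h4 3 0; have a31 := h4 3 1; have a32 := h4 3 2; have a33 := h4 3 3
    simp at a00 a01 a02 a03 a10 a11 a12 a13 a20 a21 a22 a23 a30 a31 a32 a33
    linear_combination u 0 * v 0 * a00 + u 0 * v 1 * a01 + u 0 * v 2 * a02 + u 0 * v 3 * a03 +
      u 1 * v 0 * a10 + u 1 * v 1 * a11 + u 1 * v 2 * a12 + u 1 * v 3 * a13 +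
      u 2 * v 0 * a20 + u 2 * v 1 * a21 + u 2 * v 2 * a22 + u 2 * v 3 * a23 +
      u 3 * v 0 * a30 + u 3 * v 1 * a31 + u 3 * v 2 * a32 + u 3 * v 3 * a33
  · ext i j
    have := congrArg φ (congrFun (congrFun h2 i) j)
    simpa [star4] using this

/-- Exceptional Schur multiplier: the Suzuki group Sz(8), built over the field with 8 elements using the map x ↦ x⁴, has Schur multiplier a four-group, the product of two cyclic groups of order 2 (here the Schur multiplier is described through stem extensions, as in the definitions). -/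
theorem result {F : Type*} [Field F] [Fintype F] (hF : Fintype.card F = 8) : Cfsg.HasSchurMultiplier ↥(Cfsg.Lie.Sz F 4) (Multiplicative (ZMod 2 × ZMod 2)) := by
  obtain ⟨φ, hφ⟩ := H3.exists_emb8 hF
  haveI : H2.SzF F 1 := H2.SzF.of_fintype le_rfl hF
  obtain ⟨K, hK⟩ := H3.Sz8.model hφ ((Units.coeHom _).comp (Lie.Sz F 4).subtype)
    (Units.val_injective.comp Subtype.val_injective)
    fun i hi => gen φ (N := H3.Sz8.M i ^ 27) (by revert i; decide +kernel)
      (by revert i; decide +kernel) (by revert i; decide +kernel)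
  refine H3.schur_of_sub (H3.Sz8.schur hK)
    (le_of_eq ((Nat.card_congr (H2.Suz.equivLie F 1).toEquiv).symm.trans ?_))
  rw [H2.Suz.card_Sz, Nat.card_eq_fintype_card, hF]
  rfl

end Cfsg.Agent.S2112
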