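import Cfsg.Statements.S2116
import Cfsg.Agent.H3.Mu.A6.Schur
import Cfsg.Agent.H3.Mu.A7.Schur

set_option autoImplicit false
open Cfsg

namespace Cfsg.Agent.S2116

open Equiv Cfsg.Agent.L0 Cfsg.Agent.H3 in
theorem alt_of {n k m : ℕ} [NeZero n] {T : ℕ → ℕ → ℕ} {B : List ℕ} (l : List (Perm (Fin n)))
    (hs : ∀ i, Perm.sign (l.getD i 1) = 1)
    (hT : ∀ i < k, ∀ c : Fin n, ((l.getD i 1)⁻¹ c).val = T c.val i) (hB : ∀ c < n, c ∈ B)
    (h : ∀ K : Subgroup (alternatingGroup (Fin n)), Model K n k T B →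
      Finite K ∧ Nat.card K = m ∧ HasSchurMultiplier K (Multiplicative (ZMod 6)))
    (h2 : 2 ≤ n) (hm : n.factorial = 2 * m) :
    Cfsg.HasCyclicSchurMultiplier (alternatingGroup (Fin n)) 6 := by
  haveI : Nontrivial (Fin n) := Fin.nontrivial_iff_two_le.mpr h2
  let g : ℕ → alternatingGroup (Fin n) := fun i => ⟨l.getD i 1, Perm.mem_alternatingGroup.mpr (hs i)⟩
  have h1 : (RAct.ofHom (alternatingGroup (Fin n)).subtype).Tab g k T := fun i hi c hc => by
    rw [RAct.ofHom_act _ hc]; exact hT i hi ⟨c, hc⟩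
  have h3 : (RAct.ofHom (alternatingGroup (Fin n)).subtype).IsBase B := fun y hy =>
    Subtype.ext (RAct.ofHom_eq_one _ fun c hc => hy c (hB c hc) hc)
  refine schur_of_sub (h _ (model_sub h1 h3 rfl)) ?_
  have := two_mul_nat_card_alternatingGroup (α := Fin n)
  rw [Nat.card_perm, Nat.card_fin, hm] at this
  omega

theorem sign_getD {n : ℕ} (l : List (Equiv.Perm (Fin n))) (h : ∀ x ∈ l, Equiv.Perm.sign x = 1)
    (i : ℕ) : Equiv.Perm.sign (l.getD i 1) = 1 := by
  by_cases hi : i < l.length
  · rw [List.getD_eq_getElem _ _ hi]; exact h _ (List.getElem_mem hi)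
  · rw [List.getD_eq_default _ _ (not_lt.mp hi)]; simp

/-- Exceptional Schur multipliers of the alternating groups: for n = 6 and n = 7 the Schur multiplier of the alternating group of degree n is cyclic of order 6 (here the Schur multiplier is described through stem extensions, as in the definitions). -/
theorem result (n : ℕ) (hn : n = 6 ∨ n = 7) : Cfsg.HasCyclicSchurMultiplier (alternatingGroup (Fin n)) 6 := by
  open Equiv in
  rcases hn with rfl | rfl
  · exact alt_of (k := 4) (m := 360) [swap 0 2 * swap 0 1, swap 0 1 * swap 2 3, swap 0 1 * swap 3 4,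
      swap 0 1 * swap 4 5] (sign_getD _ (by simp [Perm.sign_swap'])) (by decide +kernel) (by decide +kernel)
      (fun _ h => H3.A6.schur h) (by norm_num) (by decide)
  · exact alt_of (k := 5) (m := 2520) [swap 0 2 * swap 0 1, swap 0 1 * swap 2 3, swap 0 1 * swap 3 4,
      swap 0 1 * swap 4 5, swap 0 1 * swap 5 6] (sign_getD _ (by simp [Perm.sign_swap'])) (by decide +kernel)
      (by decide +kernel) (fun _ h => H3.A7.schur h) (by norm_num) (by decide)

end Cfsg.Agent.S2116
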