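import Cfsg.Statements.S2117
import Cfsg.Agent.H6.StMult

set_option autoImplicit false
open Cfsg

namespace Cfsg.Agent.S2117

/-- For a finite field with q elements, q ≠ 4 and q ≠ 9, the special linear group SL₂ has trivial Schur multiplier (here the Schur multiplier is described through stem extensions, as in the definitions). -/
theorem result {F : Type*} [Field F] [Fintype F] (h4 : Fintype.card F ≠ 4) (h9 : Fintype.card F ≠ 9) : Cfsg.HasCyclicSchurMultiplier (Matrix.SpecialLinearGroup (Fin 2) F) 1 := by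
  have hb : ∀ {Γ : Type _} [Group Γ] (σ : Γ →* Matrix.SpecialLinearGroup (Fin 2) F), σ.ker = ⊥ →
      Nonempty (σ.ker ≃* Multiplicative (ZMod 1)) := fun σ h => by
    rw [h]
    have : Unique (Multiplicative (ZMod 1)) := inferInstanceAs (Unique (Fin 1))
    exact ⟨MulEquiv.ofUnique⟩
  refine ⟨⟨Matrix.SpecialLinearGroup (Fin 2) F, inferInstance, inferInstance, MonoidHom.id _,
    ⟨Function.surjective_id, by simp, by simp⟩, hb _ (by simp)⟩, fun Γ _ _ σ hσ => ?_⟩
  suffices h : σ.ker = ⊥ by
    obtain ⟨e⟩ := hb σ h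
    exact ⟨e.symm.toMonoidHom, e.symm.surjective⟩
  by_cases hq : 4 ≤ Fintype.card F
  · obtain ⟨ψ, hψ⟩ := (H6.CExt.ofSurj hσ.1 hσ.2.1).exists_hom_SL le_rfl (fun _ => hq)
      (by simp [h4, h9]) (MonoidHom.id _)
    obtain ⟨f, hf⟩ := H6.exists_surj_ker hσ Function.surjective_id hψ
    rw [eq_bot_iff]
    intro z hz
    obtain ⟨g, hg⟩ := hf ⟨z, hz⟩
    have : g = 1 := Subtype.ext g.2
    rw [this, map_one] at hg
    exact (congrArg Subtype.val hg).symm
  · have h1 := Fintype.one_lt_card (α := F)
    have h23 : Fintype.card F = 2 ∨ Fintype.card F = 3 := by omega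
    refine H6.ker_eq_bot_of_stem_small hσ ?_ fun s hs => ?_
    · rcases h23 with h | h <;> rw [h] <;> norm_num
    · have := (FiniteField.forall_pow_eq_one_iff F 2).mpr
        (by rcases h23 with h | h <;> rw [h] <;> norm_num) (Units.mk0 s hs)
      simpa using congrArg Units.val this

end Cfsg.Agent.S2117
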