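import Cfsg.Statements.S2118
import Cfsg.Agent.H3.Mu.SL29.Schur
import Cfsg.Agent.H3.Mu.SL29.Vec
import Cfsg.Agent.H3.Fld2

set_option autoImplicit false
open Cfsg

namespace Cfsg.Agent.S2118

/-- For the field with 9 elements, the special linear group SL₂ has Schur multiplier cyclic of order 3 (here the Schur multiplier is described through stem extensions, as in the definitions). -/
theorem result {F : Type*} [Field F] [Fintype F] (hF : Fintype.card F = 9) : Cfsg.HasCyclicSchurMultiplier (Matrix.SpecialLinearGroup (Fin 2) F) 3 := by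
  obtain ⟨φ, hφ⟩ := H3.exists_emb9 hF
  obtain ⟨K, hK⟩ := H3.SL29.model hφ _ Matrix.SpecialLinearGroup.coeMonoidHom_injective
    fun i hi => H3.sl_gen φ (by revert i; decide +kernel)
  exact H3.schur_of_sub (H3.SL29.schur hK) (H3.card_SL_of hF (by decide +kernel)).le

end Cfsg.Agent.S2118
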