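import Cfsg.Statements.S2141
import Cfsg.Agent.H1.MIS4

set_option autoImplicit false
open Cfsg

namespace Cfsg.Agent.S2141

/-- Minimal index of a proper subgroup of the symplectic groups over fields with at least 3 elements: for m ≥ 2 and a field F with q ≥ 3 elements, (m, q) ≠ (2, 3), every proper subgroup of PSp_2m(F) has index at least (q^(2m) − 1)/(q − 1), and that index is attained. -/
theorem result {F : Type*} [Field F] [Fintype F] {q : ℕ} (hF : Fintype.card F = q) (m : ℕ) (hm : 2 ≤ m) (hq : 3 ≤ q) (hexc : ¬ (m = 2 ∧ q = 3)) : (∀ H : Subgroup (Cfsg.PSp m F), H ≠ ⊤ → (q ^ (2 * m) - 1) / (q - 1) ≤ H.index) ∧ (∃ H : Subgroup (Cfsg.PSp m F), H.index = (q ^ (2 * m) - 1) / (q - 1)) := by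
  classical
  have hB := H5.isSp_std (F := F) m
  have hr := H5.finrank_std_sp (F := F) m
  have hE : Nat.card (Fin m ⊕ Fin m → F) = q ^ (2 * m) := by
    rw [Module.natCard_eq_pow_finrank (K := F), Nat.card_eq_fintype_card, hF, hr]
  have hs : (∃ s : F, s ≠ 0 ∧ s ^ 2 ≠ 1) ∨
      ((2 : F) ≠ 0 ∧ 5 ≤ Module.finrank F (Fin m ⊕ Fin m → F)) := by
    by_cases h3 : q = 3
    · refine Or.inr ⟨fun h2 => ?_, by omega⟩
      have := FiniteField.cast_card_eq_zero F
      rw [hF, h3] at this
      exact one_ne_zero (α := F) (by push_cast at this; linear_combination this - h2)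
    obtain ⟨s, -, hs⟩ := Finset.exists_mem_notMem_of_card_lt_card (s := ({0, 1, -1} : Finset F))
      (t := Finset.univ) (by
        rw [Finset.card_univ]; have := Finset.card_le_three (a := (0 : F)) (b := 1) (c := -1); omega)
    exact Or.inl ⟨s, by simpa [not_or] using hs⟩
  refine H1.min_index_center (H5.spEquiv m F).symm (fun H hH => ?_) ?_
  · have := H1.sp_index_ge hB hF hq (by omega) hs H hH
    rw [hE, mul_comm H.index] at this
    exact Nat.div_le_of_le_mul this
  · have : Nontrivial (Fin m ⊕ Fin m → F) := (Module.finrank_pos_iff (R := F)).1 (by omega)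
    obtain ⟨v, hv⟩ := exists_ne (0 : Fin m ⊕ Fin m → F)
    obtain ⟨K, h1, h2⟩ := H1.sp_index_eq hB hF hv
    exact ⟨K, h1, (Nat.div_eq_of_eq_mul_left (by omega) (hE ▸ h2.symm)).symm⟩

end Cfsg.Agent.S2141
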