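import Cfsg.Statements.S2149
import Cfsg.Agent.H5.U3A7

set_option autoImplicit false
open Cfsg

namespace Cfsg.Agent.S2149

/-- Minimal index of a proper subgroup of PSU₃(5), realised over the field with 25 elements: every proper subgroup has index at least 50, and that index is attained. -/
theorem result {F : Type*} [Field F] [Fintype F] (hF : Fintype.card F = 25) : (∀ H : Subgroup (Cfsg.PSU 3 F 5), H ≠ ⊤ → 50 ≤ H.index) ∧ (∃ H : Subgroup (Cfsg.PSU 3 F 5), H.index = 50) := by
  have hU := H5.uf_frob (q := 5) hF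
  have := H1.finite_SUb (H5.stdU (Fin 3) (H5.frob (q := 5) hF))
  have key : ∀ H : Subgroup (H1.SUb (H5.stdU (Fin 3) (H5.frob (q := 5) hF))),
      H.index * Nat.card H = 50 * 7560 := fun H => by rw [H.index_mul_card, hU.card_SUb3]; norm_num
  refine hU.psu3_transfer (fun H hZ hne => ?_) ?_
  · rcases hU.su3_index (by norm_num) hZ hne with h | h
    · omega
    · nlinarith [key H, Nat.le_of_dvd (by norm_num) h.2]
  · obtain ⟨p, hp⟩ := CharP.exists F
    obtain rfl : p = 5 := ((Nat.prime_dvd_prime_iff_eq (CharP.char_is_prime F p) Nat.prime_five).1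
      (hU.char_dvd p))
    obtain ⟨K, hZ, hne, hd⟩ := H5.A7.exists_index hU
    have h1 := Nat.le_of_dvd Nat.card_pos hd
    refine ⟨K, hZ, ?_⟩
    rcases hU.su3_index (by norm_num) hZ hne with h | h
    · nlinarith [key K]
    · have h2 := key K
      rw [Nat.dvd_antisymm h.2 hd] at h2
      omega

end Cfsg.Agent.S2149
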