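import Cfsg.Statements.S2151
import Cfsg.Agent.H1.MIU6

set_option autoImplicit false
open Cfsg

namespace Cfsg.Agent.S2151

/-- Minimal index of a proper subgroup of the unitary groups of odd dimension n ≥ 5: for a field F with q² elements, every proper subgroup of PSU_n(q) has index at least (q^n + 1)(q^(n−1) − 1)/(q² − 1), and that index is attained. -/
theorem result {F : Type*} [Field F] [Fintype F] (q : ℕ) (hF : Fintype.card F = q ^ 2) (hq : 2 ≤ q) (n : ℕ) (hn : 5 ≤ n) (hodd : Odd n) : (∀ H : Subgroup (Cfsg.PSU n F q), H ≠ ⊤ → (q ^ n + 1) * (q ^ (n - 1) - 1) / (q ^ 2 - 1) ≤ H.index) ∧ (∃ H : Subgroup (Cfsg.PSU n F q), H.index = (q ^ n + 1) * (q ^ (n - 1) - 1) / (q ^ 2 - 1)) := by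
  have hU := H5.uf_frob hF
  obtain ⟨e⟩ := H1.exists_su_equiv hU n
  have hB := hU.isEps_std (Fin n)
  obtain ⟨m, rfl⟩ : ∃ m, n = 3 + 2 * m + 2 := by
    obtain ⟨j, rfl⟩ := hodd
    exact ⟨j - 2, by omega⟩
  have h1 : H5.uq q (3 + 2 * m + 2) = q ^ (3 + 2 * m + 2) + 1 :=
    if_neg (Nat.not_even_iff_odd.mpr hodd)
  have h2 : H5.uq q (3 + 2 * m + 1) = q ^ (3 + 2 * m + 1) - 1 := if_pos ⟨m + 2, by ring⟩
  have hq2 : 0 < q ^ 2 - 1 := by
    have : 2 ^ 2 ≤ q ^ 2 := Nat.pow_le_pow_left hq 2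
    omega
  have hfr : Module.finrank F (Fin (3 + 2 * m + 2) → F) = 3 + 2 * m + 2 := by simp
  refine H1.min_index_center e (fun H hH => ?_) ?_
  · have := H1.su_index_of_base hU 3 le_rfl
      (fun E _ _ _ B hB h => H1.claimC_three hB hU h) m _ _ hB hfr H hH
    rw [min_eq_left, h1, h2, mul_comm H.index] at this
    · exact Nat.div_le_of_le_mul this
    · rw [h2, mul_comm]
      exact (Nat.mul_le_mul_right _ (Nat.sub_le _ _)).trans (Nat.le_mul_of_pos_left _ (by omega))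
  · obtain ⟨v, -, hv, hvv⟩ := H1.exists_iso_vec hB hU ⊤ (by rw [finrank_top, hfr]; omega)
    refine ⟨H1.PS (H1.suAct _) v, fun g hg => H1.mem_PS _ hv
      (H1.center_mem_span hB hU (by omega) hg hv), ?_⟩
    have := H1.index_PS_iso hB hU (k := 3 + 2 * m + 1) hfr (by omega) hv hvv
    rw [h1, h2] at this
    exact (Nat.div_eq_of_eq_mul_left hq2 this.symm).symm

end Cfsg.Agent.S2151
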