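import Cfsg.Statements.S2153
import Cfsg.Agent.H1.MIU10

set_option autoImplicit false
open Cfsg

namespace Cfsg.Agent.S2153

/-- Minimal index of a proper subgroup of the unitary groups PSU_n(2) with n divisible by 6, realised over the field with 4 elements: every proper subgroup has index at least 2^(n−1)(2^n − 1)/3, and that index is attained. -/
theorem result {F : Type*} [Field F] [Fintype F] (hF : Fintype.card F = 4) (n : ℕ) (hn : 6 ∣ n) (hpos : 6 ≤ n) : (∀ H : Subgroup (Cfsg.PSU n F 2), H ≠ ⊤ → 2 ^ (n - 1) * (2 ^ n - 1) / 3 ≤ H.index) ∧ (∃ H : Subgroup (Cfsg.PSU n F 2), H.index = 2 ^ (n - 1) * (2 ^ n - 1) / 3) := by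
  have hU := H5.uf_frob (q := 2) hF
  obtain ⟨e⟩ := H1.exists_su_equiv hU n
  have hB := hU.isEps_std (Fin n)
  obtain ⟨m, rfl⟩ : ∃ m, n = 4 + 2 * m + 2 := by
    obtain ⟨j, rfl⟩ := hn
    exact ⟨3 * j - 3, by omega⟩
  have h1 : H5.uq 2 (4 + 2 * m + 2) = 2 ^ (4 + 2 * m + 2) - 1 := if_pos ⟨m + 3, by ring⟩
  have h2 : H5.uq 2 (4 + 2 * m + 1) = 2 ^ (4 + 2 * m + 1) + 1 :=
    if_neg (Nat.not_even_iff_odd.mpr ⟨m + 2, by ring⟩)
  have hfr : Module.finrank F (Fin (4 + 2 * m + 2) → F) = 4 + 2 * m + 2 := by simp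
  refine H1.min_index_center e (fun H hH => ?_) ?_
  · have := H1.su_index_of_base hU 4 (by omega)
      (fun E _ _ _ B hB h => H1.claimC_four hB hU h) m _ _ hB hfr H hH
    rw [min_eq_right, h1, mul_comm H.index] at this
    · exact Nat.div_le_of_le_mul (by simpa using this)
    · rw [h2, mul_comm (H5.uq _ _), ← mul_assoc]
      exact Nat.mul_le_mul_right _ (by omega)
  · obtain ⟨v, -, hvv⟩ := H1.exists_aniso_perp hB hU ⊥ (by rw [finrank_bot, hfr]; omega)
    have hv : v ≠ 0 := by rintro rfl; simp at hvv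
    refine ⟨H1.PS (H1.suAct _) v, fun g hg => H1.mem_PS _ hv
      (H1.center_mem_span hB hU (by omega) hg hv), ?_⟩
    have := H1.index_PS_aniso hB hU (k := 4 + 2 * m + 1) hfr (by omega) hvv
    rw [h1] at this
    exact (Nat.div_eq_of_eq_mul_left (by omega) (by simpa using this.symm)).symm

end Cfsg.Agent.S2153
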