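import Cfsg.Statements.S2154
import Cfsg.Agent.H7.CentU
import Cfsg.Agent.H7.All

set_option autoImplicit false
open Cfsg

namespace Cfsg.Agent.S2154

open Cfsg.Lie Cfsg.Agent.H7 Cfsg.Agent.H8

/-- The Borel–Tits property of the finite Chevalley groups of types G₂, B₂, D₄, F₄, E₆, E₇, E₈ over a finite field of characteristic p: for every non-trivial p-subgroup U of the group G there are an element g of G and a proper set J of fundamental roots such that the normaliser of U in G lies in the conjugate by g of the standard parabolic subgroup P_J and U lies in the conjugate by g of its unipotent radical U_J. -/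
theorem result {F : Type*} [Field F] [Fintype F] (p : ℕ) [Fact p.Prime] [CharP F p] (D : Cfsg.Lie.ChevalleyDatum) (hD : D ∈ [Cfsg.Lie.chevG2, Cfsg.Lie.chevB2, Cfsg.Lie.chevD4, Cfsg.Lie.chevF4, Cfsg.Lie.chevE6, Cfsg.Lie.chevE7, Cfsg.Lie.chevE8]) (U : Subgroup (GL D.Idx F)) (hUG : U ≤ D.group F) (hU : IsPGroup p ↥U) (hne : U ≠ ⊥) : ∃ g ∈ D.group F, ∃ J : Set ℕ, (∃ i, i < D.rank ∧ i ∉ J) ∧ Subgroup.normalizer (U : Set (GL D.Idx F)) ⊓ D.group F ≤ (D.parabolicSubgroup F J).map (MulAut.conj g).toMonoidHom ∧ U ≤ (D.unipotentRadical F J).map (MulAut.conj g).toMonoidHom := by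
  obtain ⟨_, _, _, _, _⟩ := facts_of_mem hD
  have hx := isChev_xg (D := D) (F := F)
  obtain ⟨g, J, hJ, h1, h2⟩ := hx.borel_tits GG_xg p (V := U.subgroupOf (D.group F)) hU.comap_subtype
    (fun h => hne (by rw [← Subgroup.map_subgroupOf_eq_of_le hUG, h, Subgroup.map_bot]))
  refine ⟨g, g.2, J, hJ, fun n hn => ⟨g.1⁻¹ * n * g, ?_, by simp [mul_assoc]⟩, fun v hv => ⟨g.1⁻¹ * v * g, ?_, by simp [mul_assoc]⟩⟩
  · have := h1 ⟨n, hn.2⟩ fun v hv => (Subgroup.mem_normalizer_iff''.1 hn.1 v).1 hv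
    rwa [PJ_eq hx.toIsSt, cellSubgroup_xg] at this
  · have := h2 ⟨v, hUG hv⟩ hv
    rwa [UJ, XS_xg, unipotentRadical_xu] at this

end Cfsg.Agent.S2154
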