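import Cfsg.Statements.S2155
import Cfsg.Agent.H7.CentU
import Cfsg.Agent.H7.All

set_option autoImplicit false
open Cfsg

namespace Cfsg.Agent.S2155

open Cfsg.Lie Cfsg.Agent.H7 Cfsg.Agent.H8

/-- In a Chevalley group of type G₂, B₂, D₄, F₄, E₆, E₇ or E₈ over a finite field of characteristic p (for types G₂ and B₂ the field is assumed to have at least 3 elements, so that the group is simple), the generalized Fitting subgroup of every proper standard parabolic subgroup P_J is a p-group (P_J is p-constrained with trivial largest normal subgroup of order prime to p). -/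
theorem result {F : Type*} [Field F] [Fintype F] (p : ℕ) [Fact p.Prime] [CharP F p] (D : Cfsg.Lie.ChevalleyDatum) (hD : D ∈ [Cfsg.Lie.chevG2, Cfsg.Lie.chevB2, Cfsg.Lie.chevD4, Cfsg.Lie.chevF4, Cfsg.Lie.chevE6, Cfsg.Lie.chevE7, Cfsg.Lie.chevE8]) (hq : (D = Cfsg.Lie.chevG2 ∨ D = Cfsg.Lie.chevB2) → 3 ≤ Fintype.card F) (J : Set ℕ) (hJ : ∃ i, i < D.rank ∧ i ∉ J) : IsPGroup p ↥(Cfsg.generalizedFittingSubgroup ↥(D.parabolicSubgroup F J)) := by
  obtain ⟨_, _, _, _, _⟩ := facts_of_mem hD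
  have hx := isChev_xg (D := D) (F := F)
  refine hx.isPGroup_fstar GG_xg p hJ ((MulEquiv.subgroupCongr ((PJ_eq hx.toIsSt).trans (cellSubgroup_xg J))).trans
    (Subgroup.subgroupOfEquivOfLe ?_)).symm
  rw [← cellSubgroup_xu, ← PJ_eq, ← GG_xu]
  exact PJ_le_GG

end Cfsg.Agent.S2155
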