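import Cfsg.Statements.S2158
import Cfsg.Agent.H7.Misc
import Cfsg.Agent.H7.All

set_option autoImplicit false
open Cfsg

namespace Cfsg.Agent.S2158

open Cfsg.Lie Cfsg.Agent.H7 Cfsg.Agent.H8

/-- In a Chevalley group of type G₂, B₂, D₄, F₄, E₆, E₇ or E₈ over any field, an element of the group whose matrix is the diagonal matrix `ĥ(χ)` of a character `χ` of the root lattice already lies in the diagonal subgroup H (the non-trivial inclusion of the statement that the group meets the group of all such diagonal matrices in H). -/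
theorem result {F : Type*} [Field F] (D : Cfsg.Lie.ChevalleyDatum) (hD : D ∈ [Cfsg.Lie.chevG2, Cfsg.Lie.chevB2, Cfsg.Lie.chevD4, Cfsg.Lie.chevF4, Cfsg.Lie.chevE6, Cfsg.Lie.chevE7, Cfsg.Lie.chevE8]) (χ : ℕ → Fˣ) (hχ : D.IsRootCharacter χ) (g : GL D.Idx F) (hg : g ∈ D.group F)
    (hgχ : (g : Matrix D.Idx D.Idx F) = D.charDiag F χ) : g ∈ D.diagonalSubgroup F := by
  obtain ⟨_, _, _, _, _⟩ := facts_of_mem hD
  obtain rfl : g = dg D F χ := Units.ext hgχ
  rw [← HH_xu]
  refine (isChev_xu (D := D) (F := F)).mem_HH_of_conj (GG_xu (D := D) (F := F) ▸ hg) (fun i => ⟨1, one_ne_zero, ?_⟩)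
    (fun i => ⟨1, one_ne_zero, ?_⟩)
  · rw [dg_conj_xu hχ]; exact x_mem_BB _ (simple_pos i) _
  · rw [dg_conj_xu hχ]; exact Subgroup.mem_sup_left (x_mem_VV _ (neg_simple_neg i) _)

end Cfsg.Agent.S2158
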