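import Cfsg.Statements.S2160
import Cfsg.Agent.H7.Misc
import Cfsg.Agent.H7.All

set_option autoImplicit false
open Cfsg

namespace Cfsg.Agent.S2160

open Cfsg.Lie Cfsg.Agent.H7 Cfsg.Agent.H8

/-- In a Chevalley group of type G₂, B₂, D₄, F₄, E₆, E₇ or E₈ over a finite field, every field automorphism commutes with every graph automorphism. -/
theorem result {F : Type*} [Field F] [Finite F] (D : Cfsg.Lie.ChevalleyDatum) (hD : D ∈ [Cfsg.Lie.chevG2, Cfsg.Lie.chevB2, Cfsg.Lie.chevD4, Cfsg.Lie.chevF4, Cfsg.Lie.chevE6, Cfsg.Lie.chevE7, Cfsg.Lie.chevE8]) (f g : ↥(D.group F) ≃* ↥(D.group F))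
    (hf : D.IsFieldAut f) (hg : D.IsGraphAut g) (y : ↥(D.group F)) : f (g y) = g (f y) := by
  obtain ⟨_, _, _, _, _⟩ := facts_of_mem hD
  obtain ⟨σ, hσ⟩ := hf
  obtain ⟨π, -, hπ⟩ := hg
  have h1 : ∀ r t, r < D.nroots → f (xg D F r t) = xg D F r (σ t) := fun r t hr => eq_xg_iff.1 (hσ _ r t hr rfl)
  have h2 : GG (xg D F) ≤ (f.toMonoidHom.comp g.toMonoidHom).eqLocus (g.toMonoidHom.comp f.toMonoidHom) :=
    isChev_xg.toIsSt.GG_le_of_pm_simple (fun i t => by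
      show f (g _) = g (f _)
      rw [h1 _ _ (simple_lt i), eq_xg_iff.1 ((hπ _ i _).1 rfl), eq_xg_iff.1 ((hπ _ i _).1 rfl), h1 _ _ (simple_lt _),
        map_pow])
      (fun i t => by
      show f (g _) = g (f _)
      rw [h1 _ _ (neg_lt (simple_lt i)), eq_xg_iff.1 ((hπ _ i _).2 rfl), eq_xg_iff.1 ((hπ _ i _).2 rfl),
        h1 _ _ (neg_lt (simple_lt _)), map_pow])
  exact h2 (GG_xg (D := D) (F := F) ▸ Subgroup.mem_top y)

end Cfsg.Agent.S2160
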