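import Cfsg.Statements.S2161
import Cfsg.Agent.H7.Aut2
import Cfsg.Agent.H7.All

set_option autoImplicit false
open Cfsg

namespace Cfsg.Agent.S2161

open Cfsg.Lie Cfsg.Agent.H7 Cfsg.Agent.H8

theorem permRoot_eq {D : ChevalleyDatum} [RootFacts D] (π : Equiv.Perm (Fin D.rank)) {r s : ℕ} (hs : s < D.nroots)
    (h : ∀ i, cor D s (π i) = cor D r i) : D.permRoot π r = s := by
  unfold ChevalleyDatum.permRoot
  cases e : (List.range D.nroots).find? fun s => (List.finRange D.rank).all fun i =>
      (D.coroot.getD s #[]).getD (π i).val 0 == (D.coroot.getD r #[]).getD i.val 0 with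
  | none =>
    rw [List.find?_eq_none] at e
    exact absurd (List.all_eq_true.2 fun i _ => beq_iff_eq.2 (h i)) (e s (List.mem_range.2 hs))
  | some k =>
    have h1 := List.find?_some e
    have h2 := List.mem_range.1 (List.mem_of_find?_eq_some e)
    refine cor_inj h2 hs (funext fun j => ?_)
    obtain ⟨i, rfl⟩ := π.surjective j
    exact (beq_iff_eq.1 (List.all_eq_true.1 h1 i (List.mem_finRange i))).trans (h i).symm

theorem cor_word {D : ChevalleyDatum} [RootFacts D] (π : Equiv.Perm (Fin D.rank))
    (hπ : ∀ i j : Fin D.rank, D.cartan (π i) (D.simple (π j)) = D.cartan i (D.simple j)) (l : List (Fin D.rank))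
    (i k : Fin D.rank) : cor D (wordW D (l.map π) (D.simple (π i))) (π k) = cor D (wordW D l (D.simple i)) k := by
  induction l generalizing k with
  | nil => simp [RootFacts.cor_simple, Pi.single_apply]
  | cons j l ih =>
    have : A D (wordW D (l.map π) (D.simple (π i))) (D.simple (π j)) = A D (wordW D l (D.simple i)) (D.simple j) := by
      unfold A dotProduct
      rw [← Equiv.sum_comp π]
      exact Finset.sum_congr rfl fun m _ => by rw [ih]; exact congrArg _ (hπ m j)
    simp [wordW_cons, cor_reflectRoot, this, ih, Pi.single_apply]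

/-- For the Chevalley groups of types D₄ and E₆ (one root length) over any field: if `π` is a symmetry of the Dynkin diagram and `φ` is an automorphism sending `x_{p_i}(t)` to `x_{p_{π i}}(t)` and `x_{-p_i}(t)` to `x_{-p_{π i}}(t)` for every fundamental root `p_i`, then for every root `r` there is a sign `ε = ±1` with `φ(x_r(t)) = x_{π·r}(ε t)` for all `t`, where `π·r` is the root whose coefficients are those of `r` permuted by `π`. -/
theorem result {F : Type*} [Field F] (D : Cfsg.Lie.ChevalleyDatum) (hD : D ∈ [Cfsg.Lie.chevD4, Cfsg.Lie.chevE6])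
    (π : Equiv.Perm (Fin D.rank)) (hπ : D.IsDiagramSymmetry π) (φ : ↥(D.group F) ≃* ↥(D.group F))
    (hφ : ∀ (g : ↥(D.group F)) (i : Fin D.rank) (t : F),
      (((g : GL D.Idx F) : Matrix D.Idx D.Idx F) = D.x F (D.simple i) t →
        ((φ g : GL D.Idx F) : Matrix D.Idx D.Idx F) = D.x F (D.simple (π i)) t) ∧
      (((g : GL D.Idx F) : Matrix D.Idx D.Idx F) = D.x F (D.neg (D.simple i)) t →
        ((φ g : GL D.Idx F) : Matrix D.Idx D.Idx F) = D.x F (D.neg (D.simple (π i))) t))
    (r : ℕ) (hr : r < D.nroots) :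
    ∃ ε : F, (ε = 1 ∨ ε = -1) ∧ ∀ (g : ↥(D.group F)) (t : F),
      ((g : GL D.Idx F) : Matrix D.Idx D.Idx F) = D.x F r t →
        ((φ g : GL D.Idx F) : Matrix D.Idx D.Idx F) = D.x F (D.permRoot π r) (ε * t) := by
  have hD' : D ∈ [chevG2, chevB2, chevD4, chevF4, chevE6, chevE7, chevE8] := by
    simp only [List.mem_cons, List.not_mem_nil, or_false] at hD
    rcases hD with rfl | rfl <;> simp
  obtain ⟨_, _, _, _, _⟩ := facts_of_mem hD'
  have h1 : Shape0 D (xg D F) φ π (fun _ t => t) (fun _ t => t) :=
    ⟨fun i t => eq_xg_iff.1 ((hφ _ i t).1 rfl), fun i t => eq_xg_iff.1 ((hφ _ i t).2 rfl)⟩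
  have h2 : ∀ i j : Fin D.rank, -1 ≤ D.cartan i (D.simple j) := by
    simp only [List.mem_cons, List.not_mem_nil, or_false] at hD
    rcases hD with rfl | rfl <;> decide +kernel
  have h3 : ∀ i j : Fin D.rank, D.cartan (π i) (D.simple (π j)) = D.cartan i (D.simple j) := fun i j => by
    by_cases hij : i = j
    · rw [hij, cartan_self, cartan_self]
    · have h4 := hπ i j hij
      unfold ChevalleyDatum.bonds at h4
      have := h2 i j; have := h2 j i; have := h2 (π i) (π j); have := h2 (π j) (π i)
      rcases cartan_cases hij with h | h | h <;> rcases cartan_cases (π.injective.ne hij) with h' | h' | h' <;>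
        first | omega | (exfalso; simp_all; done) | (simp_all; omega)
  obtain ⟨⟨l, i⟩, rfl⟩ := exists_word_simple hr
  rw [permRoot_eq π (W_lt (wordW_mem _) (simple_lt _)) (cor_word π h3 l i)]
  refine ⟨wSign D (l.map π) (D.simple (π i)) * wSign D l (D.simple i), ?_, fun g t hg => ?_⟩
  · rcases wSign_cases l (D.simple i) with h | h <;> rcases wSign_cases (l.map π) (D.simple (π i)) with h' | h' <;>
      simp [h, h']
  · have h4 := h1.root_map isChev_xg.toIsFaith (fun _ => rfl) l i (wSign D l (D.simple i) * t)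
    rw [← mul_assoc, ← Int.cast_mul, wSign_sq, Int.cast_one, one_mul] at h4
    rw [eq_xg_iff.1 hg, h4, mul_assoc]; rfl

end Cfsg.Agent.S2161
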