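import Cfsg.Statements.S2298
import Cfsg.Agent.H1.GL2Cusp
import Cfsg.Agent.H1.DegCount

set_option autoImplicit false
open Cfsg

namespace Cfsg.Agent.S2298

/-- Over a finite field F with q elements, every irreducible complex character of GL₂ has degree 1, q − 1, q or q + 1; and when q ≥ 3 (so that these four numbers are distinct) there are exactly q − 1 irreducible characters of degree 1, exactly q − 1 of degree q, exactly (q − 1)(q − 2)/2 of degree q + 1 and exactly q(q − 1)/2 of degree q − 1. -/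
theorem result {F : Type*} [Field F] [Fintype F] :
    (∀ χ : Matrix.GeneralLinearGroup (Fin 2) F → ℂ, Cfsg.IsIrrCharacter (Matrix.GeneralLinearGroup (Fin 2) F) χ →
      χ 1 = 1 ∨ χ 1 = (Fintype.card F : ℂ) - 1 ∨ χ 1 = (Fintype.card F : ℂ) ∨ χ 1 = (Fintype.card F : ℂ) + 1) ∧
    (3 ≤ Fintype.card F →
      Nat.card {χ : Cfsg.IrrCharacter (Matrix.GeneralLinearGroup (Fin 2) F) // (χ : Matrix.GeneralLinearGroup (Fin 2) F → ℂ) 1 = 1} = Fintype.card F - 1 ∧
      Nat.card {χ : Cfsg.IrrCharacter (Matrix.GeneralLinearGroup (Fin 2) F) // (χ : Matrix.GeneralLinearGroup (Fin 2) F → ℂ) 1 = (Fintype.card F : ℂ)} = Fintype.card F - 1 ∧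
      Nat.card {χ : Cfsg.IrrCharacter (Matrix.GeneralLinearGroup (Fin 2) F) // (χ : Matrix.GeneralLinearGroup (Fin 2) F → ℂ) 1 = (Fintype.card F : ℂ) + 1} = (Fintype.card F - 1) * (Fintype.card F - 2) / 2 ∧
      Nat.card {χ : Cfsg.IrrCharacter (Matrix.GeneralLinearGroup (Fin 2) F) // (χ : Matrix.GeneralLinearGroup (Fin 2) F → ℂ) 1 = (Fintype.card F : ℂ) - 1} = Fintype.card F * (Fintype.card F - 1) / 2) := by
  classical
  obtain ⟨E, _, _, _, ⟨Q⟩⟩ := H1.exists_quadEmb F
  have hdeg : ∀ χ : Matrix.GeneralLinearGroup (Fin 2) F → ℂ, Cfsg.IsIrrCharacter _ χ →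
      χ 1 = 1 ∨ χ 1 = (Fintype.card F : ℂ) - 1 ∨ χ 1 = (Fintype.card F : ℂ) ∨
        χ 1 = (Fintype.card F : ℂ) + 1 := by
    intro χ hχ
    rcases H1.irr_GL2_cases Q hχ with ⟨γ, rfl⟩ | ⟨γ, rfl⟩ | ⟨α, β, -, rfl⟩ | ⟨θ, -, rfl⟩
    · simp [H1.lin_one]
    · simp [H1.st_one]
    · simp [H1.ps_one]
    · simp [H1.cusp_one]
  refine ⟨hdeg, fun hq => ?_⟩
  have h0 : (Fintype.card F : ℂ) ≠ 0 := by exact_mod_cast (by omega : Fintype.card F ≠ 0)
  have h1 : (Fintype.card F : ℂ) ≠ 1 := by exact_mod_cast (by omega : Fintype.card F ≠ 1)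
  have h2 : (Fintype.card F : ℂ) ≠ 2 := by exact_mod_cast (by omega : Fintype.card F ≠ 2)
  have linj : Function.Injective (H1.lin : MulChar F ℂ → _) := by
    intro α β h
    apply MulChar.ext
    intro a
    simpa [H1.lin] using congrFun h (H1.upEl a 1 0)
  have c1 : Nat.card {χ : Cfsg.IrrCharacter (Matrix.GeneralLinearGroup (Fin 2) F) //
      (χ : Matrix.GeneralLinearGroup (Fin 2) F → ℂ) 1 = 1} = Fintype.card F - 1 := by
    rw [H1.card_degree_eq_of_param 1 H1.lin H1.isIrr_lin H1.lin_one linj, Nat.card_eq_fintype_card,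
      H1.card_mulChar]
    intro χ hχ hd
    rcases H1.irr_GL2_cases Q hχ with ⟨γ, rfl⟩ | ⟨γ, rfl⟩ | ⟨α, β, -, rfl⟩ | ⟨θ, -, rfl⟩
    · exact ⟨γ, rfl⟩
    · rw [H1.st_one] at hd; exact absurd hd h1
    · rw [H1.ps_one] at hd; exact absurd (by linear_combination hd) h0
    · rw [H1.cusp_one] at hd; exact absurd (by linear_combination hd) h2
  have c2 : Nat.card {χ : Cfsg.IrrCharacter (Matrix.GeneralLinearGroup (Fin 2) F) //
      (χ : Matrix.GeneralLinearGroup (Fin 2) F → ℂ) 1 = (Fintype.card F : ℂ)} =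
      Fintype.card F - 1 := by
    rw [H1.card_degree_eq_of_param _ H1.st H1.isIrr_st H1.st_one, Nat.card_eq_fintype_card,
      H1.card_mulChar]
    · intro α β h
      have e := H1.inner_ps_ps α α β β
      rw [show H1.ps α α = H1.st α + H1.lin α by simp [H1.st],
        show H1.ps β β = H1.st β + H1.lin β by simp [H1.st], h] at e
      by_contra hne
      have s1 : ∀ γ δ : MulChar F ℂ, H1.st γ ≠ H1.lin δ := fun γ δ e => by
        have := congrFun e 1
        rw [H1.st_one, H1.lin_one] at this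
        exact h1 this
      simp only [H1.classInner_add_left, H1.classInner_add_right, hne, and_self, if_false,
        H1.IsIrrCharacter.classInner_self (H1.isIrr_st β),
        H1.IsIrrCharacter.classInner_of_ne (H1.isIrr_st β) (H1.isIrr_lin β) (s1 _ _),
        H1.IsIrrCharacter.classInner_of_ne (H1.isIrr_lin α) (H1.isIrr_st β) (s1 _ _).symm,
        H1.IsIrrCharacter.classInner_of_ne (H1.isIrr_lin α) (H1.isIrr_lin β)
          (fun e => hne (linj e))] at e
      simp at e
    · intro χ hχ hd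
      rcases H1.irr_GL2_cases Q hχ with ⟨γ, rfl⟩ | ⟨γ, rfl⟩ | ⟨α, β, -, rfl⟩ | ⟨θ, -, rfl⟩
      · rw [H1.lin_one] at hd; exact absurd hd.symm h1
      · exact ⟨γ, rfl⟩
      · rw [H1.ps_one] at hd; exact absurd (by linear_combination hd : (1 : ℂ) = 0) one_ne_zero
      · rw [H1.cusp_one] at hd; exact absurd (by linear_combination -hd : (1 : ℂ) = 0) one_ne_zero
  have hD : ∀ χ : Matrix.GeneralLinearGroup (Fin 2) F → ℂ, Cfsg.IsIrrCharacter _ χ →
      χ 1 ∈ ({1, (Fintype.card F : ℂ) - 1, (Fintype.card F : ℂ), (Fintype.card F : ℂ) + 1} :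
        Finset ℂ) := by
    intro χ hχ
    simpa using hdeg χ hχ
  have n1 : (1 : ℂ) ∉ ({(Fintype.card F : ℂ) - 1, (Fintype.card F : ℂ), (Fintype.card F : ℂ) + 1} :
      Finset ℂ) := by
    simp only [Finset.mem_insert, Finset.mem_singleton, not_or]
    exact ⟨fun h => h2 (by linear_combination -h), h1.symm, fun h => h0 (by linear_combination -h)⟩
  have n2 : (Fintype.card F : ℂ) - 1 ∉ ({(Fintype.card F : ℂ), (Fintype.card F : ℂ) + 1} :
      Finset ℂ) := by
    simp only [Finset.mem_insert, Finset.mem_singleton, not_or]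
    exact ⟨fun h => one_ne_zero (by linear_combination -h : (1 : ℂ) = 0),
      fun h => two_ne_zero (by linear_combination -h : (2 : ℂ) = 0)⟩
  have n3 : (Fintype.card F : ℂ) ∉ ({(Fintype.card F : ℂ) + 1} : Finset ℂ) := by simp
  have e1 := H1.sum_count_by_degree _ hD
  have e2 := H1.sum_sq_by_degree _ hD
  rw [Finset.sum_insert n1, Finset.sum_insert n2, Finset.sum_insert n3, Finset.sum_singleton,
    c1, c2] at e1 e2
  rw [H2.card_conjClasses_GL2, Nat.card_eq_fintype_card (α := F),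
    Nat.cast_sub (Nat.one_le_pow _ _ (by omega)), H1.cast_card_sub_one] at e1
  rw [H1.card_GL2', H1.cast_card_sub_one] at e2
  refine ⟨c1, c2, ?_, ?_⟩
  · symm
    apply Nat.div_eq_of_eq_mul_right (by norm_num)
    apply Nat.cast_injective (R := ℂ)
    push_cast [H1.cast_card_sub_one, Nat.cast_sub (show 2 ≤ Fintype.card F by omega)] at e1 ⊢
    apply mul_left_cancel₀ (mul_ne_zero two_ne_zero h0)
    linear_combination ((Fintype.card F : ℂ) - 1) ^ 2 * e1 - e2
  · symm
    apply Nat.div_eq_of_eq_mul_right (by norm_num)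
    apply Nat.cast_injective (R := ℂ)
    push_cast [H1.cast_card_sub_one] at e1 ⊢
    apply mul_left_cancel₀ (mul_ne_zero two_ne_zero h0)
    linear_combination e2 - ((Fintype.card F : ℂ) + 1) ^ 2 * e1

end Cfsg.Agent.S2298
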