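import Cfsg.Statements.S2300
import Cfsg.Agent.H1.SL2More

set_option autoImplicit false
open Cfsg

namespace Cfsg.Agent.S2300

/-- Over a finite field F with q elements, q even, every irreducible complex character of SL₂ has degree 1, q − 1, q or q + 1; and when q ≥ 4 (so that these four numbers are distinct) there are exactly one irreducible character of degree 1, one of degree q, (q − 2)/2 of degree q + 1 and q/2 of degree q − 1. -/
theorem result {F : Type*} [Field F] [Fintype F] [CharP F 2] :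
    (∀ χ : Matrix.SpecialLinearGroup (Fin 2) F → ℂ, Cfsg.IsIrrCharacter (Matrix.SpecialLinearGroup (Fin 2) F) χ →
      χ 1 = 1 ∨ χ 1 = (Fintype.card F : ℂ) - 1 ∨ χ 1 = (Fintype.card F : ℂ) ∨ χ 1 = (Fintype.card F : ℂ) + 1) ∧
    (4 ≤ Fintype.card F →
      Nat.card {χ : Cfsg.IrrCharacter (Matrix.SpecialLinearGroup (Fin 2) F) // (χ : Matrix.SpecialLinearGroup (Fin 2) F → ℂ) 1 = 1} = 1 ∧
      Nat.card {χ : Cfsg.IrrCharacter (Matrix.SpecialLinearGroup (Fin 2) F) // (χ : Matrix.SpecialLinearGroup (Fin 2) F → ℂ) 1 = (Fintype.card F : ℂ)} = 1 ∧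
      Nat.card {χ : Cfsg.IrrCharacter (Matrix.SpecialLinearGroup (Fin 2) F) // (χ : Matrix.SpecialLinearGroup (Fin 2) F → ℂ) 1 = (Fintype.card F : ℂ) + 1} = (Fintype.card F - 2) / 2 ∧
      Nat.card {χ : Cfsg.IrrCharacter (Matrix.SpecialLinearGroup (Fin 2) F) // (χ : Matrix.SpecialLinearGroup (Fin 2) F → ℂ) 1 = (Fintype.card F : ℂ) - 1} = Fintype.card F / 2) := by
  classical
  obtain ⟨E, _, _, _, ⟨Q⟩⟩ := H1.exists_quadEmb F
  have h2 : (2 : F) = 0 := CharTwo.two_eq_zero
  have hdeg : ∀ χ : Matrix.SpecialLinearGroup (Fin 2) F → ℂ, Cfsg.IsIrrCharacter _ χ →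
      χ 1 = 1 ∨ χ 1 = (Fintype.card F : ℂ) - 1 ∨ χ 1 = (Fintype.card F : ℂ) ∨
        χ 1 = (Fintype.card F : ℂ) + 1 := by
    intro χ hχ
    rcases H1.irr_SL2_cases_deg Q hχ with h | h | h | h | h | h
    · simp [h.1]
    · simp [h.1]
    · simp [h.1]
    · simp [h.1]
    · exact absurd h2 h.2.1
    · exact absurd h2 h.2.1
  refine ⟨hdeg, fun hq4 => ?_⟩
  have c1 := H1.card_degree_eq_one 1 H1.isIrrCharacter_one rfl
    (fun χ hχ hd => H1.irr_SL2_deg_one Q hq4 hχ hd)
  have c2 := H1.card_degree_eq_one (Fintype.card F) (H1.isIrr_resSL_st (F := F) 1)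
    (by rw [H1.resSL_one, H1.st_one]) (fun χ hχ hd => H1.irr_SL2_deg_q Q hχ hd)
  have hD : ∀ χ : Matrix.SpecialLinearGroup (Fin 2) F → ℂ, Cfsg.IsIrrCharacter _ χ →
      χ 1 ∈ ({1, (Fintype.card F : ℂ) - 1, (Fintype.card F : ℂ), (Fintype.card F : ℂ) + 1} :
        Finset ℂ) := by
    intro χ hχ
    simpa using hdeg χ hχ
  have h0 := H1.card_ne_nat (F := F) (n := 0) (by omega)
  have h1 := H1.card_ne_nat (F := F) (n := 1) (by omega)
  have h2' := H1.card_ne_nat (F := F) (n := 2) (by omega)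
  push_cast at h0 h1 h2'
  have n1 : (1 : ℂ) ∉ ({(Fintype.card F : ℂ) - 1, (Fintype.card F : ℂ), (Fintype.card F : ℂ) + 1} :
      Finset ℂ) := by
    simp only [Finset.mem_insert, Finset.mem_singleton, not_or]
    exact ⟨fun h => h2' (by linear_combination -h), h1.symm, fun h => h0 (by linear_combination -h)⟩
  have n2 : (Fintype.card F : ℂ) - 1 ∉ ({(Fintype.card F : ℂ), (Fintype.card F : ℂ) + 1} :
      Finset ℂ) := by
    simp only [Finset.mem_insert, Finset.mem_singleton, not_or]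
    exact ⟨fun h => one_ne_zero (by linear_combination -h : (1 : ℂ) = 0),
      fun h => two_ne_zero (by linear_combination -h : (2 : ℂ) = 0)⟩
  have n3 : (Fintype.card F : ℂ) ∉ ({(Fintype.card F : ℂ) + 1} : Finset ℂ) := by simp
  have e1 := H1.sum_count_by_degree _ hD
  have e2 := H1.sum_sq_by_degree _ hD
  rw [Finset.sum_insert n1, Finset.sum_insert n2, Finset.sum_insert n3, Finset.sum_singleton,
    c1, c2] at e1 e2
  rw [H2.card_conjClasses_SL2_even h2, Nat.card_eq_fintype_card (α := F)] at e1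
  rw [H1.card_SL2'] at e2
  refine ⟨c1, c2, ?_, ?_⟩
  · symm
    apply Nat.div_eq_of_eq_mul_right (by norm_num)
    apply Nat.cast_injective (R := ℂ)
    push_cast [Nat.cast_sub (show 2 ≤ Fintype.card F by omega)] at e1 e2 ⊢
    apply mul_left_cancel₀ (mul_ne_zero two_ne_zero h0)
    linear_combination ((Fintype.card F : ℂ) - 1) ^ 2 * e1 - e2
  · symm
    apply Nat.div_eq_of_eq_mul_right (by norm_num)
    apply Nat.cast_injective (R := ℂ)
    push_cast at e1 e2 ⊢
    apply mul_left_cancel₀ (mul_ne_zero two_ne_zero h0)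
    linear_combination e2 - ((Fintype.card F : ℂ) + 1) ^ 2 * e1

end Cfsg.Agent.S2300
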