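import Cfsg.Statements.S2301
import Cfsg.Agent.H2.SL2Conj

set_option autoImplicit false
open Cfsg

namespace Cfsg.Agent.S2301

/-- Over a finite field with q elements of odd characteristic p, the elements of order p of SL₂ (the non-identity unipotent elements) fall into exactly two conjugacy classes, each of size (q² − 1)/2; two upper unitriangular matrices with non-zero off-diagonal entries b and b′ are conjugate exactly when bb′ is a square. -/
theorem result {F : Type*} [Field F] [Fintype F] (p : ℕ) [Fact p.Prime] [CharP F p] (hp : p ≠ 2) :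
    Nat.card {C : ConjClasses (Matrix.SpecialLinearGroup (Fin 2) F) // ∃ g : Matrix.SpecialLinearGroup (Fin 2) F, orderOf g = p ∧ ConjClasses.mk g = C} = 2 ∧
    (∀ g : Matrix.SpecialLinearGroup (Fin 2) F, orderOf g = p → Nat.card (ConjClasses.mk g).carrier = (Fintype.card F ^ 2 - 1) / 2) ∧
    ∀ g h : Matrix.SpecialLinearGroup (Fin 2) F, (g : Matrix (Fin 2) (Fin 2) F) 0 0 = 1 → (g : Matrix (Fin 2) (Fin 2) F) 1 1 = 1 → (g : Matrix (Fin 2) (Fin 2) F) 1 0 = 0 → (g : Matrix (Fin 2) (Fin 2) F) 0 1 ≠ 0 →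
      (h : Matrix (Fin 2) (Fin 2) F) 0 0 = 1 → (h : Matrix (Fin 2) (Fin 2) F) 1 1 = 1 → (h : Matrix (Fin 2) (Fin 2) F) 1 0 = 0 → (h : Matrix (Fin 2) (Fin 2) F) 0 1 ≠ 0 →
      (IsConj g h ↔ IsSquare ((g : Matrix (Fin 2) (Fin 2) F) 0 1 * (h : Matrix (Fin 2) (Fin 2) F) 0 1)) := by
  have h2 : (2 : F) ≠ 0 := H2.two_ne_zero_of_charP p hp
  refine ⟨?_, ?_, ?_⟩
  · obtain ⟨e, he⟩ := FiniteField.exists_nonsquare (H2.ringChar_ne_two_of h2)
    have he0 : e ≠ 0 := by rintro rfl; exact he IsSquare.zero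
    rw [Nat.card_eq_two_iff]
    refine ⟨⟨_, H2.uSL 1, H2.orderOf_uSL p one_ne_zero, rfl⟩, ⟨_, H2.uSL e, H2.orderOf_uSL p he0, rfl⟩, ?_, ?_⟩
    · intro h
      have := congrArg Subtype.val h
      simp only [ConjClasses.mk_eq_mk_iff_isConj] at this
      rw [H2.isConj_uSL_iff one_ne_zero he0, one_mul] at this
      exact he this
    · ext ⟨C, g, hg, rfl⟩
      simp only [Set.mem_insert_iff, Subtype.mk.injEq, Set.mem_singleton_iff, Set.mem_univ, iff_true,
        ConjClasses.mk_eq_mk_iff_isConj]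
      obtain ⟨a1, a2⟩ := H2.unip_of_orderOf_SL p hg
      obtain ⟨b, hb, hc⟩ := H2.exists_isConj_uSL a1 a2
      by_cases hsq : IsSquare b
      · exact Or.inl (hc.trans ((H2.isConj_uSL_iff hb one_ne_zero).2 (by simpa using hsq)))
      · exact Or.inr (hc.trans ((H2.isConj_uSL_iff hb he0).2 (H2.isSquare_mul_of_not hsq he)))
  · intro g hg
    obtain ⟨a1, a2⟩ := H2.unip_of_orderOf_SL p hg
    have h3 := H2.card_carrier_mul_card_centralizer g
    rw [H2.card_centralizer_SL_unip g a1 h2 (by rw [a2]; norm_num), H2.card_SL2,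
      mul_comm (Nat.card F), Nat.card_eq_fintype_card (α := F), ← mul_assoc] at h3
    have h4 := Nat.eq_of_mul_eq_mul_right Fintype.card_pos h3
    omega
  · intro g h g00 g11 g10 g01 h00 h11 h10 h01
    have e1 : g = H2.uSL (g 0 1) := H2.SL_ext (H2.m2_ext (by simp [g00]) (by simp) (by simp [g10]) (by simp [g11]))
    have e2 : h = H2.uSL (h 0 1) := H2.SL_ext (H2.m2_ext (by simp [h00]) (by simp) (by simp [h10]) (by simp [h11]))
    rw [← H2.isConj_uSL_iff g01 h01, ← e1, ← e2]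

end Cfsg.Agent.S2301
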