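import Cfsg.Statements.S2302
import Cfsg.Agent.H2.SL2Conj

set_option autoImplicit false
open Cfsg

namespace Cfsg.Agent.S2302

/-- Over a finite field with q elements of characteristic 2, the involutions of SL₂ (the non-identity unipotent elements) form a single conjugacy class, of size q² − 1. -/
theorem result {F : Type*} [Field F] [Fintype F] [CharP F 2] (g h : Matrix.SpecialLinearGroup (Fin 2) F) (hg : orderOf g = 2) (hh : orderOf h = 2) :
    IsConj g h ∧ Nat.card (ConjClasses.mk g).carrier = Fintype.card F ^ 2 - 1 := by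
  have h2 : (2 : F) = 0 := by exact_mod_cast CharP.cast_eq_zero F 2
  obtain ⟨a1, a2⟩ := H2.unip_of_orderOf_SL 2 hg
  obtain ⟨b1, b2⟩ := H2.unip_of_orderOf_SL 2 hh
  refine ⟨H2.isConj_SL_of a1 b1 (a2.trans b2.symm) (Or.inl h2), ?_⟩
  have h3 := H2.card_carrier_mul_card_centralizer g
  rw [H2.card_centralizer_SL g a1 (Or.inl h2), a2, H2.nroots_two_one, H2.card_SL2,
    Nat.add_sub_cancel, mul_comm (Nat.card F), Nat.card_eq_fintype_card (α := F)] at h3
  exact Nat.eq_of_mul_eq_mul_right Fintype.card_pos h3

end Cfsg.Agent.S2302
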