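import Cfsg.Statements.S2303
import Cfsg.Agent.H2.SL2Conj

set_option autoImplicit false
open Cfsg

namespace Cfsg.Agent.S2303

/-- Over a finite field with q elements: a diagonal element of GL₂ with two distinct diagonal entries has centralizer of order (q − 1)² (so q(q + 1) conjugates), and an element of GL₂ with no eigenvector in F² has centralizer of order q² − 1 (so q(q − 1) conjugates). -/
theorem result {F : Type*} [Field F] [Fintype F] (g : Matrix.GeneralLinearGroup (Fin 2) F) :
    ((g : Matrix (Fin 2) (Fin 2) F) 0 1 = 0 → (g : Matrix (Fin 2) (Fin 2) F) 1 0 = 0 → (g : Matrix (Fin 2) (Fin 2) F) 0 0 ≠ (g : Matrix (Fin 2) (Fin 2) F) 1 1 →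
      Nat.card (Subgroup.centralizer ({g} : Set (Matrix.GeneralLinearGroup (Fin 2) F))) = (Fintype.card F - 1) ^ 2) ∧
    ((∀ (c : F) (v : Fin 2 → F), v ≠ 0 → (g : Matrix (Fin 2) (Fin 2) F).mulVec v ≠ c • v) →
      Nat.card (Subgroup.centralizer ({g} : Set (Matrix.GeneralLinearGroup (Fin 2) F))) = Fintype.card F ^ 2 - 1) := by
  have hq : 2 ≤ Fintype.card F := Fintype.one_lt_card
  constructor
  · intro h01 h10 hne
    rw [H2.card_centralizer_GL g (fun h => hne h.2.2), Matrix.trace_fin_two, Matrix.det_fin_two, h01, h10,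
      mul_zero, sub_zero, H2.nroots_of_distinct hne, Nat.card_eq_fintype_card, sq]
    congr 1
  · intro h
    have hs : ¬ H2.IsScal (g : Matrix (Fin 2) (Fin 2) F) := by
      intro hs
      obtain ⟨a, ha⟩ := H2.isScal_iff.1 hs
      apply h a ![1, 0] (by simp)
      rw [ha, Matrix.smul_mulVec, Matrix.one_mulVec]
    rw [H2.card_centralizer_GL g hs, H2.nroots_of_none, Nat.card_eq_fintype_card, Nat.sub_zero,
      mul_comm, ← Nat.sq_sub_sq]
    intro x hx
    have hdet : ((g : Matrix (Fin 2) (Fin 2) F) - x • (1 : Matrix (Fin 2) (Fin 2) F)).det = 0 := by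
      rw [Matrix.trace_fin_two, Matrix.det_fin_two] at hx
      simp [Matrix.det_fin_two]
      linear_combination hx
    obtain ⟨v, hv, hv'⟩ := Matrix.exists_mulVec_eq_zero_iff.2 hdet
    apply h x v hv
    rw [Matrix.sub_mulVec, Matrix.smul_mulVec, Matrix.one_mulVec, sub_eq_zero] at hv'
    exact hv'

end Cfsg.Agent.S2303
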