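import Cfsg.Statements.S2308
import Cfsg.Agent.H2.PSL2

set_option autoImplicit false
open Cfsg

namespace Cfsg.Agent.S2308

open Cfsg.Agent.H2 Matrix in
theorem aux {F : Type*} [Field F] [Finite F] (g : Matrix.GeneralLinearGroup (Fin 2) F) :
    Nat.card (MulAction.fixedBy (Matrix.GeneralLinearGroup (Fin 2) F ⧸ Cfsg.upperTriangularGL 2 F) g) =
      {o : Option F | o.elim (g.1 1 0 = 0) fun a => g.1 0 0 * a + g.1 0 1 = a * (g.1 1 0 * a + g.1 1 1)}.ncard := by
  have hm : ∀ g : Matrix.GeneralLinearGroup (Fin 2) F, g ∈ Cfsg.upperTriangularGL 2 F ↔ g.1 1 0 = 0 := by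
    intro g
    constructor
    · intro h; exact h (show (0 : Fin 2) < 1 by decide)
    · intro h i j hij
      fin_cases i <;> fin_cases j <;> simp_all
  have hq : ∀ x y : Matrix.GeneralLinearGroup (Fin 2) F,
      (x : Matrix.GeneralLinearGroup (Fin 2) F ⧸ Cfsg.upperTriangularGL 2 F) = y ↔
        x.1 0 0 * y.1 1 0 = x.1 1 0 * y.1 0 0 := by
    intro x y
    have hx : IsUnit x.1.det := x.isUnit.map Matrix.detMonoidHom
    rw [QuotientGroup.eq, hm, Units.val_mul, Matrix.coe_units_inv, Matrix.inv_def, adjugate_fin_two, m2_mul_apply,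
      Ring.inverse_eq_inv']
    simp only [Matrix.smul_apply, smul_eq_mul]
    simp only [of_apply, cons_val', cons_val_zero, cons_val_one, cons_val_fin_one]
    rw [mul_assoc, mul_assoc, ← mul_add, mul_eq_zero, or_iff_right (inv_ne_zero hx.ne_zero)]
    constructor <;> intro h <;> linear_combination h
  let T : Option F → Matrix.GeneralLinearGroup (Fin 2) F := fun o =>
    o.elim 1 fun a => toGL !![a, 1; 1, 0] (by simp [det_fin_two_of])
  have hT : Function.Bijective fun o => (T o : Matrix.GeneralLinearGroup (Fin 2) F ⧸ Cfsg.upperTriangularGL 2 F) := by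
    constructor
    · rintro (_ | a) (_ | b) h <;> simp [hq, T] at h ⊢
      exact h
    · intro x
      obtain ⟨x, rfl⟩ := QuotientGroup.mk_surjective x
      by_cases h : x.1 1 0 = 0
      · exact ⟨none, by simp [hq, T, h]⟩
      · exact ⟨some (x.1 0 0 / x.1 1 0), by simp [hq, T, h]⟩
  symm
  refine Nat.card_congr ((Equiv.ofBijective _ hT).subtypeEquiv fun o => ?_)
  change _ ↔ ((g * T o : Matrix.GeneralLinearGroup (Fin 2) F) :
    Matrix.GeneralLinearGroup (Fin 2) F ⧸ Cfsg.upperTriangularGL 2 F) = T o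
  rw [hq]
  rcases o with _ | a <;> simp [T, m2_mul_apply]
  · exact eq_comm
  · rw [mul_comm a]

/-- Values of the permutation character of GL₂ over a finite field F with q elements on the cosets of its upper triangular subgroup (equivalently, the number of lines of F² that an element maps to themselves): q + 1 at a scalar matrix, 2 at a diagonal matrix with two different diagonal entries, 0 at an element with no eigenvector in F², and 1 at an upper triangular matrix with equal diagonal entries and non-zero upper right entry. -/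
theorem result {F : Type*} [Field F] [Fintype F] (g : Matrix.GeneralLinearGroup (Fin 2) F) :
    ((∃ a : F, (g : Matrix (Fin 2) (Fin 2) F) = a • (1 : Matrix (Fin 2) (Fin 2) F)) → Cfsg.fixedPointCharacter (Cfsg.upperTriangularGL 2 F) g = Fintype.card F + 1) ∧
    ((g : Matrix (Fin 2) (Fin 2) F) 0 1 = 0 → (g : Matrix (Fin 2) (Fin 2) F) 1 0 = 0 → (g : Matrix (Fin 2) (Fin 2) F) 0 0 ≠ (g : Matrix (Fin 2) (Fin 2) F) 1 1 →
      Cfsg.fixedPointCharacter (Cfsg.upperTriangularGL 2 F) g = 2) ∧
    ((∀ (c : F) (v : Fin 2 → F), v ≠ 0 → (g : Matrix (Fin 2) (Fin 2) F).mulVec v ≠ c • v) → Cfsg.fixedPointCharacter (Cfsg.upperTriangularGL 2 F) g = 0) ∧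
    ((g : Matrix (Fin 2) (Fin 2) F) 1 0 = 0 → (g : Matrix (Fin 2) (Fin 2) F) 0 0 = (g : Matrix (Fin 2) (Fin 2) F) 1 1 → (g : Matrix (Fin 2) (Fin 2) F) 0 1 ≠ 0 →
      Cfsg.fixedPointCharacter (Cfsg.upperTriangularGL 2 F) g = 1) := by
  open Cfsg.Agent.H2 in
  simp only [Cfsg.fixedPointCharacter, aux]
  refine ⟨?_, fun h1 h2 h3 => ?_, fun h => ?_, fun h1 h2 h3 => ?_⟩
  · rintro ⟨a, ha⟩
    have : {o : Option F | o.elim (g.1 1 0 = 0) fun a => g.1 0 0 * a + g.1 0 1 = a * (g.1 1 0 * a + g.1 1 1)} =
        Set.univ := by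
      ext o
      rcases o with _ | b <;> simp [ha, mul_comm]
    rw [this, Set.ncard_univ]
    simp
  · have : {o : Option F | o.elim (g.1 1 0 = 0) fun a => g.1 0 0 * a + g.1 0 1 = a * (g.1 1 0 * a + g.1 1 1)} =
        {none, some 0} := by
      ext o
      rcases o with _ | b <;> simp [h1, h2]
      exact ⟨fun h => mul_left_cancel₀ (sub_ne_zero.2 h3) (by linear_combination h), fun h => by simp [h]⟩
    rw [this, Set.ncard_pair (by simp)]
    simp
  · have : {o : Option F | o.elim (g.1 1 0 = 0) fun a => g.1 0 0 * a + g.1 0 1 = a * (g.1 1 0 * a + g.1 1 1)} =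
        ∅ := by
      ext o
      rcases o with _ | b <;> simp
      · intro h1
        refine h (g.1 0 0) ![1, 0] (by simp) ?_
        ext i; fin_cases i <;> simp [Matrix.mulVec, dotProduct, h1]
      · intro h1
        refine h (g.1 1 0 * b + g.1 1 1) ![b, 1] (by simp) ?_
        ext i; fin_cases i <;> simp [Matrix.mulVec, dotProduct, h1]
        ring
    rw [this]
    simp
  · have : {o : Option F | o.elim (g.1 1 0 = 0) fun a => g.1 0 0 * a + g.1 0 1 = a * (g.1 1 0 * a + g.1 1 1)} =
        {none} := by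
      ext o
      rcases o with _ | b <;> simp [h1, h2]
      exact fun h => h3 (by linear_combination h)
    rw [this]
    simp

end Cfsg.Agent.S2308
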