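import Cfsg.Statements.S2309
import Cfsg.Agent.H1.GL2Cusp

set_option autoImplicit false
open Cfsg

namespace Cfsg.Agent.S2309

/-- Over a finite field F with q elements: every irreducible complex character of GL₂ of degree q − 1 vanishes at every diagonal matrix with two distinct entries, and every irreducible complex character of degree q + 1 vanishes at every element with no eigenvector in F². -/
theorem result {F : Type*} [Field F] [Fintype F] (χ : Matrix.GeneralLinearGroup (Fin 2) F → ℂ) (hχ : Cfsg.IsIrrCharacter (Matrix.GeneralLinearGroup (Fin 2) F) χ) (g : Matrix.GeneralLinearGroup (Fin 2) F) :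
    (χ 1 = (Fintype.card F : ℂ) - 1 → (g : Matrix (Fin 2) (Fin 2) F) 0 1 = 0 → (g : Matrix (Fin 2) (Fin 2) F) 1 0 = 0 → (g : Matrix (Fin 2) (Fin 2) F) 0 0 ≠ (g : Matrix (Fin 2) (Fin 2) F) 1 1 → χ g = 0) ∧
    (χ 1 = (Fintype.card F : ℂ) + 1 → (∀ (c : F) (v : Fin 2 → F), v ≠ 0 → (g : Matrix (Fin 2) (Fin 2) F).mulVec v ≠ c • v) → χ g = 0) := by
  classical
  obtain ⟨E, _, _, _, ⟨Q⟩⟩ := H1.exists_quadEmb F
  have hq := Fintype.one_lt_card (α := F)
  constructor
  · intro hd h1 h2 h3
    have ht : g.1.trace = g.1 0 0 + g.1 1 1 := Matrix.trace_fin_two _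
    have hdet : g.1.det = g.1 0 0 * g.1 1 1 := by rw [Matrix.det_fin_two, h1]; ring
    have hq3 : 3 ≤ Fintype.card F := by
      have := H1.upper_diag_ne_zero h2
      have h4 : ({0, g.1 0 0, g.1 1 1} : Finset F).card = 3 :=
        Finset.card_eq_three.mpr ⟨_, _, _, this.1.symm, this.2.symm, h3, rfl⟩
      rw [← h4]; exact Finset.card_le_univ _
    rcases H1.irr_GL2_cases Q hχ with ⟨γ, rfl⟩ | ⟨γ, rfl⟩ | ⟨α, β, -, rfl⟩ | ⟨θ, -, rfl⟩
    · rw [H1.lin_one] at hd
      have : (Fintype.card F : ℂ) = 2 := by linear_combination -hd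
      have : Fintype.card F = 2 := by exact_mod_cast this
      omega
    · rw [H1.st_one] at hd
      exact absurd (by linear_combination hd : (1 : ℂ) = 0) one_ne_zero
    · rw [H1.ps_one] at hd
      exact absurd (by linear_combination hd : (2 : ℂ) = 0) two_ne_zero
    · exact H1.cusp_split Q θ h3 ht hdet
  · intro hd h
    have h0 := H1.no_root_of_no_eigenvector h
    rcases H1.irr_GL2_cases Q hχ with ⟨γ, rfl⟩ | ⟨γ, rfl⟩ | ⟨α, β, -, rfl⟩ | ⟨θ, -, rfl⟩
    · rw [H1.lin_one] at hd
      exact absurd (by linear_combination -hd) (H1.card_field_ne_zero (K := F))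
    · rw [H1.st_one] at hd
      exact absurd (by linear_combination -hd : (1 : ℂ) = 0) one_ne_zero
    · exact H1.ps_ell _ _ h0
    · rw [H1.cusp_one] at hd
      exact absurd (by linear_combination -hd : (2 : ℂ) = 0) two_ne_zero

end Cfsg.Agent.S2309
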