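import Cfsg.Statements.S2310
import Cfsg.Agent.H1.GL2Cusp

set_option autoImplicit false
open Cfsg

namespace Cfsg.Agent.S2310

/-- Over a finite field F with q ≥ 3 elements, let u be the upper unitriangular matrix of GL₂ with off-diagonal entry 1. An irreducible complex character χ of GL₂ takes at u the value 1 if χ has degree 1 or q + 1, the value −1 if χ has degree q − 1, and the value 0 if χ has degree q. -/
theorem result {F : Type*} [Field F] [Fintype F] (hq : 3 ≤ Fintype.card F) (χ : Matrix.GeneralLinearGroup (Fin 2) F → ℂ) (hχ : Cfsg.IsIrrCharacter (Matrix.GeneralLinearGroup (Fin 2) F) χ)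
    (u : Matrix.GeneralLinearGroup (Fin 2) F) (hu : (u : Matrix (Fin 2) (Fin 2) F) = !![1, 1; 0, 1]) :
    (χ 1 = 1 → χ u = 1) ∧ (χ 1 = (Fintype.card F : ℂ) + 1 → χ u = 1) ∧
    (χ 1 = (Fintype.card F : ℂ) - 1 → χ u = -1) ∧ (χ 1 = (Fintype.card F : ℂ) → χ u = 0) := by
  classical
  obtain ⟨E, _, _, _, ⟨Q⟩⟩ := H1.exists_quadEmb F
  have hns : ¬ H2.IsScal u.1 := by simp [hu, H2.IsScal]
  have ht : u.1.trace = 1 + 1 := by simp [hu]
  have hdet : u.1.det = 1 * 1 := by simp [hu]
  have h0 : (Fintype.card F : ℂ) ≠ 0 := by exact_mod_cast (by omega : Fintype.card F ≠ 0)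
  have h1 : (Fintype.card F : ℂ) ≠ 1 := by exact_mod_cast (by omega : Fintype.card F ≠ 1)
  have h2 : (Fintype.card F : ℂ) ≠ 2 := by exact_mod_cast (by omega : Fintype.card F ≠ 2)
  rcases H1.irr_GL2_cases Q hχ with ⟨γ, rfl⟩ | ⟨γ, rfl⟩ | ⟨α, β, -, rfl⟩ | ⟨θ, -, rfl⟩
  · rw [H1.lin_one]
    refine ⟨fun _ => by simp [H1.lin, hdet], fun _ => by simp [H1.lin, hdet], fun h => ?_,
      fun h => ?_⟩
    · exact absurd (by linear_combination -h) h2
    · exact absurd h.symm h1
  · rw [H1.st_one, H1.st_jordan _ hns ht hdet]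
    refine ⟨fun h => absurd h h1, fun h => ?_, fun h => ?_, fun _ => rfl⟩
    · exact absurd (by linear_combination -h : (1 : ℂ) = 0) one_ne_zero
    · exact absurd (by linear_combination h : (1 : ℂ) = 0) one_ne_zero
  · rw [H1.ps_one, H1.ps_jordan _ _ hns ht hdet]
    refine ⟨fun h => by simp, fun h => by simp, fun h => ?_, fun h => ?_⟩
    · exact absurd (by linear_combination h : (2 : ℂ) = 0) two_ne_zero
    · exact absurd (by linear_combination h : (1 : ℂ) = 0) one_ne_zero
  · rw [H1.cusp_one, H1.cusp_jordan _ _ hns ht hdet]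
    refine ⟨fun h => ?_, fun h => ?_, fun h => by simp, fun h => ?_⟩
    · exact absurd (by linear_combination h) h2
    · exact absurd (by linear_combination -h : (2 : ℂ) = 0) two_ne_zero
    · exact absurd (by linear_combination -h : (1 : ℂ) = 0) one_ne_zero

end Cfsg.Agent.S2310
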