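import Cfsg.Statements.S2311
import Cfsg.Agent.H7.StMore
import Cfsg.Agent.H7.All

set_option autoImplicit false
open Cfsg

namespace Cfsg.Agent.S2311

open Cfsg.Lie Cfsg.Agent.H7 Cfsg.Agent.H8

/-- In a Chevalley group of type G₂, B₂, D₄, F₄, E₆, E₇ or E₈ over a finite field, the alternating sum over all sets J of fundamental roots of (−1)^|J| times the permutation character on the cosets of the standard parabolic subgroup P_J is an irreducible complex character: the Steinberg character. -/
theorem result {F : Type*} [Field F] [Fintype F] (D : Cfsg.Lie.ChevalleyDatum) (hD : D ∈ [Cfsg.Lie.chevG2, Cfsg.Lie.chevB2, Cfsg.Lie.chevD4, Cfsg.Lie.chevF4, Cfsg.Lie.chevE6, Cfsg.Lie.chevE7, Cfsg.Lie.chevE8]) :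
    Cfsg.IsIrrCharacter ↥(D.group F) (D.steinbergCharacter F) := by
  obtain ⟨_, _, _, _, _⟩ := facts_of_mem hD
  have := (isChev_xg (D := D) (F := F)).finite_G GG_xg
  have := Fintype.ofFinite (D.group F)
  rw [St_xg]
  exact isChev_xg.St_irr GG_xg

end Cfsg.Agent.S2311
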