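import Cfsg.Statements.S2315
import Cfsg.Agent.H4.Fitting

set_option autoImplicit false
open Cfsg

namespace Cfsg.Agent.S2315

open Cfsg.Agent.H4

/-- Steinberg's count of unipotent elements for the general linear group: over a finite field with q elements of characteristic p, the number of elements of GL_n of p-power order (the unipotent matrices) is q^(n(n−1)). -/
theorem result {F : Type*} [Field F] [Fintype F] (p : ℕ) [Fact p.Prime] [CharP F p] (n : ℕ) :
    Nat.card {g : Matrix.GeneralLinearGroup (Fin n) F // ∃ k : ℕ, orderOf g = p ^ k} = Fintype.card F ^ (n * (n - 1)) := by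
  rw [← nilNum_eq, nilNum]
  refine Nat.card_eq_of_bijective (fun g => ⟨Matrix.toLinAlgEquiv' (g.1.1 - 1),
    ((GL_isNilpotent_iff p g.1).2 g.2).map _⟩) ⟨fun g h hgh => ?_, fun ⟨N, hN⟩ => ?_⟩
  · have := Matrix.toLinAlgEquiv'.injective (congrArg Subtype.val hgh)
    exact Subtype.ext (Units.ext (sub_left_inj.1 this))
  · have h1 : IsNilpotent (Matrix.toLinAlgEquiv'.symm N) := hN.map _
    have h2 := h1.isUnit_add_one
    refine ⟨⟨h2.unit, (GL_isNilpotent_iff p _).1 (by simpa using h1)⟩, Subtype.ext (by simp)⟩

end Cfsg.Agent.S2315
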