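import Cfsg.Statements.S2316
import Cfsg.Agent.H6.SpUn3

set_option autoImplicit false
open Cfsg

namespace Cfsg.Agent.S2316

/-- Steinberg's count of unipotent elements for the symplectic group: over a finite field with q elements of characteristic p, the number of elements of Sp_{2m} of p-power order is q^(2m²). -/
theorem result {F : Type*} [Field F] [Fintype F] (p : ℕ) [Fact p.Prime] [CharP F p] (m : ℕ) :
    Nat.card {g : ↥(Matrix.symplecticGroup (Fin m) F) // ∃ k : ℕ, orderOf g = p ^ k} = Fintype.card F ^ (2 * m ^ 2) := by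
  have hd : Module.finrank F (Fin m ⊕ Fin m → F) = 2 * m := H5.finrank_std_sp m
  rw [← H6.cn_unip F m, H6.cn_congr H6.isSp_hyp (H5.isSp_std m) ((H6.finrank_hy F m).trans hd.symm),
    ← hd]
  refine Nat.card_congr (((H5.spEquiv m F).toEquiv.trans ⟨fun g => ⟨g.1, g.2⟩,
    fun f : {f // H6.Rl true (H5.stdSp m F) f} => (H5.isSp_std m).isEps.toIsom f.1 f.2,
    fun _ => Subtype.ext (LinearEquiv.ext fun _ => rfl), fun _ => rfl⟩).subtypeEquiv
      (fun g => ?_) |>.trans (Equiv.subtypeSubtypeEquivSubtypeInter _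
        fun f => Module.finrank F (H6.gk (H6.ap true f)) = Module.finrank F (Fin m ⊕ Fin m → F)))
  let φ := (Matrix.symplecticGroup (Fin m) F).subtype.toHomUnits
  have e : orderOf (φ g) = orderOf g :=
    orderOf_injective φ (fun a b h => Subtype.ext (congrArg Units.val h)) g
  rw [H6.finrank_gk_top, ← e, ← H4.GL_isNilpotent_iff p, ← isNilpotent_neg_iff, neg_sub,
    ← IsNilpotent.map_iff (f := Matrix.toLinAlgEquiv') Matrix.toLinAlgEquiv'.injective, map_sub,
    map_one]
  rfl

end Cfsg.Agent.S2316
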