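import Cfsg.Statements.S2319
import Cfsg.Agent.H7.Hecke2
import Cfsg.Agent.H7.Cox
import Cfsg.Agent.H7.All

set_option autoImplicit false
open Cfsg

namespace Cfsg.Agent.S2319

open Cfsg.Lie Cfsg.Agent.H7 Cfsg.Agent.H8

theorem aux {F : Type*} [Field F] [Fintype F] (D : ChevalleyDatum)
    (hD : D ∈ [chevG2, chevB2, chevD4, chevF4, chevE6, chevE7, chevE8]) {M : CoxeterMatrix (Fin D.rank)} (h : chkCox D M) :
    Nat.card {χ : Cfsg.IrrCharacter ↥(D.group F) //
      ∃ φ : ↥(D.group F) → ℂ, Cfsg.IsCharacter ↥(D.group F) φ ∧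
        Cfsg.fixedPointCharacter ((D.borelSubgroup F).subgroupOf (D.group F)) = (χ : ↥(D.group F) → ℂ) + φ} =
      Nat.card (ConjClasses M.Group) := by
  obtain ⟨_, _, _, _, _⟩ := facts_of_mem hD
  have := (H7.isChev_xg (D := D) (F := F)).finite_G H7.GG_xg
  have := Fintype.ofFinite (D.group F)
  obtain ⟨e, -⟩ := h.exists_equiv
  have : Finite M.Group := Finite.of_equiv _ e.symm.toEquiv
  rw [← BB_xg, H7.isChev_xg.toIsFaith.card_constit H7.GG_xg]
  exact le_antisymm (Nat.card_le_card_of_surjective _ (ConjClasses.map_surjective (f := e.toMonoidHom) e.surjective))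
    (Nat.card_le_card_of_surjective _ (ConjClasses.map_surjective (f := e.symm.toMonoidHom) e.symm.surjective))

/-- In a Chevalley group of type G₂, B₂, D₄, F₄, E₆, E₇ or E₈ over a finite field, the number of distinct irreducible constituents of the permutation character on the cosets of B = UH equals the number of conjugacy classes (equivalently, of irreducible characters) of the Weyl group, the Coxeter group of the type with nodes numbered as the fundamental roots. -/
theorem result {F : Type*} [Field F] [Fintype F]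
    (dw : Cfsg.Lie.ChevalleyDatum × (Σ n : ℕ, CoxeterMatrix (Fin n)))
    (hdw : dw ∈ [(Cfsg.Lie.chevG2, ⟨2, CoxeterMatrix.G₂⟩), (Cfsg.Lie.chevB2, ⟨2, CoxeterMatrix.B 2⟩), (Cfsg.Lie.chevD4, ⟨4, Cfsg.Lie.coxeterD4⟩), (Cfsg.Lie.chevF4, ⟨4, CoxeterMatrix.F₄⟩),
      (Cfsg.Lie.chevE6, ⟨6, CoxeterMatrix.E₆⟩), (Cfsg.Lie.chevE7, ⟨7, CoxeterMatrix.E₇⟩), (Cfsg.Lie.chevE8, ⟨8, CoxeterMatrix.E₈⟩)]) :
    Nat.card {χ : Cfsg.IrrCharacter ↥(dw.1.group F) //
      ∃ φ : ↥(dw.1.group F) → ℂ, Cfsg.IsCharacter ↥(dw.1.group F) φ ∧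
        Cfsg.fixedPointCharacter ((dw.1.borelSubgroup F).subgroupOf (dw.1.group F)) = (χ : ↥(dw.1.group F) → ℂ) + φ} =
      Nat.card (ConjClasses dw.2.2.Group) := by
  simp only [List.mem_cons, List.not_mem_nil, or_false] at hdw
  rcases hdw with rfl | rfl | rfl | rfl | rfl | rfl | rfl
  · exact aux _ (by simp) chkCoxG2
  · exact aux _ (by simp) chkCoxB2
  · exact aux _ (by simp) chkCoxD4
  · exact aux _ (by simp) chkCoxF4
  · exact aux _ (by simp) chkCoxE6
  · exact aux _ (by simp) chkCoxE7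
  · exact aux _ (by simp) chkCoxE8

end Cfsg.Agent.S2319
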