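import Cfsg.Statements.S2320
import Cfsg.Agent.H1.GL2Cusp

set_option autoImplicit false
open Cfsg

namespace Cfsg.Agent.S2320

/-- Over a finite field F with q elements, every irreducible complex character of GL₂ of degree q takes a value of absolute value 1 at every diagonal matrix with two different diagonal entries and at every element with no eigenvector in F². -/
theorem result {F : Type*} [Field F] [Fintype F] (χ : Matrix.GeneralLinearGroup (Fin 2) F → ℂ) (hχ : Cfsg.IsIrrCharacter (Matrix.GeneralLinearGroup (Fin 2) F) χ) (hdeg : χ 1 = (Fintype.card F : ℂ)) (g : Matrix.GeneralLinearGroup (Fin 2) F) :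
    ((g : Matrix (Fin 2) (Fin 2) F) 0 1 = 0 → (g : Matrix (Fin 2) (Fin 2) F) 1 0 = 0 → (g : Matrix (Fin 2) (Fin 2) F) 0 0 ≠ (g : Matrix (Fin 2) (Fin 2) F) 1 1 → ‖χ g‖ = 1) ∧
    ((∀ (c : F) (v : Fin 2 → F), v ≠ 0 → (g : Matrix (Fin 2) (Fin 2) F).mulVec v ≠ c • v) → ‖χ g‖ = 1) := by
  classical
  obtain ⟨E, _, _, _, ⟨Q⟩⟩ := H1.exists_quadEmb F
  have hq := Fintype.one_lt_card (α := F)
  have h1 : (Fintype.card F : ℂ) ≠ 1 := by exact_mod_cast (by omega : Fintype.card F ≠ 1)
  rcases H1.irr_GL2_cases Q hχ with ⟨γ, rfl⟩ | ⟨γ, rfl⟩ | ⟨α, β, -, rfl⟩ | ⟨θ, -, rfl⟩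
  · rw [H1.lin_one] at hdeg
    exact absurd hdeg.symm h1
  · constructor
    · intro h1 h2 h3
      have ht : g.1.trace = g.1 0 0 + g.1 1 1 := Matrix.trace_fin_two _
      have hdet : g.1.det = g.1 0 0 * g.1 1 1 := by rw [Matrix.det_fin_two, h1]; ring
      rw [H1.st_split _ h3 ht hdet, H1.norm_mulChar _ g.det_ne_zero]
    · intro h
      rw [H1.st_ell _ (H1.no_root_of_no_eigenvector h), norm_neg, H1.norm_mulChar _ g.det_ne_zero]
  · rw [H1.ps_one] at hdeg
    exact absurd (by linear_combination hdeg : (1 : ℂ) = 0) one_ne_zero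
  · rw [H1.cusp_one] at hdeg
    exact absurd (by linear_combination -hdeg : (1 : ℂ) = 0) one_ne_zero

end Cfsg.Agent.S2320
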