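import Cfsg.Statements.S2321
import Cfsg.Agent.H1.SL2Table

set_option autoImplicit false
open Cfsg

namespace Cfsg.Agent.S2321

/-- Over a finite field F with q elements, an irreducible complex character of SL₂ of degree q (the Steinberg character) takes the value 1 at every diagonal matrix whose diagonal entry a has a² ≠ 1, the value −1 at every element with no eigenvector in F², and the value 0 at every upper triangular matrix with equal diagonal entries and non-zero upper right entry. -/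
theorem result {F : Type*} [Field F] [Fintype F] (χ : Matrix.SpecialLinearGroup (Fin 2) F → ℂ) (hχ : Cfsg.IsIrrCharacter (Matrix.SpecialLinearGroup (Fin 2) F) χ) (hdeg : χ 1 = (Fintype.card F : ℂ)) (g : Matrix.SpecialLinearGroup (Fin 2) F) :
    ((g : Matrix (Fin 2) (Fin 2) F) 0 1 = 0 → (g : Matrix (Fin 2) (Fin 2) F) 1 0 = 0 → (g : Matrix (Fin 2) (Fin 2) F) 0 0 ^ 2 ≠ 1 → χ g = 1) ∧
    ((∀ (c : F) (v : Fin 2 → F), v ≠ 0 → (g : Matrix (Fin 2) (Fin 2) F).mulVec v ≠ c • v) → χ g = -1) ∧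
    ((g : Matrix (Fin 2) (Fin 2) F) 1 0 = 0 → (g : Matrix (Fin 2) (Fin 2) F) 0 0 = (g : Matrix (Fin 2) (Fin 2) F) 1 1 → (g : Matrix (Fin 2) (Fin 2) F) 0 1 ≠ 0 → χ g = 0) := by
  classical
  obtain ⟨E, _, _, _, ⟨Q⟩⟩ := H1.exists_quadEmb F
  rw [H1.irr_SL2_deg_q Q hχ hdeg, H1.resSL_apply]
  refine ⟨fun h1 h2 h3 => ?_, fun h => ?_, fun h1 h2 h3 => ?_⟩
  · obtain ⟨ht, hd, h⟩ := H1.diag_trace_det h1
    rw [H1.st_split _ (H1.diag_ne h1 h3) ht hd, H1.det_sl2gl, map_one]
  · rw [H1.st_ell _ (H1.no_root_of_no_eigenvector h), H1.det_sl2gl, map_one]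
  · obtain ⟨ht, hd⟩ := H1.jordan_trace_det h1 h2
    exact H1.st_jordan _ (fun h => h3 h.1) ht hd

end Cfsg.Agent.S2321
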