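import Cfsg.Statements.S2322
import Cfsg.Agent.H1.SL2More

set_option autoImplicit false
open Cfsg

namespace Cfsg.Agent.S2322

/-- Over a finite field F with q elements, q odd: every irreducible complex character of SL₂ of degree q − 1 or (q − 1)/2 vanishes at every diagonal matrix whose diagonal entry a has a² ≠ 1, and every irreducible complex character of degree q + 1 or (q + 1)/2 vanishes at every element with no eigenvector in F². -/
theorem result {F : Type*} [Field F] [Fintype F] (hodd : Odd (Fintype.card F)) (χ : Matrix.SpecialLinearGroup (Fin 2) F → ℂ) (hχ : Cfsg.IsIrrCharacter (Matrix.SpecialLinearGroup (Fin 2) F) χ) (g : Matrix.SpecialLinearGroup (Fin 2) F) :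
    ((χ 1 = (Fintype.card F : ℂ) - 1 ∨ χ 1 = (((Fintype.card F - 1) / 2 : ℕ) : ℂ)) →
      (g : Matrix (Fin 2) (Fin 2) F) 0 1 = 0 → (g : Matrix (Fin 2) (Fin 2) F) 1 0 = 0 → (g : Matrix (Fin 2) (Fin 2) F) 0 0 ^ 2 ≠ 1 → χ g = 0) ∧
    ((χ 1 = (Fintype.card F : ℂ) + 1 ∨ χ 1 = (((Fintype.card F + 1) / 2 : ℕ) : ℂ)) →
      (∀ (c : F) (v : Fin 2 → F), v ≠ 0 → (g : Matrix (Fin 2) (Fin 2) F).mulVec v ≠ c • v) → χ g = 0) := by
  classical
  obtain ⟨E, _, _, _, ⟨Q⟩⟩ := H1.exists_quadEmb F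
  have h2 := H2.two_ne_zero_of_odd hodd
  have h3 := H1.three_le_card_of_two_ne_zero h2
  rw [H1.cast_half_add hodd, H1.cast_half_sub hodd]
  refine ⟨fun hd h1 h4 h5 => ?_, fun hd h => ?_⟩
  · obtain ⟨ht, hd', h⟩ := H1.diag_trace_det h1
    have hq : 4 ≤ Fintype.card F := by
      by_contra hq
      exact h5 (H1.sq_eq_one_of_card_three (by omega) (left_ne_zero_of_mul_eq_one h))
    rcases hd with hd | hd
    · obtain ⟨θ, -, rfl⟩ := H1.irr_SL2_deg_q_sub Q hq hχ hd
      exact H1.cusp_split _ _ (H1.diag_ne h1 h5) ht hd'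
    · obtain ⟨θ, -, -, h6⟩ := H1.irr_SL2_deg_half_sub Q hq hχ hd
      rw [h6.apply g (Or.inr (H1.diag_trace_sq_ne h1 h5)),
        H1.cusp_split _ _ (H1.diag_ne h1 h5) ht hd', zero_div]
  · have h' := H1.no_root_of_no_eigenvector h
    rcases hd with hd | hd
    · obtain ⟨α, -, rfl⟩ := H1.irr_SL2_deg_q_add Q hχ hd
      exact H1.ps_ell _ _ h'
    · have key : H1.IsHalf (H1.ps (H1.eta F) 1) χ → χ g = 0 := fun h6 => by
        rw [h6.apply g (Or.inr (H1.trace_sq_ne_of_no_root h2 h')), H1.ps_ell _ _ h', zero_div]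
      by_cases hq : 4 ≤ Fintype.card F
      · exact key (H1.irr_SL2_deg_half_add Q hq hχ hd)
      · have hq : Fintype.card F = 3 := by omega
        rcases H1.irr_SL2_cases_deg Q hχ with ⟨e, -⟩ | ⟨e, -⟩ | ⟨e, -⟩ | ⟨e, θ, h7, rfl⟩ | ⟨e, h7⟩ |
          ⟨e, -⟩
        · rw [hq, e] at hd; norm_num at hd
        · rw [e, hq] at hd; norm_num at hd
        · rw [e, hq] at hd; norm_num at hd
        · exact H1.cusp_ell_three Q hq h7 h'
        · exact key h7.2
        · rw [e, hq] at hd; norm_num at hd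

end Cfsg.Agent.S2322
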