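import Cfsg.Statements.S2324
import Cfsg.Agent.H1.SL2More

set_option autoImplicit false
open Cfsg

namespace Cfsg.Agent.S2324

/-- Over a finite field F with q elements, q odd and q ≥ 5, let u be the upper unitriangular matrix of SL₂ with off-diagonal entry 1 and let δ = (−1)^((q−1)/2). Every irreducible complex character χ of SL₂ of degree (q + 1)/2 satisfies (2χ(u) − 1)² = δq, and every irreducible complex character χ of degree (q − 1)/2 satisfies (2χ(u) + 1)² = δq; that is, χ(u) = (1 ± √(δq))/2 in the first case and χ(u) = (−1 ± √(δq))/2 in the second. Moreover two different irreducible characters of degree (q + 1)/2 take the two different values (their values at u add up to 1), and likewise for degree (q − 1)/2 (values adding up to −1). -/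
theorem result {F : Type*} [Field F] [Fintype F] (hodd : Odd (Fintype.card F)) (hq : 5 ≤ Fintype.card F)
    (u : Matrix.SpecialLinearGroup (Fin 2) F) (hu : (u : Matrix (Fin 2) (Fin 2) F) = !![1, 1; 0, 1]) :
    (∀ χ : Matrix.SpecialLinearGroup (Fin 2) F → ℂ, Cfsg.IsIrrCharacter (Matrix.SpecialLinearGroup (Fin 2) F) χ → χ 1 = (((Fintype.card F + 1) / 2 : ℕ) : ℂ) → (2 * χ u - 1) ^ 2 = (-1 : ℂ) ^ ((Fintype.card F - 1) / 2) * (Fintype.card F : ℂ)) ∧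
    (∀ χ : Matrix.SpecialLinearGroup (Fin 2) F → ℂ, Cfsg.IsIrrCharacter (Matrix.SpecialLinearGroup (Fin 2) F) χ → χ 1 = (((Fintype.card F - 1) / 2 : ℕ) : ℂ) → (2 * χ u + 1) ^ 2 = (-1 : ℂ) ^ ((Fintype.card F - 1) / 2) * (Fintype.card F : ℂ)) ∧
    (∀ χ₁ χ₂ : Matrix.SpecialLinearGroup (Fin 2) F → ℂ, Cfsg.IsIrrCharacter (Matrix.SpecialLinearGroup (Fin 2) F) χ₁ → Cfsg.IsIrrCharacter (Matrix.SpecialLinearGroup (Fin 2) F) χ₂ → χ₁ ≠ χ₂ →
      χ₁ 1 = (((Fintype.card F + 1) / 2 : ℕ) : ℂ) → χ₂ 1 = (((Fintype.card F + 1) / 2 : ℕ) : ℂ) → χ₁ u + χ₂ u = 1) ∧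
    (∀ χ₁ χ₂ : Matrix.SpecialLinearGroup (Fin 2) F → ℂ, Cfsg.IsIrrCharacter (Matrix.SpecialLinearGroup (Fin 2) F) χ₁ → Cfsg.IsIrrCharacter (Matrix.SpecialLinearGroup (Fin 2) F) χ₂ → χ₁ ≠ χ₂ →
      χ₁ 1 = (((Fintype.card F - 1) / 2 : ℕ) : ℂ) → χ₂ 1 = (((Fintype.card F - 1) / 2 : ℕ) : ℂ) → χ₁ u + χ₂ u = -1) := by
  classical
  obtain ⟨E, _, _, _, ⟨Q⟩⟩ := H1.exists_quadEmb F
  have h2 := H2.two_ne_zero_of_odd hodd
  have : u = H2.uSL 1 := Subtype.ext hu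
  subst this
  rw [H1.cast_half_add hodd, H1.cast_half_sub hodd, ← H1.eta_neg_one h2]
  refine ⟨fun χ hχ hd => ?_, fun χ hχ hd => ?_, fun χ₁ χ₂ h₁ h₂ hne e₁ e₂ => ?_,
    fun χ₁ χ₂ h₁ h₂ hne e₁ e₂ => ?_⟩
  · obtain ⟨s, hs, h⟩ := (H1.irr_SL2_deg_half_add Q (by omega) hχ hd).ps_unip h2
    rw [h 1 one_ne_zero, ← hs, map_one]; ring
  · obtain ⟨θ, -, -, h⟩ := H1.irr_SL2_deg_half_sub Q (by omega) hχ hd
    obtain ⟨s, hs, h⟩ := h.cusp_unip Q h2
    rw [h 1 one_ne_zero, ← hs, map_one]; ring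
  · have := (H1.irr_SL2_deg_half_add Q (by omega) h₁ e₁).add_eq
      (H1.irr_SL2_deg_half_add Q (by omega) h₂ e₂) hne
    rw [← H1.ps_uSL (H1.eta F) 1 (one_ne_zero (α := F))]
    exact congrFun this _
  · obtain ⟨θ, a1, a2, a⟩ := H1.irr_SL2_deg_half_sub Q (by omega) h₁ e₁
    obtain ⟨θ', b1, b2, b⟩ := H1.irr_SL2_deg_half_sub Q (by omega) h₂ e₂
    have := a.add_eq (b.of_resSL_eq (H1.resSL_cusp_eq_of_order_two Q b1 b2 a1 a2)) hne
    rw [← H1.cusp_uSL Q θ (one_ne_zero (α := F))]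
    exact congrFun this _

end Cfsg.Agent.S2324
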