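import Cfsg.Statements.S2329
import Cfsg.Agent.H2.SL2Conj

set_option autoImplicit false
open Cfsg

namespace Cfsg.Agent.S2329

/-- Over a finite field of characteristic p, any two elements of order p of GL₂ are conjugate: there is a single conjugacy class of non-identity unipotent elements. -/
theorem result {F : Type*} [Field F] [Fintype F] (p : ℕ) [Fact p.Prime] [CharP F p] (g h : Matrix.GeneralLinearGroup (Fin 2) F)
    (hg : orderOf g = p) (hh : orderOf h = p) : IsConj g h := by
  have key : ∀ g : Matrix.GeneralLinearGroup (Fin 2) F, orderOf g = p →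
      ¬ H2.IsScal (g : Matrix (Fin 2) (Fin 2) F) ∧ (g : Matrix (Fin 2) (Fin 2) F).trace = 2 ∧
        (g : Matrix (Fin 2) (Fin 2) F).det = 1 := by
    intro g hg
    have h1 : (g : Matrix (Fin 2) (Fin 2) F) ^ p = 1 := by
      rw [← Units.val_pow_eq_pow_val, ← hg, pow_orderOf_eq_one]; rfl
    have h2 : (g : Matrix (Fin 2) (Fin 2) F) ≠ 1 := by
      intro h
      have : g = 1 := Units.ext h
      rw [this, orderOf_one] at hg
      exact (Fact.out : p.Prime).one_lt.ne hg
    exact ⟨H2.not_isScal_of_orderOf_char p h1 h2, H2.trace_det_of_pow_char p h1⟩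
  obtain ⟨a1, a2, a3⟩ := key g hg
  obtain ⟨b1, b2, b3⟩ := key h hh
  exact H2.isConj_GL_of a1 b1 (a2.trans b2.symm) (a3.trans b3.symm)

end Cfsg.Agent.S2329
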