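import Cfsg.Statements.S2362
import Cfsg.Agent.H5.OrthD

set_option autoImplicit false
open Cfsg

namespace Cfsg.Agent.S2362

open Cfsg.Agent.H5 Function Module

theorem aux {F : Type*} [Field F] [Fintype F] (ho : Odd (Fintype.card F)) (p : ℕ) [Fact p.Prime] [CharP F p]
    (hp : p ∣ Fintype.card F) {V : Type*} [AddCommGroup V] [Module F V] [FiniteDimensional F V] {B : Bil F V}
    (hB : IsEps B 1) {k : ℕ} (hk : 2 ≤ k) (hd : finrank F V = 2 * k + 3) {g : Isom B}
    (hg : g ∈ commutator (Isom B)) : orderOf g ≠ p * (Fintype.card F ^ k + 1) := fun hord => by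
  classical
  obtain ⟨K, _, _, _⟩ := exists_algClosed F
  have h2 := two_ne_zero_of_odd ho
  have hp1 := (Fact.out : p.Prime).one_lt
  obtain ⟨N, D, E, h1, h3, h4, h5, h6, h7, h8⟩ := exists_struct K p h2 hB g
  have h9 := card_evE K (g.1 : End F V)
  simp only [h1, hd, Multiset.card_add, Multiset.card_replicate] at h9
  obtain ⟨n1, n2, n3⟩ := prod_eq_one_of K h4 h5 h6 h7
  have n4 := even_of_mem_comm h2 hg h1 n1
  have hφ := phi_injective (K := K) F
  have hq := Fintype.one_lt_card (α := F)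
  have hqk := Nat.one_lt_pow (n := k) (by omega) hq
  have big : ∀ j, j ≠ 0 → (∀ x ∈ N, x ^ j = 1) → (E ≠ 0 → 2 ∣ j) → Fintype.card F ^ k + 1 ≤ j := fun j a1 a2 a3 => by
    have b1 := Nat.lt_pow_self (n := 2 * k + 3) hp1
    have := orderOf_dvd_of_pow_eq_one (h8 (2 * k + 3) j a1 a2
      (fun x => by have := Multiset.count_le_card x N; omega) (by omega) (by omega) a3)
    rw [hord] at this
    exact Nat.le_of_dvd (Nat.pos_of_ne_zero a1) ((Nat.Coprime.pow_right _ (Nat.Coprime.coprime_dvd_right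
      (hp.trans (dvd_pow_self _ (by omega : k ≠ 0))) (by simp))).dvd_of_dvd_mul_left (Dvd.dvd.trans (Dvd.intro_left _ rfl) this))
  by_cases hN : N = 0
  · have := big 2 two_ne_zero (by simp [hN]) fun _ => dvd_rfl
    omega
  obtain ⟨L, d, a1, a2, a3, a4, a5, a6, a7⟩ := odd_exponent hq ho hφ N h3 h4 h5 n2 hN
  have small : (∀ x, N.count x ≤ 1) → D ≤ 2 → E ≤ 2 → False := fun b1 b2 b3 => by
    have := orderOf_dvd_of_pow_eq_one (h8 0 L a3.ne' a6 b1 b2 b3 fun _ => a4)
    rw [hord, pow_zero, one_mul] at this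
    exact hp1.ne' (Nat.eq_one_of_dvd_coprimes a5 (Dvd.dvd.trans (Dvd.intro _ rfl) this) hp)
  have b1 := big L a3.ne' a6 fun _ => a4
  have b2 := Multiset.card_le_card (Multiset.dedup_le N)
  have b3 : k ≤ d := (Nat.pow_le_pow_iff_right hq).1 (by omega)
  rw [Nat.even_iff] at n3 n4
  obtain rfl | rfl : k = d ∨ d = k + 1 := by omega
  swap
  · exact small (fun x => by have := dedup_card_add_le h4 n2 x; omega) (by omega) (by omega)
  obtain ⟨rfl, x, c1, c2⟩ := a7.resolve_left (by omega)
  have c3 := single_orbit hφ h3 h4 c2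
  have c4 := congrArg Multiset.card c3
  have c5 : x ∈ N := Multiset.mem_dedup.1 (c2 ▸ self_mem_sorb _ _ a1)
  rw [Multiset.card_nsmul, card_sorb] at c4
  have c6 : N.count x = 1 := by
    have := Multiset.count_pos.2 c5
    by_contra h
    have := Nat.mul_le_mul_right (2 * k) (show 2 ≤ N.count x by omega)
    omega
  rw [c6, one_nsmul] at c3
  rw [c6] at c4
  by_cases hE : E ≠ 0
  · exact small (fun y => by have := dedup_card_add_le h4 n2 y; omega) (by omega) (by omega)
  obtain rfl := not_not.1 hE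
  obtain ⟨a, η, e1, rfl, e2⟩ := exists_sqrt_eta (fun h => h5 (h ▸ c5)) (Fintype.card F ^ k)
  obtain ⟨e3, e4⟩ := e2 (Or.inr c1)
  have e5 := (e4.resolve_left fun h => n2 _ c5 (c1.symm.trans h.1)).2
  rw [← th_sorb hB h2 (by omega) g (D := D) (by rw [h1, ← c3]; simp) e1 (fun h => h7 (h ▸ c5)) e3 (Or.inr e5),
    ((mem_comm_iff hB h2 (by omega) g).1 hg).2, Int.cast_one, one_mul] at e5
  obtain ⟨j, hj⟩ := a4
  have := big j (by omega) (fun y hy => pow_eq_one_of_mem_sorb (by
    rw [← pow_mul, ← hj, pow_succ, e5, inv_mul_cancel₀ e1]) (c3 ▸ hy)) (by simp)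
  omega


/-- Let F be a finite field of odd order and n ≥ 3. The simple orthogonal group PΩ(2n+1, F) (type B_n) and the projective symplectic group PSp(2n, F) (type C_n), which have the same order, do not have the same set of element orders. -/
theorem result {F : Type*} [Field F] [Fintype F] (hodd : Odd (Fintype.card F)) (n : ℕ) (hn : 3 ≤ n) :
    Set.range (orderOf : Cfsg.POmega F (Cfsg.quadFormOdd n F) → ℕ) ≠ Set.range (orderOf : Cfsg.PSp n F → ℕ) := by
  classical
  obtain ⟨K, _, _, _⟩ := exists_algClosed F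
  obtain ⟨p, _, _, hp, -⟩ := char_data F
  have : CharP K p := charP_ext K p F
  obtain ⟨k, rfl⟩ : ∃ k, n = k + 1 := ⟨n - 1, by omega⟩
  have h2 := two_ne_zero_of_odd hodd
  have hc : p.Coprime (Fintype.card F ^ k + 1) :=
    Nat.Coprime.coprime_dvd_left (hp.trans (dvd_pow_self _ (by omega : k ≠ 0))) (by simp)
  obtain ⟨l, hl⟩ := exists_prim_root K p ((Nat.Prime.coprime_iff_not_dvd Fact.out).1 hc)
  have hl0 := hl.ne_zero (Nat.succ_ne_zero _)
  intro h
  obtain ⟨g, hg, h3⟩ := (range_orderOf_pOmega h2 (n := k + 1) (by omega) _).1 (h.ge <| psp_exists K p (F := F) (n := k + 1)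
    (M := sorb (Fintype.card F) l k + Multiset.replicate 2 1) (k := p * (Fintype.card F ^ k + 1))
    (by
      rw [Multiset.map_add, show (sorb (Fintype.card F) l k).map (· ^ Fintype.card F) = _ from
        sorb_stable (Or.inr (eq_inv_of_mul_eq_one_left (by rw [← pow_succ, hl.pow_eq_one])))]
      simp)
    (by simp [sorb_inv]) (by simp [sorb_prod _ hl0]) (by simp [mul_add]) fun i h1 h4 =>
      hc.mul_dvd_of_dvd_of_dvd (by simpa using h4 1 0 (by rw [Multiset.count_add, Multiset.count_replicate_self, pow_zero]; omega)) (by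
        rw [← hl.pow_eq_one_iff_dvd, h1 l (Multiset.mem_add.2 (Or.inl (self_mem_sorb _ _ (by omega)))) 1
          (by simp), one_pow]))
  exact aux hodd p hp (isEps_pb (H6.qOdd_nondeg _ F h2)) (by omega) (by simp; omega) hg h3

end Cfsg.Agent.S2362
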