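import Cfsg.Statements.S2364
import Cfsg.Agent.H4.LSpec2

set_option autoImplicit false
open Cfsg

namespace Cfsg.Agent.S2364

open Cfsg.Agent.H5 Cfsg.Agent.H4 Function

/-- Let F be a finite field of characteristic p, n ≥ 4, and let a, b be commuting elements of PSL(n, F) with a of order p. Then every prime divisor of the order of b divides the order of SL(n − 2, F). -/
theorem result {F : Type*} [Field F] [Fintype F] (p : ℕ) [Fact p.Prime] [CharP F p] (n : ℕ) (hn : 4 ≤ n)
    (a b : Matrix.ProjectiveSpecialLinearGroup (Fin n) F) (ha : orderOf a = p) (hab : Commute a b) :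
    (orderOf b).primeFactors ⊆ (Nat.card (Matrix.SpecialLinearGroup (Fin (n - 2)) F)).primeFactors := by
  classical
  intro r hr
  obtain ⟨hr, hrb, -⟩ := Nat.mem_primeFactors.1 hr
  refine Nat.mem_primeFactors.2 ⟨hr, ?_, Nat.card_pos.ne'⟩
  obtain ⟨K, _, _, _⟩ := exists_algClosed F
  have hp : p.Prime := Fact.out
  have : CharP K p := charP_ext K p F
  have hq0 : 0 < Fintype.card F := Fintype.card_pos
  by_cases hrp : r = p
  · subst hrp
    obtain ⟨g, hg⟩ := psl_exists (F := F) (ι := Fin (n - 2)) K r (M := Multiset.replicate (n - 2) 1)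
      (by simp [tauL_one]) (by simp) (by simp) (k := r) fun i hi => by
        simpa using hi.2 1 0 (by simp; omega)
    exact (hg ▸ orderOf_dvd_natCard g).trans (card_PSL_dvd_card_SL _)
  have hb' : orderOf (b ^ (orderOf b / r)) = r := orderOf_pow_orderOf_div (orderOf_pos b).ne' hrb
  have hcop : Nat.Coprime p r := (Nat.coprime_primes hp hr).2 (Ne.symm hrp)
  have hg : orderOf (a * b ^ (orderOf b / r)) = p * r := by
    rw [(hab.pow_right _).orderOf_mul_eq_mul_orderOf_of_coprime (by rwa [ha, hb']), ha, hb']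
  have h2 := orderOf_add_two_le p hr hrp _ (hg ▸ dvd_mul_left _ _) (hg ▸ dvd_mul_right _ _)
  set k := orderOf ((Fintype.card F : ℕ) : ZMod r) with hk
  have hk0 : 0 < k := orderOf_cast_pos hr (not_dvd_card_of_ne p hr hrp)
  have hr' : ∀ m, r ∣ Fintype.card F ^ m - 1 ↔ k ∣ m := fun m => by
    rw [hk, orderOf_cast_dvd_iff hq0]
  have hpr : ¬ p ∣ r := fun h => hrp ((Nat.prime_dvd_prime_iff_eq hp hr).1 h).symm
  obtain ⟨ζ, hζ⟩ := exists_prim_root K p hpr
  suffices h : ∃ M : Multiset K, M.map (tauL (Fintype.card F)) = M ∧ M.prod = 1 ∧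
      M.card = Fintype.card (Fin (n - 2)) ∧ ζ ∈ M by
    obtain ⟨M, h1, h2, h3, h4⟩ := h
    obtain ⟨g, rfl, -⟩ := exists_cyc_SL (F := F) (ι := Fin (n - 2)) K h1 h2 h3
    refine Dvd.dvd.trans ?_ (orderOf_dvd_natCard g)
    rw [← hζ.pow_eq_one_iff_dvd]
    have h5 : g.1 ^ orderOf g = (1 : F) • 1 := by
      rw [one_smul, ← Matrix.SpecialLinearGroup.coe_pow, pow_orderOf_eq_one]; rfl
    rw [pow_eq_of_pow_eq_smul K h5 h4, map_one]
  rcases Nat.lt_or_ge 1 k with h2k | h2k
  · have hcr : Nat.Coprime r (Fintype.card F - 1) := hr.coprime_iff_not_dvd.2 fun h => by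
      have := Nat.dvd_one.1 ((hr' 1).1 (by simpa using h)); omega
    obtain ⟨a1, a2, -⟩ := orb_prim hq0 hζ hr.ne_zero hcr ((hr' k).2 dvd_rfl) h2k
    exact ⟨orb (tauL (Fintype.card F)) ζ k + Multiset.replicate (n - 2 - k) 1,
      by simp [a1, tauL_one], by simp [a2], by simp; omega,
      Multiset.mem_add.2 (Or.inl (self_mem_orb _ hk0))⟩
  · have hrq : r ∣ Fintype.card F - 1 := by simpa using (hr' 1).2 (by simp; omega)
    have ha0 := hζ.ne_zero hr.ne_zero
    have ha1 := (tauL_eq_iff hq0 ha0).2 ((hζ.pow_eq_one_iff_dvd _).2 hrq)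
    exact ⟨{ζ, ζ⁻¹} + Multiset.replicate (n - 2 - 2) 1, by simp [ha1, tauL_one, tauL_inv],
      by simp [ha0], by simp; omega, by simp⟩

end Cfsg.Agent.S2364
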