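import Cfsg.Statements.S2365
import Cfsg.Agent.H5.Eta

set_option autoImplicit false
open Cfsg

namespace Cfsg.Agent.S2365

open Cfsg.Agent.H5 Function


/-- Let q be a power of the prime p, F the field with q² elements, m ≥ 4, and let a, b be commuting elements of PSU(m, q) with a of order p. Then every prime divisor of the order of b divides the order of SU(m − 2, q). -/
theorem result {F : Type*} [Field F] [Fintype F] (p : ℕ) [Fact p.Prime] [CharP F p] (m q : ℕ) (hm : 4 ≤ m) (hF : Fintype.card F = q ^ 2)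
    (a b : Cfsg.PSU m F q) (ha : orderOf a = p) (hab : Commute a b) :
    (orderOf b).primeFactors ⊆ (Nat.card ↥(Cfsg.SU (m - 2) F q)).primeFactors := by
  classical
  have h := uf_frob hF
  obtain ⟨K, _, _, _⟩ := exists_algClosed F
  have : CharP K p := charP_ext K p F
  have hp : p.Prime := Fact.out
  have hτ := h.tauU_injective K
  obtain ⟨k, hk⟩ : ∃ k, m - 2 = k + 1 := ⟨m - 3, by omega⟩
  intro r hr
  have hrp := Nat.prime_of_mem_primeFactors hr
  refine Nat.mem_primeFactors.2 ⟨hrp, ?_, Nat.card_pos.ne'⟩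
  rw [hk, h.card_SU]
  have hterm : ∀ i < k, q ^ (i + 1) * uq q (i + 2) ∣
      ∏ i ∈ Finset.range k, q ^ (i + 1) * uq q (i + 2) := fun i hi =>
    Finset.dvd_prod_of_mem _ (Finset.mem_range.2 hi)
  by_cases hrp' : r = p
  · exact hrp' ▸ (((h.char_dvd p).trans (dvd_pow_self _ (by omega))).mul_right _).trans (hterm 0 (by omega))
  have hco : p.Coprime r := (Nat.coprime_primes hp hrp).2 (Ne.symm hrp')
  suffices ∃ e, 0 < e ∧ e ≤ m - 2 ∧ r ∣ uq q e by
    obtain ⟨e, he0, he, hre⟩ := this
    rcases Nat.lt_or_ge 1 e with h1 | h1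
    · obtain ⟨i, rfl⟩ : ∃ i, e = i + 2 := ⟨e - 2, by omega⟩
      exact (hre.mul_left _).trans (hterm i (by omega))
    · obtain rfl : e = 1 := by omega
      refine ((hre.trans ?_).mul_left _).trans (hterm 0 (by omega))
      simp only [uq, Nat.not_even_one, if_false, pow_one, zero_add, even_two, if_true]
      exact ⟨q - 1, Nat.sq_sub_sq q 1⟩
  have hb := orderOf_pow_orderOf_div (orderOf_pos b).ne' (Nat.dvd_of_mem_primeFactors hr)
  have hg := (hab.pow_right (orderOf b / r)).orderOf_mul_eq_mul_orderOf_of_coprime (by rwa [ha, hb])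
  rw [ha, hb] at hg
  obtain ⟨M, hM, hM1, hMc, hMd, hMe⟩ := h.psu_ev K p (a * b ^ (orderOf b / r))
  rw [hg] at hMd hMe
  have h0 : ∀ x ∈ M, x ≠ 0 := fun x hx h0 => by
    rw [h0] at hx; simp [Multiset.prod_eq_zero hx] at hM1
  have hMr : ∀ x ∈ M, ∀ y ∈ M, x ^ r = y ^ r := fun x hx y hy =>
    pow_injective_of_char p 1 (by simpa [← pow_mul, mul_comm r] using hMe x hx y hy)
  have key : ∀ x ∈ M, ∀ y ∈ M, x ≠ y → ∀ e, (tauU q)^[e] x = x → (tauU q)^[e] y = y → r ∣ uq q e := by
    intro x hx y hy hxy e h1 h2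
    have hz : IsPrimitiveRoot (x / y) r := isPrimitiveRoot_of_prime hrp
      (by rw [div_pow, hMr x hx y hy, div_self (pow_ne_zero _ (h0 y hy))])
      (fun h => hxy ((div_eq_one_iff_eq (h0 y hy)).1 h))
    rw [tauU_iterate_eq_iff h.pos (h0 _ ‹_›)] at h1 h2
    rw [← hz.pow_eq_one_iff_dvd, div_pow, h1, h2, div_one]
  obtain ⟨x, hx⟩ : ∃ x, 2 ≤ M.count x := by
    by_contra hh
    push Not at hh
    have := hMd r (div_of_nodup hp.pos (Multiset.nodup_iff_count_le_one.2 fun x => by
      have := hh x; omega) hMr)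
    have := Nat.le_of_dvd hrp.pos this
    have := hp.two_le
    have := hrp.pos
    nlinarith
  have hxM : x ∈ M := Multiset.count_pos.1 (by omega)
  have hper := periodic_of_stable hτ hM hxM
  have he0 := minimalPeriod_pos_of_mem_periodicPts hper
  by_cases hfix : tauU q x = x
  · obtain ⟨y, hy, hxy⟩ : ∃ y ∈ M, x ≠ y := by
      by_contra hh
      push Not at hh
      have := (Dvd.intro_left _ rfl).trans
        (hMd _ (div_clog hp.one_lt (j := 1) fun y hy z hz => by rw [← hh y hy, ← hh z hz]))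
      rw [one_mul] at this
      exact hrp.one_lt.ne' (Nat.Coprime.eq_one_of_dvd (hco.symm.pow_right _) this)
    have h1 := count_mul_period_add_le hτ hM hxM (y := y) fun k => by
      rw [iterate_fixed hfix]; exact hxy
    have h2 : minimalPeriod (tauU q) y ≤ M.count y * minimalPeriod (tauU q) y :=
      Nat.le_mul_of_pos_left _ (Multiset.count_pos.2 hy)
    have h3 : M.count x ≤ M.count x * minimalPeriod (tauU q) x := Nat.le_mul_of_pos_right _ he0
    exact ⟨minimalPeriod (tauU q) y, minimalPeriod_pos_of_mem_periodicPts (periodic_of_stable hτ hM hy),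
      by omega, key x hxM y hy hxy _ (iterate_fixed hfix _) iterate_minimalPeriod⟩
  · have h1 := count_mul_period_le hτ hM x
    have h2 : 2 * minimalPeriod (tauU q) x ≤ M.count x * minimalPeriod (tauU q) x :=
      Nat.mul_le_mul_right _ hx
    refine ⟨minimalPeriod (tauU q) x, he0, by omega, key x hxM (tauU q x) (mem_of_stable hM hxM)
      (Ne.symm hfix) _ iterate_minimalPeriod ?_⟩
    rw [← iterate_succ_apply, iterate_succ_apply', iterate_minimalPeriod]

end Cfsg.Agent.S2365
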