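import Cfsg.Statements.S2366
import Cfsg.Agent.H5.Orbits

set_option autoImplicit false
open Cfsg

namespace Cfsg.Agent.S2366

open Cfsg.Agent.H5 Function

theorem pow_eq_of_mem_orb {K : Type*} [Field K] {q j d : ℕ} {x y : K} (hx : x ≠ 0)
    (h : x ^ ((q + 1) * j) = 1) (hy : y ∈ orb (tauU q) x d) : y ^ j = x ^ j := by
  obtain ⟨k, -, rfl⟩ := mem_orb.1 hy
  clear hy
  induction k with
  | zero => rfl
  | succ k ih =>
    rw [iterate_succ_apply', ← tauU_pow, ih, tauU_eq_iff
      (pow_ne_zero _ hx), ← pow_mul, mul_comm, h]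

theorem dvd_aux {N a i : ℕ} (h1 : N ∣ 3 * i) (h2 : N ∣ a * i) (h : Nat.gcd 3 a ∣ N) :
    N / Nat.gcd 3 a ∣ i := by
  rw [Nat.div_dvd_iff_dvd_mul h (Nat.gcd_pos_of_pos_left _ (by norm_num)), ← Nat.gcd_mul_right]
  exact Nat.dvd_gcd h1 h2


/-- The set of element orders of PSU(3, q) for an odd prime power q = p^n: writing d = gcd(3, q + 1), a positive integer is the order of some element exactly when it divides one of q + 1, p(q + 1)/d, (q² − 1)/d, (q² − q + 1)/d. -/
theorem result {F : Type*} [Field F] [Fintype F] (p : ℕ) [Fact p.Prime] [CharP F p] (hp : p ≠ 2) (q : ℕ) (hF : Fintype.card F = q ^ 2) :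
    Set.range (orderOf : Cfsg.PSU 3 F q → ℕ) =
      {s : ℕ | s ∣ q + 1} ∪ {s : ℕ | s ∣ p * (q + 1) / Nat.gcd 3 (q + 1)} ∪
        {s : ℕ | s ∣ (q ^ 2 - 1) / Nat.gcd 3 (q + 1)} ∪ {s : ℕ | s ∣ (q ^ 2 - q + 1) / Nat.gcd 3 (q + 1)} := by
  classical
  have h := uf_frob hF
  obtain ⟨K, _, _, _⟩ : ∃ (K : Type _) (_ : Field K) (_ : Algebra F K), IsAlgClosed K :=
    ⟨AlgebraicClosure F, _, inferInstance, inferInstance⟩
  have : CharP K p := charP_ext K p F
  have hpp : p.Prime := Fact.out
  have hp3 : 3 ≤ p := by have := hpp.two_le; omega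
  have hpq := h.char_dvd p
  obtain ⟨r, hq⟩ : ∃ r, q = r + 2 := ⟨q - 2, by have := h.two_le; omega⟩
  set d := Nat.gcd 3 (q + 1) with hd
  have hd3 : d ∣ 3 := Nat.gcd_dvd_left _ _
  have hdq : d ∣ q + 1 := Nat.gcd_dvd_right _ _
  have hdr : d ∣ r := (Nat.dvd_add_left hd3).1 (by rw [hq] at hdq; exact hdq)
  have e1 : q ^ 2 - 1 = (q + 1) * (r + 1) := by
    rw [show q ^ 2 = (q + 1) * (r + 1) + 1 by rw [hq]; ring, Nat.add_sub_cancel]
  have e2 : q ^ 2 - q + 1 = (q + 1) * r + 3 := by
    rw [show q ^ 2 = ((q + 1) * r + 2) + q by rw [hq]; ring, Nat.add_sub_cancel]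
  have hd1 : d ∣ q ^ 2 - 1 := e1 ▸ hdq.mul_right _
  have hd2 : d ∣ q ^ 2 - q + 1 := e2 ▸ dvd_add (hdq.mul_right _) hd3
  have u2 : uq q 2 = q ^ 2 - 1 := by simp [uq]
  have u3 : uq q 3 = (q + 1) * (q ^ 2 - q + 1) := by
    rw [e2]; simp [uq, show ¬ Even 3 by decide]; rw [hq]; ring
  have hτ := h.tauU_injective K
  have hp1 : ¬ p ∣ q + 1 := fun h' => hpp.one_lt.ne' (Nat.dvd_one.1 ((Nat.dvd_add_right hpq).1 h'))
  apply Set.Subset.antisymm
  · rintro _ ⟨g, rfl⟩
    obtain ⟨g, rfl⟩ := QuotientGroup.mk_surjective g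
    have hs : (ev K g.1.1).map (tauU q) = ev K g.1.1 := h.ev_su_stable K g
    have hc : (ev K g.1.1).card = 3 := by rw [card_ev]; simp
    have hpr := ev_su_prod K g
    have h0 : ∀ x ∈ ev K g.1.1, x ≠ 0 := fun x hx h0 => by
      rw [h0] at hx; simp [Multiset.prod_eq_zero hx] at hpr
    by_cases hfix : ∀ x ∈ ev K g.1.1, tauU q x = x
    · have hfix' : ∀ x ∈ ev K g.1.1, x ^ (q + 1) = 1 := fun x hx =>
        (tauU_eq_iff (h0 x hx)).1 (hfix x hx)
      by_cases hcnt : ∀ x, (ev K g.1.1).count x ≤ 1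
      · refine Or.inl (Or.inl (Or.inl ?_))
        have := h.psu_dvd K p g (a := 0) (j := q + 1)
          (fun x hx y hy => by rw [hfix' x hx, hfix' y hy]) (by simpa using hcnt)
        simpa using this
      · refine Or.inl (Or.inl (Or.inr ?_))
        push Not at hcnt
        obtain ⟨x, hx⟩ := hcnt
        have hle : Multiset.replicate 2 x ≤ ev K g.1.1 := Multiset.le_count_iff_replicate_le.1 hx
        obtain ⟨N, hN⟩ := Multiset.le_iff_exists_add.1 hle
        have hN1 : N.card = 1 := by have := congrArg Multiset.card hN; simp at this; omega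
        obtain ⟨z, rfl⟩ := Multiset.card_eq_one.1 hN1
        have hxm : x ∈ ev K g.1.1 := by rw [hN]; simp
        have hz : x * x * z = 1 := by rw [hN] at hpr; simpa [Multiset.replicate, mul_assoc] using hpr
        have hxz : z ^ ((q + 1) / d) = x ^ ((q + 1) / d) := by
          have h3 : (x ^ 3) ^ ((q + 1) / d) = 1 := by
            obtain ⟨c, hc⟩ := hd3
            rw [← pow_mul, hc, mul_right_comm, Nat.mul_div_cancel' hdq, pow_mul, hfix' x hxm, one_pow]
          have h4 : x = x ^ 3 * z := by linear_combination (-x) * hz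
          conv_rhs => rw [h4, mul_pow, h3, one_mul]
        have key : ∀ y ∈ ev K g.1.1, y ^ ((q + 1) / d) = x ^ ((q + 1) / d) := by
          intro y hy
          rw [hN] at hy
          simp at hy
          rcases hy with rfl | rfl
          · rfl
          · exact hxz
        have := h.psu_dvd K p g (a := 1) (j := (q + 1) / d)
          (fun x hx y hy => by rw [key x hx, key y hy])
          (fun y => ((Multiset.count_le_card _ _).trans_eq hc).trans (by simpa using hp3))
        rwa [pow_one, ← Nat.mul_div_assoc _ hdq] at this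
    · push Not at hfix
      obtain ⟨x, hx, hx'⟩ := hfix
      obtain ⟨N, hN, hN', hN''⟩ := exists_split hτ hs x
      have hper := periodic_of_stable hτ hs hx
      have hm0 := minimalPeriod_pos_of_mem_periodicPts hper
      have hm1 : minimalPeriod (tauU q) x ≠ 1 := fun h => hx' (minimalPeriod_eq_one_iff_isFixedPt.1 h)
      have hc0 := Multiset.count_pos.2 hx
      have hcard := congrArg Multiset.card hN
      simp only [Multiset.card_add, Multiset.card_nsmul, card_orb, hc] at hcard
      have hc1 : (ev K g.1.1).count x = 1 := by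
        by_contra hh
        have : 2 * 2 ≤ (ev K g.1.1).count x * minimalPeriod (tauU q) x :=
          Nat.mul_le_mul (by omega) (by omega)
        omega
      rw [hc1, one_smul] at hN
      rw [hc1, one_mul] at hcard
      have hnd := nodup_orb (τ := tauU q) x
      have hit : (tauU q)^[minimalPeriod (tauU q) x] x = x := iterate_minimalPeriod
      rw [tauU_iterate_eq_iff h.pos (h0 x hx)] at hit
      have : minimalPeriod (tauU q) x = 2 ∨ minimalPeriod (tauU q) x = 3 := by omega
      rcases this with hm | hm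
      · refine Or.inl (Or.inr ?_)
        rw [hm] at hN hcard hnd hit
        obtain ⟨z, rfl⟩ := Multiset.card_eq_one.1 (show N.card = 1 by omega)
        rw [u2] at hit
        have hz : x * (x ^ q)⁻¹ * z = 1 := by
          rw [hN] at hpr
          simpa [orb_succ, orb, tauU, mul_comm, mul_left_comm, mul_assoc] using hpr
        have hz' : z = x ^ r * x := by
          have hx0 := h0 x hx
          field_simp at hz
          apply mul_left_cancel₀ hx0
          rw [hz, hq]; ring
        have key : ∀ y ∈ ev K g.1.1, y ^ ((q ^ 2 - 1) / d) = x ^ ((q ^ 2 - 1) / d) := by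
          intro y hy
          rw [hN, Multiset.mem_add] at hy
          rcases hy with hy | hy
          · refine pow_eq_of_mem_orb (h0 x hx) ?_ hy
            obtain ⟨c, hc⟩ := hdq
            rw [hc, mul_right_comm, Nat.mul_div_cancel' hd1, pow_mul, hit, one_pow]
          · obtain ⟨c, hc⟩ := hdr
            rw [Multiset.mem_singleton.1 hy, hz', mul_pow, ← pow_mul, hc, mul_right_comm,
              Nat.mul_div_cancel' hd1, pow_mul, hit, one_pow, one_mul]
        have hnd' : (ev K g.1.1).Nodup := by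
          rw [hN, add_comm, Multiset.singleton_add, Multiset.nodup_cons]
          refine ⟨fun hz => ?_, hnd⟩
          obtain ⟨k, -, hk⟩ := mem_orb.1 hz
          exact hN'' hx k (by simp [hk])
        have := h.psu_dvd K p g (a := 0) (fun x hx y hy => by rw [key x hx, key y hy])
          (by simpa using Multiset.nodup_iff_count_le_one.1 hnd')
        simpa using this
      · refine Or.inr ?_
        rw [hm] at hN hcard hnd
        obtain rfl := Multiset.card_eq_zero.1 (show N.card = 0 by omega)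
        rw [add_zero] at hN
        rw [hN, prod_orb_tauU q (h0 x hx)] at hpr
        have hx3 : x ^ (q ^ 2 - q + 1) = 1 := by
          rw [← zpow_natCast, ← hpr, e2]
          congr 1
          simp [Finset.sum_range_succ, hq]; ring
        have key : ∀ y ∈ ev K g.1.1, y ^ ((q ^ 2 - q + 1) / d) = x ^ ((q ^ 2 - q + 1) / d) := by
          intro y hy
          rw [hN] at hy
          refine pow_eq_of_mem_orb (h0 x hx) ?_ hy
          obtain ⟨c, hc⟩ := hdq
          rw [hc, mul_right_comm, Nat.mul_div_cancel' hd2, pow_mul, hx3, one_pow]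
        have := h.psu_dvd K p g (a := 0) (fun x hx y hy => by rw [key x hx, key y hy])
          (by simpa [hN] using Multiset.nodup_iff_count_le_one.1 hnd)
        simpa using this
  · have hcl : ∀ k s, (∃ g : Cfsg.PSU 3 F q, orderOf g = k) → s ∣ k →
        s ∈ Set.range (orderOf : Cfsg.PSU 3 F q → ℕ) := by
      rintro _ s ⟨g, rfl⟩ hs
      exact exists_orderOf_eq_of_dvd g hs
    obtain ⟨ζ, hζ⟩ := exists_prim_root K p hp1
    have hζ0 : ζ ≠ 0 := hζ.ne_zero (by omega)
    have hζ1 : tauU q ζ = ζ := (tauU_eq_iff hζ0).2 hζ.pow_eq_one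
    have hinv : ∀ x : K, tauU q x⁻¹ = (tauU q x)⁻¹ := fun x => by simp [tauU]
    rintro s (((hs | hs) | hs) | hs) <;> refine hcl _ s ?_ hs
    · refine h.psu_exists K p (M := {ζ, ζ⁻¹, 1}) ?_ ?_ rfl ?_
      · simp [hζ1, hinv, show tauU q (1 : K) = 1 by simp [tauU]]
      · simp [hζ0]
      · intro i h1 _
        rw [← hζ.pow_eq_one_iff_dvd, h1 ζ (by simp) 1 (by simp), one_pow]
    · refine h.psu_exists K p (M := {ζ, ζ, (ζ ^ 2)⁻¹}) ?_ ?_ rfl ?_
      · simp [hζ1, hinv, tauU_pow]
      · simp; field_simp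
      · intro i h1 h2
        rw [Nat.mul_div_assoc _ hdq]
        apply Nat.Coprime.mul_dvd_of_dvd_of_dvd
        · exact ((Nat.Prime.coprime_iff_not_dvd hpp).2 hp1).coprime_dvd_right (Nat.div_dvd_of_dvd hdq)
        · simpa using h2 ζ 0 (by simp [Multiset.count_cons])
        · refine dvd_aux ?_ (dvd_mul_right _ _) hdq
          have := h1 ζ (by simp) (ζ ^ 2)⁻¹ (by simp)
          rw [← hζ.pow_eq_one_iff_dvd, show 3 * i = i + 2 * i by ring, pow_add, this, pow_mul, inv_pow,
            inv_mul_cancel₀ (by positivity)]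
    · have hp2 : ¬ p ∣ q ^ 2 - 1 := fun h' => hpp.one_lt.ne' (Nat.dvd_one.1 (by
        have := Nat.dvd_sub (hpq.trans (dvd_pow_self q two_ne_zero)) h'
        rwa [Nat.sub_sub_self (Nat.one_le_pow _ _ h.pos)] at this))
      obtain ⟨x, hx⟩ := exists_prim_root K p hp2
      have hx0 : x ≠ 0 := hx.ne_zero (by rw [e1]; positivity)
      have hx2 : (tauU q)^[2] x = x := by rw [tauU_iterate_eq_iff h.pos hx0, u2, hx.pow_eq_one]
      refine h.psu_exists K p (M := orb (tauU q) x 2 + {x ^ (r + 1)}) ?_ ?_ (by simp) ?_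
      · rw [Multiset.map_add, orb_stable hx2, Multiset.map_singleton, (tauU_eq_iff (pow_ne_zero _ hx0)).2]
        rw [← pow_mul, mul_comm, ← e1, hx.pow_eq_one]
      · simp [orb_succ, orb, tauU]
        field_simp
        rw [hq]; ring
      · intro i h1 _
        have a1 := h1 x (by simp [orb_succ, orb]) (x ^ (r + 1)) (by simp)
        have a2 := h1 x (by simp [orb_succ, orb]) (tauU q x) (by simp [orb_succ, orb])
        rw [← tauU_pow, eq_comm, tauU_eq_iff (pow_ne_zero _ hx0), ← pow_mul, mul_comm,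
          hx.pow_eq_one_iff_dvd] at a2
        have a3 : q ^ 2 - 1 ∣ r * i := by
          rw [← hx.pow_eq_one_iff_dvd]
          apply mul_right_cancel₀ (pow_ne_zero i hx0)
          rw [one_mul, ← pow_add, a1, ← pow_mul]
          congr 1; ring
        refine dvd_aux ?_ a2 hd1
        rw [show (q + 1) * i = r * i + 3 * i by rw [hq]; ring] at a2
        exact (Nat.dvd_add_right a3).1 a2
    · have hp2 : ¬ p ∣ q ^ 2 - q + 1 := fun h' => hpp.one_lt.ne' (Nat.dvd_one.1 
        ((Nat.dvd_add_right (Nat.dvd_sub (hpq.trans (dvd_pow_self q two_ne_zero)) hpq)).1 h'))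
      obtain ⟨x, hx⟩ := exists_prim_root K p hp2
      have hx0 : x ≠ 0 := hx.ne_zero (by positivity)
      have hx2 : (tauU q)^[3] x = x := by
        rw [tauU_iterate_eq_iff h.pos hx0, u3, mul_comm, pow_mul, hx.pow_eq_one, one_pow]
      refine h.psu_exists K p (M := orb (tauU q) x 3) (orb_stable hx2) ?_ (by simp) ?_
      · rw [prod_orb_tauU q hx0, ← hx.pow_eq_one, ← zpow_natCast, e2]
        congr 1
        simp [Finset.sum_range_succ, hq]; ring
      · intro i h1 _
        have a2 := h1 x (by simp [orb_succ, orb]) (tauU q x) (by simp [orb_succ, orb])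
        rw [← tauU_pow, eq_comm, tauU_eq_iff (pow_ne_zero _ hx0), ← pow_mul, mul_comm,
          hx.pow_eq_one_iff_dvd] at a2
        refine dvd_aux ?_ a2 hd2
        have a3 : q ^ 2 - q + 1 ∣ (q + 1) * i * r + 3 * i := ⟨i, by rw [e2]; ring⟩
        exact (Nat.dvd_add_right (a2.mul_right r)).1 a3

end Cfsg.Agent.S2366
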