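import Cfsg.Statements.S2367
import Mathlib

set_option autoImplicit false
open Cfsg

namespace Cfsg.Agent.S2367

theorem spor (N k p : ℕ) (hp : p.Prime) (hodd : p ≠ 2) (h3 : N.factorization p = 3)
    (hN : N ≠ 0) (hd : N ∣ (Nat.factorial 71) ^ 2) (hk : 2 ^ k ∣ N)
    (h : ∀ q ∈ [3, 5, 7, 11, 13, 17, 19, 23, 29, 31, 37, 41, 43, 47, 53, 59, 61, 67, 71],
      q ^ 3 ∣ N → ¬ q ^ 4 ∣ N → q ^ 3 < 2 ^ k) : p ^ 3 < 2 ^ N.factorization 2 := by
  have h1 : p ^ 3 ∣ N := (hp.pow_dvd_iff_le_factorization hN).2 (by omega)
  have h2 : ¬ p ^ 4 ∣ N := by rw [hp.pow_dvd_iff_le_factorization hN]; omega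
  have h4 : p ∣ Nat.factorial 71 :=
    hp.dvd_of_dvd_pow (((dvd_pow_self p (by omega)).trans h1).trans hd)
  have h5 : p ≤ 71 := (hp.dvd_factorial).1 h4
  have h6 : p ∈ [3, 5, 7, 11, 13, 17, 19, 23, 29, 31, 37, 41, 43, 47, 53, 59, 61, 67, 71] := by
    interval_cases p <;> first | decide | (exfalso; omega) | (exfalso; revert hp; norm_num)
  have h7 : k ≤ N.factorization 2 := (Nat.prime_two.pow_dvd_iff_le_factorization hN).1 hk
  exact (h p h6 h1 h2).trans_le (Nat.pow_le_pow_right (by norm_num) h7)

theorem cube_lt (p : ℕ) (hp : 3 ≤ p) : p ^ 3 < 2 ^ (2 * p - 1) := by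
  induction p, hp using Nat.le_induction with
  | base => norm_num
  | succ m hm ih =>
    have : 2 * (m + 1) - 1 = (2 * m - 1) + 2 := by omega
    rw [this, pow_add]
    have h1 : (m + 1) ^ 3 ≤ 4 * m ^ 3 := by nlinarith [Nat.mul_le_mul hm hm, Nat.mul_le_mul hm (Nat.mul_le_mul hm hm), Nat.mul_le_mul hm (le_refl (m * m)), Nat.mul_le_mul (Nat.mul_le_mul hm hm) (le_refl m)]
    omega

theorem two_terms (n p : ℕ) (hp : p.Prime) :
    n / p + n / p ^ 2 ≤ (Nat.factorial n).factorization p := by
  rw [Nat.factorization_factorial hp (b := Nat.log p n + 3) (by omega)]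
  have : ({1, 2} : Finset ℕ) ⊆ Finset.Ico 1 (Nat.log p n + 3) := by
    intro x hx
    simp only [Finset.mem_insert, Finset.mem_singleton] at hx
    rw [Finset.mem_Ico]; omega
  have h := Finset.sum_le_sum_of_subset (f := fun i => n / p ^ i) this
  simpa using h

theorem alt (n p : ℕ) (hn : 5 ≤ n) (hp : p.Prime) (hodd : p ≠ 2)
    (h3 : (Nat.factorial n / 2).factorization p = 3) :
    p ^ 3 < 2 ^ (Nat.factorial n / 2).factorization 2 := by
  have h2 : 2 ∣ Nat.factorial n := Nat.dvd_factorial (by norm_num) (by omega)
  rw [Nat.factorization_div h2] at h3 ⊢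
  rw [Nat.prime_two.factorization] at h3 ⊢
  simp only [Finsupp.coe_tsub, Pi.sub_apply, Finsupp.single_eq_same] at h3 ⊢
  rw [Finsupp.single_eq_of_ne hodd, Nat.sub_zero] at h3
  have hp2 := hp.two_le
  have hp3 : 3 ≤ p := by omega
  have h3p : 3 * p ≤ n := by
    by_contra hlt
    push Not at hlt
    have hlog : Nat.log p n < 2 := by
      apply Nat.log_lt_of_lt_pow (by omega)
      nlinarith
    rw [Nat.factorization_factorial hp hlog] at h3
    simp at h3
    have : n / p < 3 := by rw [Nat.div_lt_iff_lt_mul (by omega)]; omega
    omega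
  have hp5 : 5 ≤ p := by
    by_contra hlt
    have : p = 3 := by
      have : p ≠ 4 := by rintro rfl; revert hp; norm_num
      omega
    subst this
    have := two_terms n 3 hp
    omega
  have := two_terms n 2 Nat.prime_two
  have hodd' := hp.eq_two_or_odd.resolve_left hodd
  exact (cube_lt p hp3).trans_le (Nat.pow_le_pow_right (by norm_num) (by omega))

/-- Let G be an alternating group of degree at least 5 or a simple group with the order of one of the 26 sporadic groups, and let p be an odd prime such that p³ is the exact power of p dividing the order of G. Then p³ is less than the 2-part of the order of G. -/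
theorem result {G : Type*} [Group G] [Finite G] (hG : Cfsg.IsAlternating G ∨ Cfsg.IsSporadic G)
    (p : ℕ) (hp : p.Prime) (hodd : p ≠ 2) (h3 : (Nat.card G).factorization p = 3) :
    p ^ 3 < 2 ^ (Nat.card G).factorization 2 := by
  rcases hG with ⟨n, hn, ⟨e⟩⟩ | hG
  · have : Nontrivial (Fin n) := Fin.nontrivial_iff_two_le.2 (by omega)
    have hc : Nat.card G = Nat.factorial n / 2 := by
      rw [Nat.card_congr e.toEquiv, nat_card_alternatingGroup]; simp
    rw [hc] at h3 ⊢
    exact alt n p hn hp hodd h3
  · rcases hG with h | h | h | h | h | h | h | h | h | h | h | h | h | h | h | h | h | h | h | h |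
      h | h | h | h | h | h <;> rw [h.2] at h3 ⊢
    · exact spor _ 4 p hp hodd h3 (by decide) (by decide +kernel) (by decide) (by decide +kernel)
    · exact spor _ 6 p hp hodd h3 (by decide) (by decide +kernel) (by decide) (by decide +kernel)
    · exact spor _ 7 p hp hodd h3 (by decide) (by decide +kernel) (by decide) (by decide +kernel)
    · exact spor _ 7 p hp hodd h3 (by decide) (by decide +kernel) (by decide) (by decide +kernel)
    · exact spor _ 10 p hp hodd h3 (by decide) (by decide +kernel) (by decide) (by decide +kernel)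
    · exact spor _ 3 p hp hodd h3 (by decide) (by decide +kernel) (by decide) (by decide +kernel)
    · exact spor _ 7 p hp hodd h3 (by decide) (by decide +kernel) (by decide) (by decide +kernel)
    · exact spor _ 7 p hp hodd h3 (by decide) (by decide +kernel) (by decide) (by decide +kernel)
    · exact spor _ 21 p hp hodd h3 (by decide) (by decide +kernel) (by decide) (by decide +kernel)
    · exact spor _ 21 p hp hodd h3 (by decide) (by decide +kernel) (by decide) (by decide +kernel)
    · exact spor _ 18 p hp hodd h3 (by decide) (by decide +kernel) (by decide) (by decide +kernel)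
    · exact spor _ 10 p hp hodd h3 (by decide) (by decide +kernel) (by decide) (by decide +kernel)
    · exact spor _ 17 p hp hodd h3 (by decide) (by decide +kernel) (by decide) (by decide +kernel)
    · exact spor _ 18 p hp hodd h3 (by decide) (by decide +kernel) (by decide) (by decide +kernel)
    · exact spor _ 21 p hp hodd h3 (by decide) (by decide +kernel) (by decide) (by decide +kernel)
    · exact spor _ 9 p hp hodd h3 (by decide) (by decide +kernel) (by decide) (by decide +kernel)
    · exact spor _ 7 p hp hodd h3 (by decide) (by decide +kernel) (by decide) (by decide +kernel)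
    · exact spor _ 10 p hp hodd h3 (by decide) (by decide +kernel) (by decide) (by decide +kernel)
    · exact spor _ 14 p hp hodd h3 (by decide) (by decide +kernel) (by decide) (by decide +kernel)
    · exact spor _ 13 p hp hodd h3 (by decide) (by decide +kernel) (by decide) (by decide +kernel)
    · exact spor _ 9 p hp hodd h3 (by decide) (by decide +kernel) (by decide) (by decide +kernel)
    · exact spor _ 14 p hp hodd h3 (by decide) (by decide +kernel) (by decide) (by decide +kernel)
    · exact spor _ 8 p hp hodd h3 (by decide) (by decide +kernel) (by decide) (by decide +kernel)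
    · exact spor _ 15 p hp hodd h3 (by decide) (by decide +kernel) (by decide) (by decide +kernel)
    · exact spor _ 41 p hp hodd h3 (by decide) (by decide +kernel) (by decide) (by decide +kernel)
    · exact spor _ 46 p hp hodd h3 (by decide) (by decide +kernel) (by decide) (by decide +kernel)

end Cfsg.Agent.S2367
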