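import Cfsg.Statements.S2368
import Cfsg.Agent.H4.SLConj

set_option autoImplicit false
open Cfsg

namespace Cfsg.Agent.S2368

/-- Let F be a finite field of characteristic p and m ≥ 1. Every element of GL(m, F) of p-power order has order less than p·m, and GL(m, F) has an element of p-power order at least m; so the largest order of a p-element of GL(m, F) is the least power of p that is at least m. -/
theorem result {F : Type*} [Field F] [Fintype F] (p : ℕ) [Fact p.Prime] [CharP F p] (m : ℕ) (hm : 1 ≤ m) :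
    (∀ g : Matrix.GeneralLinearGroup (Fin m) F, (∃ j : ℕ, orderOf g = p ^ j) → orderOf g < p * m) ∧
      ∃ g : Matrix.GeneralLinearGroup (Fin m) F, (∃ j : ℕ, orderOf g = p ^ j) ∧ m ≤ orderOf g := by
  have hp : 1 < p := (Fact.out : p.Prime).one_lt
  constructor
  · intro g hg
    have h1 := H4.GL_orderOf_dvd_clog p g ((H4.GL_isNilpotent_iff p g).2 hg)
    rw [Fintype.card_fin] at h1
    refine (Nat.le_of_dvd (pow_pos (by omega) _) h1).trans_lt ?_
    rcases eq_or_lt_of_le hm with rfl | hm'
    · simpa using hp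
    · have h2 := Nat.pow_pred_clog_lt_self hp hm'
      have h3 : 0 < Nat.clog p m := Nat.clog_pos hp hm'
      obtain ⟨k, hk⟩ : ∃ k, Nat.clog p m = k + 1 := ⟨_, (Nat.succ_pred_eq_of_pos h3).symm⟩
      rw [hk] at h2 ⊢
      rw [pow_succ, mul_comm]
      exact Nat.mul_lt_mul_of_pos_left (by simpa using h2) (by omega)
  · obtain ⟨u, h1, h2⟩ := H4.exists_SL_unipotent (F := F) (n := Fin m) hm (by simp)
    have h3 := H4.GL_orderOf_eq_clog p (Matrix.SpecialLinearGroup.toGL u) h1 h2
    exact ⟨_, ⟨_, h3⟩, h3 ▸ Nat.le_pow_clog hp m⟩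

end Cfsg.Agent.S2368
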