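import Cfsg.Statements.S2369
import Cfsg.Agent.H8.TwF4
import Cfsg.Agent.H8.PoinF4
import Cfsg.Agent.H8.CentTab

set_option autoImplicit false
open Cfsg

namespace Cfsg.Agent.S2369

/-- Let q = 2^(2m+1) with m ≥ 1 and let a, b be commuting elements of the large Ree group ²F₄(q) with a an involution. Then every prime divisor of the order of b divides q(q⁴ − 1). -/
theorem result {K : Type*} [Field K] [Fintype K] (m : ℕ) (hm : 1 ≤ m) (hK : Fintype.card K = 2 ^ (2 * m + 1))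
    (a b : ↥(Cfsg.Lie.twistedF4 K (2 ^ m))) (ha : orderOf a = 2) (hab : Commute a b) :
    (orderOf b).primeFactors ⊆ (2 ^ (2 * m + 1) * ((2 ^ (2 * m + 1)) ^ 4 - 1)).primeFactors := by
  have : CharP K 2 := charP_of_card_eq_prime_pow (p := 2) hK
  have e : H8.twS (H7.xg Lie.chevF4 K) (Lie.f4Words K (2 ^ m)) ≃* Lie.twistedF4 K (2 ^ m) := H8.twEquiv _
  obtain ⟨a, rfl⟩ := e.surjective a
  obtain ⟨b, rfl⟩ := e.surjective b
  rw [MulEquiv.orderOf_eq, ← Subgroup.orderOf_coe] at ha ⊢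
  have hc : Commute a.1 b.1 := congrArg Subtype.val (e.injective (a₁ := a * b) (a₂ := b * a)
    (by rw [map_mul, map_mul]; exact hab))
  have hx := H8.isChev_xg (D := Lie.chevF4) (K := K)
  have hx' := hx.toIsSt
  have hφ : ∀ t : K, iterateFrobenius K 2 m t = t ^ 2 ^ m := fun t => iterateFrobenius_def ..
  obtain ⟨σ, hσ⟩ := H8.exists_twistF4 hx H8.GG_xg (iterateFrobenius K 2 m)
  have hS := H8.twSubF4 hx hφ (fun t => by
    rw [hφ, hφ, ← pow_mul, ← pow_mul, ← pow_succ, ← pow_add, ← add_assoc, ← two_mul, ← hK, FiniteField.pow_card]) hσ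
  have h1 : ∀ r s, σ (H7.xg Lie.chevF4 K r 1) = H7.xg Lie.chevF4 K s 1 →
      H8.Cj (H8.GG (H7.xg Lie.chevF4 K)) a.1 (H8.px (H7.xg Lie.chevF4 K) [r]) →
      H8.Cj (H8.GG (H7.xg Lie.chevF4 K)) (H7.xg Lie.chevF4 K r 1) (H7.xg Lie.chevF4 K s 1) := fun r s h h' => by
    rw [H8.px_single] at h'
    obtain ⟨g, -, hg⟩ := id h'
    refine h'.symm.trans ⟨σ g, H8.GG_xg (D := Lie.chevF4) (K := K) ▸ Subgroup.mem_top _, ?_⟩
    rw [← h, ← hg, map_mul, map_mul, map_inv, hS.fix _ a.2]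
  have h2 : ∀ J : List ℕ, ∀ g, g * b.1 * g⁻¹ ∈ H7.PJ Lie.chevF4 (H7.xg Lie.chevF4 K) {j | j ∈ J} →
      H8.poin Lie.chevF4 {j | j ∈ J} (2 ^ (2 * m + 1)) ∣ ((2 ^ (2 * m + 1)) ^ 4 - 1) ^ 2 →
      (orderOf b.1).primeFactors ⊆ (2 ^ (2 * m + 1) * ((2 ^ (2 * m + 1)) ^ 4 - 1)).primeFactors := fun J g hg hp => by
    have h3 := Subgroup.orderOf_dvd_natCard _ hg
    rw [H7.PJ_eq hx', H8.card_cellSubgroup hx.toIsFaith, hx.card_BB, hx.card_UU, Nat.card_eq_fintype_card, hK,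
      ← MulAut.conj_apply, MulEquiv.orderOf_eq] at h3
    have h4 := Dvd.intro _ (H7.card_HH_mul hx)
    rw [Nat.card_units, Nat.card_eq_fintype_card (α := K), hK] at h4
    rw [← Nat.primeFactors_pow (_ * _) (show 24 ≠ 0 by norm_num)]
    have h5 : 1 < (2 ^ (2 * m + 1)) ^ 4 := Nat.one_lt_pow (by norm_num) (Nat.one_lt_two_pow (by omega))
    refine Nat.primeFactors_mono (h3.trans ?_) (pow_ne_zero _ (Nat.mul_ne_zero (by positivity) (Nat.sub_ne_zero_of_lt h5)))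
    rw [mul_pow, mul_assoc, show (24 : ℕ) = 4 + 2 + 18 from rfl, pow_add (_ - 1), pow_add (_ - 1)]
    exact mul_dvd_mul dvd_rfl (Dvd.dvd.mul_right (mul_dvd_mul (h4.trans (pow_dvd_pow_of_dvd
      (Nat.sub_one_dvd_pow_sub_one _ _) 4)) hp) _)
  have h3 : ∀ R g, g * a.1 * g⁻¹ = H8.px (H7.xg Lie.chevF4 K) R → g * b.1 * g⁻¹ ∈ H8.GG (H7.xg Lie.chevF4 K) ⊓
      Subgroup.centralizer {H8.px (H7.xg Lie.chevF4 K) R} := fun R g hg =>
    ⟨H8.GG_xg (D := Lie.chevF4) (K := K) ▸ Subgroup.mem_top _,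
      Subgroup.mem_centralizer_singleton_iff.2 (hg ▸ (hc.conj g).symm.eq)⟩
  have h4 : ∀ y : ℕ, 1 + y * (1 + y * (1 + y)) ∣ y ^ 4 - 1 := fun y => ⟨y - 1, by
    cases y with
    | zero => rfl
    | succ y => rw [Nat.add_sub_cancel, Nat.sub_eq_iff_eq_add (Nat.one_le_pow 4 (y + 1) y.succ_pos)]; ring⟩
  have h5 : ∀ y : ℕ, 1 + y ∣ y ^ 4 - 1 := fun y => Dvd.dvd.trans ⟨1 + y ^ 2, by ring⟩ (h4 y)
  obtain ⟨R, hR, h⟩ := H8.cjTF4 hx.toIsFaith a.1 (hS.le a.2) ha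
  simp only [H8.invTF4, List.mem_cons, List.not_mem_nil, or_false] at hR
  rcases hR with rfl | rfl | rfl | rfl
  · exact absurd (h1 47 44 (by simpa using hσ.map_one' (r := 47) (s := 44) (e := 1) rfl 1) h) (H8.notCjF4 hx.toIsFaith)
  · exact absurd (h1 44 47 (by simpa using hσ.map_one' (r := 44) (s := 47) (e := 2) rfl 1) h).symm
      (H8.notCjF4 hx.toIsFaith)
  · obtain ⟨g, -, hg⟩ := h
    refine h2 [1, 2] g (sup_le ((H8.UU_le_BB _).trans H7.BB_le_PJ) (H8.XS_le.2 fun r hr t => H7.x_mem_PJ hx'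
      (Or.inr (H8.inRootSub_iff.2 ?_)) t) (H8.centF4c hx.toIsFaith ▸ h3 _ g hg)) ?_
    · revert r; simp only [Set.mem_ofPred_eq]; decide +kernel
    · rw [H8.poinF4a2, H8.poinF4a3, H8.poin_empty (by simp), pow_two]
      simpa [H8.hor] using mul_dvd_mul (h4 _) (h5 _)
  · obtain ⟨g, -, hg⟩ := h
    refine h2 [0, 3] g (H8.XS_le.2 (fun r hr t => H7.x_mem_PJ hx' ?_ t) (H8.centF4d hx.toIsFaith ▸ h3 _ g hg)) ?_
    · revert r; simp only [Set.mem_ofPred_eq, H8.inRootSub_iff]; decide +kernel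
    · rw [H8.poinF4b0, H8.poinF4b1, H8.poin_empty (by simp), pow_two]
      simpa [H8.hor] using mul_dvd_mul (h5 _) (h5 _)

end Cfsg.Agent.S2369
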