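import Cfsg.Statements.S2370
import Cfsg.Agent.H8.Expo
import Cfsg.Agent.H8.TwF4

set_option autoImplicit false
open Cfsg

namespace Cfsg.Agent.S2370

/-- Let q = 2^(2m+1) with m ≥ 1. Every element of 2-power order of the large Ree group ²F₄(q) has order at most 32. -/
theorem result {K : Type*} [Field K] [Fintype K] (m : ℕ) (hm : 1 ≤ m) (hK : Fintype.card K = 2 ^ (2 * m + 1))
    (x : ↥(Cfsg.Lie.twistedF4 K (2 ^ m))) (hx : ∃ j : ℕ, orderOf x = 2 ^ j) : orderOf x ≤ 32 := by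
  have : CharP K 2 := charP_of_card_eq_prime_pow (p := 2) hK
  obtain ⟨j, hj⟩ := hx
  have e : H8.twS (H7.xg Lie.chevF4 K) (Lie.f4Words K (2 ^ m)) ≃* Lie.twistedF4 K (2 ^ m) := H8.twEquiv _
  obtain ⟨g, rfl⟩ := e.surjective x
  rw [MulEquiv.orderOf_eq, ← Subgroup.orderOf_coe] at hj ⊢
  obtain ⟨a, ha⟩ := H8.exists_conj_UU H8.isChev_xg H8.GG_xg 2 (hj ▸ pow_orderOf_eq_one g.1)
  have h1 := H8.isChev_xg.toIsSt.pow_two_pow (c := (![8, 15, 21, 11] : Fin 4 → ℤ)) 4 (by decide +kernel) ha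
  rw [conj_pow, conj_eq_one_iff] at h1
  exact (Nat.le_of_dvd (by norm_num) (orderOf_dvd_of_pow_eq_one h1)).trans (by norm_num)

end Cfsg.Agent.S2370
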