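import Cfsg.Statements.S2372
import Cfsg.Agent.H8.CycTor

set_option autoImplicit false
open Cfsg Cfsg.Agent.H7 Cfsg.Agent.H8

namespace Cfsg.Agent.S2372

/-- The group F₄(q) contains a cyclic subgroup of order q⁴ + 1 which is its own centralizer. -/
theorem result {F : Type*} [Field F] [Fintype F] (q : ℕ) (hF : Fintype.card F = q) :
    ∃ H : Subgroup ↥(Cfsg.Lie.chevF4.group F), IsCyclic ↥H ∧ Nat.card ↥H = q ^ 4 + 1 ∧
      Subgroup.centralizer (H : Set ↥(Cfsg.Lie.chevF4.group F)) = H := by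
  simpa using (scov_refl unimodF4).cyc (agree_of_check smallF4 chainF4 ltF4) 6 0x114c1
    [[0, 1, -1, 0], [1, 0, -1, 1], [0, 1, -1, 1], [1, 0, 0, 0], [0, -1, 1, 0]]
    [[0, 0, 0, 1], [0, -1, 1, 1], [-1, -1, 1, 1], [-1, 0, 1, 0]] [1, 0, 0, 0, 1] 1 4 (by decide +kernel) card_zkerF4 hF
    (N := q ^ 4 + 1) (by simp [show Lie.chevF4.rank = 4 from rfl, Finset.sum_range_succ])

end Cfsg.Agent.S2372
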