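import Cfsg.Statements.S2373
import Cfsg.Agent.H8.CycTor

set_option autoImplicit false
open Cfsg Cfsg.Agent.H7 Cfsg.Agent.H8

namespace Cfsg.Agent.S2373

/-- The group E₆(q) (the simple Chevalley group of type E₆) contains a cyclic subgroup of order (q⁴ − q² + 1)(q² + q + 1)/gcd(3, q − 1) which is its own centralizer. -/
theorem result {F : Type*} [Field F] [Fintype F] (q : ℕ) (hF : Fintype.card F = q) :
    ∃ H : Subgroup ↥(Cfsg.Lie.chevE6.group F), IsCyclic ↥H ∧ Nat.card ↥H = (q ^ 4 - q ^ 2 + 1) * (q ^ 2 + q + 1) / Nat.gcd 3 (q - 1) ∧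
      Subgroup.centralizer (H : Set ↥(Cfsg.Lie.chevE6.group F)) = H := by
  have h : q ^ 2 ≤ q ^ 4 := Nat.pow_le_pow_right (hF ▸ Fintype.card_pos) (by norm_num)
  exact scovE6.cyc (agree_of_check smallE6 chainE6 ltE6) 6 0x252c2
    [[0, 0, 1, 0, -1, 0], [0, -1, 0, 1, -1, 1], [-1, 0, 1, 0, 0, 0], [1, 0, 0, 0, 0, 0], [0, 0, -1, 1, 0, 0], [0, 1, 0, -1, 1, 0], [1, 0, -1, 0, 1, -1]]
    [[0, 0, 0, 1, 0, 0], [1, 0, 0, 0, 1, 1], [0, 0, 1, 1, 0, 0], [0, 0, 1, 1, 1, 0], [-1, 0, 1, 1, 0, 0], [0, 1, 0, 0, 0, 1]]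
    [1, 1, 0, -1, 0, 1, 1] 3 8 (by decide +kernel) card_zkerE6 hF
    (by simp [show Lie.chevE6.rank = 6 from rfl, Finset.sum_range_succ, h]; ring)

end Cfsg.Agent.S2373
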