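import Cfsg.Statements.S2375
import Cfsg.Agent.H8.CycTor

set_option autoImplicit false
open Cfsg Cfsg.Agent.H7 Cfsg.Agent.H8

namespace Cfsg.Agent.S2375

/-- The group E₈(q) contains a cyclic subgroup of order q⁸ + q⁷ − q⁵ − q⁴ − q³ + q + 1 which is its own centralizer. -/
theorem result {F : Type*} [Field F] [Fintype F] (q : ℕ) (hF : Fintype.card F = q) :
    ∃ H : Subgroup ↥(Cfsg.Lie.chevE8.group F), IsCyclic ↥H ∧ Nat.card ↥H = q ^ 8 + q ^ 7 - q ^ 5 - q ^ 4 - q ^ 3 + q + 1 ∧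
      Subgroup.centralizer (H : Set ↥(Cfsg.Lie.chevE8.group F)) = H := by
  have h0 : 2 ≤ q := hF ▸ Fintype.one_lt_card
  have h1 : q ^ 5 + q ^ 4 + q ^ 3 ≤ q ^ 8 + q ^ 7 := by
    have := fun a b (h : a ≤ b) => Nat.pow_le_pow_right (Nat.lt_of_succ_lt h0) h
    have h2 : 2 * q ^ 7 ≤ q ^ 8 := by rw [pow_succ' q 7]; gcongr
    linarith [this 5 7 (by norm_num), this 4 7 (by norm_num), this 3 7 (by norm_num)]
  simpa using (scov_refl unimodE8).cyc (agree_of_check smallE8 chainE8 ltE8) 8 0xf2e08b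
    [[0, 0, 0, 1, -1, 0, 0, 0], [0, 0, 0, 0, 0, 0, 1, -1], [0, 0, 0, 0, 0, 0, 0, 1], [0, 0, 0, 0, 0, 1, -1, 0], [0, 0, 0, 0, 1, -1, 0, 0], [0, 1, 1, -1, 0, 0, 0, 0], [1, 0, 0, -1, 1, 0, 0, 0], [0, 1, 0, -1, 1, 0, -1, 1], [0, 0, 1, -1, 1, 0, -1, 0]]
    [[1, 0, 0, 0, 0, 0, 1, 0], [1, 1, 0, 0, 0, 0, 0, 1], [0, 0, 1, 1, 1, 1, 0, -1], [1, 1, 1, 1, 1, 0, 0, 0], [0, 1, 1, 1, 1, 0, 0, 0], [0, 1, 1, 1, 0, 0, 0, 0], [0, 1, 1, 0, 0, 0, 0, 0], [0, 0, 1, 0, 0, 0, 0, 0]]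
    [1, 1, 0, -1, -1, -1, 0, 1, 1] 1 4 (by decide +kernel) card_zkerE8 hF
    (N := q ^ 8 + q ^ 7 - q ^ 5 - q ^ 4 - q ^ 3 + q + 1) (by
      rw [Nat.sub_sub, Nat.sub_sub, ← add_assoc]
      simp [show Lie.chevE8.rank = 8 from rfl, Finset.sum_range_succ, h1]; ring)

end Cfsg.Agent.S2375
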