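import Cfsg.Statements.S2376
import Cfsg.Agent.H8.ModelTw

set_option autoImplicit false
open Cfsg Cfsg.Agent.H7 Cfsg.Agent.H8

namespace Cfsg.Agent.S2376

/-- The group ³D₄(q) contains a cyclic subgroup of order (q³ − 1)(q + 1) which is its own centralizer. -/
theorem result {K : Type*} [Field K] [Fintype K] (q : ℕ) (hq : IsPrimePow q) (hK : Fintype.card K = q ^ 3) :
    ∃ H : Subgroup ↥(Cfsg.Lie.twistedD4 K q), IsCyclic ↥H ∧ Nat.card ↥H = (q ^ 3 - 1) * (q + 1) ∧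
      Subgroup.centralizer (H : Set ↥(Cfsg.Lie.twistedD4 K q)) = H := by
  have := (AlgebraicClosure.isAlgClosed K)
  have h1 := hq.two_le
  obtain ⟨h0, _, _, φ, j, h⟩ := exists_modelD4 (K := AlgebraicClosure K) hK
  obtain ⟨w, hw, h2⟩ := exists_wdT agrD4 1 1
  obtain ⟨n, -, j', h3⟩ := h.twist hw
  rw [show wM _ w = Matrix.of fun i j : Fin Lie.chevD4.rank => cor _ (wdT fastD4 1 1 (Lie.chevD4.simple i)) j by
    simp only [h2]; rfl] at h3
  simpa using h3.cyc_of_ok h0 h1 (V := [[0, 1, 0, -1], [0, -1, 1, 1], [0, 1, -1, 0], [1, -1, 1, 0], [-1, 1, 0, 0]])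
    (C := [[0, 0, 1, 1], [1, 1, 1, 0], [1, 1, 0, 0], [0, 1, 1, 0]]) (χ := [-1, -1, 0, 1, 1]) (d := 1) (q₁ := 4)
    (by decide +kernel) (θ := MonoidHom.id _) Function.surjective_id (by simp) (by simp) (N := (q ^ 3 - 1) * (q + 1)) (by
      simp [show Lie.chevD4.rank = 4 from rfl, Finset.sum_range_succ, Nat.one_le_pow 3 q (by omega)]; ring)

end Cfsg.Agent.S2376
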