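import Cfsg.Statements.S2379
import Cfsg.Agent.H4.GLOrd

set_option autoImplicit false
open Cfsg

namespace Cfsg.Agent.S2379

open Cfsg.Agent.H4

/-- Sylow subgroups of `SL_n(q)` for large primes. Let `F` be a field with `q` elements and `r` a prime with `r > n` and `r ∤ q` (so `r` does not divide the order `n!` of the Weyl group). Let `d` be the multiplicative order of `q` modulo `r`, `a` the number of integers `i` with `2 ≤ i ≤ n` divisible by `d` (the degrees of the Weyl group are `2, …, n`), and `m` the `r`-part of the value at `q` of the `d`-th cyclotomic polynomial. Then every Sylow `r`-subgroup of `SL_n(q)` is a direct product of `a` cyclic groups of order `m`. -/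
theorem result {F : Type*} [Field F] [Fintype F] {q : ℕ} (hq : Fintype.card F = q) (n : ℕ)
    (r : ℕ) [Fact r.Prime] (hrn : n < r) (hrq : ¬ r ∣ q) (P : Sylow r (Matrix.SpecialLinearGroup (Fin n) F)) :
    Nonempty (↥(P : Subgroup (Matrix.SpecialLinearGroup (Fin n) F)) ≃*
      (Fin ((Finset.Icc 2 n).filter (fun i => orderOf (q : ZMod r) ∣ i)).card →
        Multiplicative (ZMod (r ^ padicValNat r ((Polynomial.cyclotomic (orderOf (q : ZMod r)) ℤ).eval (q : ℤ)).natAbs)))) := by
  classical
  subst hq
  have hr : r.Prime := Fact.out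
  rw [padicValNat_cyclotomic Fintype.one_lt_card hr hrq]
  have hd := orderOf_cast_pos hr hrq
  have hG := factorization_card_GL_large hr hrq hrn
  have hr' : ∀ m, r ∣ Fintype.card F ^ m - 1 ↔ orderOf ((Fintype.card F : ℕ) : ZMod r) ∣ m :=
    fun m => (orderOf_cast_dvd_iff Fintype.card_pos _ _).symm
  generalize orderOf ((Fintype.card F : ℕ) : ZMod r) = d at *
  rcases Nat.eq_zero_or_pos n with rfl | hn
  · rw [show ((Finset.Icc 2 0).filter (fun i => d ∣ i)).card = 0 by simp]
    refine sylow_equiv_of_injective 1 (fun x y _ => Subsingleton.elim x y) ?_ P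
    rw [Nat.card_unique, Nat.card_unique]
    simp
  have : Nonempty (Fin n) := ⟨⟨0, hn⟩⟩
  have hS := congrArg (fun x => x.factorization r) (card_SL_mul (F := F) (ι := Fin n))
  have hq1 : Fintype.card F - 1 ≠ 0 := (Nat.sub_pos_of_lt Fintype.one_lt_card).ne'
  simp only [Nat.factorization_mul Nat.card_pos.ne' hq1, Finsupp.add_apply, hG] at hS
  rcases Nat.lt_or_ge 1 d with h2 | h2
  · have h1 : ¬ r ∣ Fintype.card F - 1 := fun h => by
      have := Nat.dvd_one.1 ((hr' 1).1 (by simpa using h)); omega
    rw [Nat.factorization_eq_zero_of_not_dvd h1, add_zero] at hS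
    have h3 : ((Finset.Icc 2 n).filter (fun i => d ∣ i)).card = n / d := by
      rw [← Nat.Ioc_filter_dvd_card_eq_div]
      congr 1
      ext i
      simp only [Finset.mem_filter, Finset.mem_Icc, Finset.mem_Ioc]
      constructor
      · rintro ⟨⟨h4, h5⟩, h6⟩; exact ⟨⟨by omega, h5⟩, h6⟩
      · rintro ⟨⟨h4, h5⟩, h6⟩; exact ⟨⟨h2.trans_le (Nat.le_of_dvd h4 h6), h5⟩, h6⟩
    rw [h3]
    obtain ⟨Ψ, hΨ⟩ := exists_torus_rep (F := F) hd (Nat.ordProj_dvd _ r) (Nat.div_mul_le_self n _)
    have hdet : ∀ x, (Ψ x : Matrix (Fin n) (Fin n) F).det = 1 := by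
      intro x
      have h4 : Matrix.GeneralLinearGroup.det (Ψ x) ^ (Fintype.card F - 1) = 1 := by
        rw [← Fintype.card_units, pow_card_eq_one]
      have h5 : Matrix.GeneralLinearGroup.det (Ψ x) ^
          (r ^ (Fintype.card F ^ d - 1).factorization r) = 1 := by
        rw [← map_pow, ← map_pow, show x ^ _ = 1 from ?_, map_one, map_one]
        ext1 i
        have := pow_card_eq_one' (x := x i)
        simpa using this
      have h6 := pow_gcd_eq_one.2 ⟨h4, h5⟩
      rw [Nat.Coprime.gcd_eq_one ((hr.coprime_iff_not_dvd.2 h1).symm.pow_right _), pow_one] at h6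
      exact congrArg Units.val h6
    let Φ : _ →* Matrix.SpecialLinearGroup (Fin n) F := MonoidHom.mk' (fun x => ⟨Ψ x, hdet x⟩)
      fun x y => Subtype.ext (congrArg Units.val (map_mul Ψ x y))
    refine sylow_equiv_of_injective Φ (fun x y h =>
        hΨ (Units.ext (congrArg Subtype.val h))) ?_ P
    rw [hS, mul_comm, pow_mul]
    simp [Nat.card_pi]
  · obtain rfl : d = 1 := by omega
    obtain ⟨m, rfl⟩ : ∃ k, n = k + 1 := ⟨n - 1, by omega⟩
    have h3 : ((Finset.Icc 2 (m + 1)).filter (fun i => 1 ∣ i)).card = m := by simp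
    rw [h3]
    rw [pow_one, Nat.div_one, add_mul, one_mul, add_left_inj] at hS
    obtain ⟨ι, hι⟩ := exists_zmod_hom (E := F) (m := r ^ (Fintype.card F ^ 1 - 1).factorization r)
      (by rw [pow_one, Nat.card_eq_fintype_card]; exact Nat.ordProj_dvd _ r)
    let c : (Fin m → Fˣ) → Fin (m + 1) → Fˣ := fun ε => Fin.cons (∏ i, ε i)⁻¹ ε
    have hc : ∀ ε ε', c (ε * ε') = c ε * c ε' := by
      intro ε ε'
      ext1 i
      refine Fin.cases ?_ (fun j => ?_) i <;> simp [c, Finset.prod_mul_distrib, mul_comm]
    let Ψ : (Fin m → Fˣ) →* Matrix.SpecialLinearGroup (Fin (m + 1)) F := MonoidHom.mk'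
      (fun ε => ⟨Matrix.diagonal fun i => (c ε i : F), by
        rw [Matrix.det_diagonal, ← Units.coe_prod, Fin.prod_univ_succ]
        simp [c]⟩) fun ε ε' => Subtype.ext (by
          change Matrix.diagonal _ = Matrix.diagonal _ * Matrix.diagonal _
          simp [hc, Matrix.diagonal_mul_diagonal])
    have hΨ : Function.Injective Ψ := by
      rw [injective_iff_map_eq_one]
      intro ε hε
      ext1 i
      have := congrFun (congrFun (congrArg Subtype.val hε) i.succ) i.succ
      change Matrix.diagonal _ _ _ = (1 : Matrix _ _ F) _ _ at this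
      exact Units.ext (by simpa [c] using this)
    refine sylow_equiv_of_injective (Ψ.comp (ι.compLeft (Fin m)))
      (hΨ.comp fun x y h => funext fun i => hι (congrFun h i)) ?_ P
    rw [hS, mul_comm, pow_mul]
    simp [Nat.card_pi]

end Cfsg.Agent.S2379
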