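import Cfsg.Statements.S2381
import Cfsg.Agent.H5.TwoRank
import Cfsg.Agent.H5.Eta

set_option autoImplicit false
open Cfsg

namespace Cfsg.Agent.S2381

open Cfsg.Agent.H5 Function

theorem exists_pi_hom_sp {F : Type*} [Field F] {a η n : ℕ} (h : a * η ≤ n) (hη : 0 < η) :
    ∃ ψ : (Fin a → Matrix.symplecticGroup (Fin η) F) →* Matrix.symplecticGroup (Fin n) F,
      Injective ψ := by
  obtain ⟨-, φ, -⟩ := (((isSp_std (F := F) η).pi (Fin a)).prod (isSp_std (n - a * η))).exists_std
    (n := n) (by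
      rw [Module.finrank_prod, Module.finrank_pi_fintype]
      simp only [finrank_std_sp, Finset.sum_const, Finset.card_univ, Fintype.card_fin, smul_eq_mul]
      rw [mul_left_comm]; omega)
  have : Nonempty (Fin η) := ⟨⟨0, hη⟩⟩
  exact ⟨φ.toMonoidHom.comp ((Isom.prodHom _ _).comp ((MonoidHom.inl _ _).comp
    ((wreathHom (Fin a) (stdSp η F)).comp (SemidirectProduct.inl.comp
      ((spEquiv η F).toMonoidHom.compLeft (Fin a)))))),
    φ.injective.comp ((Isom.prodHom_injective _ _).comp ((Prod.mk_left_injective _).comp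
      ((wreathHom_injective _ _).comp (SemidirectProduct.inl_injective.comp
        (spEquiv η F).injective.comp_left))))⟩

theorem dvd_pow_sub_one_iff {q r : ℕ} (hq : 0 < q) (k : ℕ) :
    r ∣ q ^ k - 1 ↔ orderOf (q : ZMod r) ∣ k := by
  rw [orderOf_dvd_iff_pow_eq_one, ← ZMod.natCast_eq_zero_iff, Nat.cast_sub (Nat.one_le_pow _ _ hq),
    sub_eq_zero]
  simp

theorem val_cyclotomic {q r : ℕ} [Fact r.Prime] (hq : 1 < q) (hd : 0 < orderOf (q : ZMod r)) :
    padicValNat r ((Polynomial.cyclotomic (orderOf (q : ZMod r)) ℤ).eval (q : ℤ)).natAbs =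
      padicValNat r (q ^ orderOf (q : ZMod r) - 1) := by
  set d := orderOf (q : ZMod r)
  have key : ∀ k, 0 < k → q ^ k - 1 =
      ∏ i ∈ k.divisors, ((Polynomial.cyclotomic i ℤ).eval (q : ℤ)).natAbs := fun k hk => by
    have := congrArg (fun f => (Polynomial.eval (q : ℤ) f).natAbs)
      (Polynomial.prod_cyclotomic_eq_X_pow_sub_one hk ℤ)
    simp only [Polynomial.eval_prod, Polynomial.eval_sub, Polynomial.eval_pow, Polynomial.eval_X,
      Polynomial.eval_one] at this
    refine Eq.trans ?_ (this.symm.trans (map_prod Int.natAbsHom _ _))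
    have h1 : ((q ^ k - 1 : ℕ) : ℤ) = q ^ k - 1 := by
      rw [Nat.cast_sub (Nat.one_le_pow _ _ (by omega))]; simp
    rw [← h1, Int.natAbs_natCast]
  have h0 : q ^ d - 1 ≠ 0 := Nat.sub_ne_zero_of_lt (Nat.one_lt_pow hd.ne' hq)
  have h1 := key d hd
  rw [← Nat.cons_self_properDivisors hd.ne', Finset.prod_cons] at h1
  rw [h1] at h0 ⊢
  rw [padicValNat.mul (left_ne_zero_of_mul h0) (right_ne_zero_of_mul h0),
    padicValNat.eq_zero_of_not_dvd (n := ∏ _i ∈ _, _), add_zero]
  rw [(Nat.Prime.prime Fact.out).dvd_finsetProd_iff]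
  rintro ⟨i, hi, h2⟩
  have h3 := Nat.pos_of_mem_properDivisors hi
  have h4 : r ∣ q ^ i - 1 := by
    rw [key i h3]
    exact h2.trans (Finset.dvd_prod_of_mem _ (Nat.mem_divisors_self i h3.ne'))
  exact (Nat.le_of_dvd h3 ((dvd_pow_sub_one_iff (by omega) i).1 h4)).not_gt
    (Nat.mem_properDivisors.1 hi).2

/-- Sylow subgroups of `Sp_{2n}(q)` for large primes. Let `F` be a field with `q` elements and `r` an odd prime with `r > n` and `r ∤ q` (so `r` does not divide the order `2^n n!` of the Weyl group). Let `d` be the multiplicative order of `q` modulo `r`, `a` the number of `i` with `1 ≤ i ≤ n` and `d ∣ 2i` (the degrees being `2, 4, …, 2n`), and `m` the `r`-part of the value at `q` of the `d`-th cyclotomic polynomial. Then every Sylow `r`-subgroup of the symplectic group `Sp_{2n}(q)` is a direct product of `a` cyclic groups of order `m`. -/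
theorem result {F : Type*} [Field F] [Fintype F] {q : ℕ} (hq : Fintype.card F = q) (n : ℕ)
    (r : ℕ) [Fact r.Prime] (hr2 : r ≠ 2) (hrn : n < r) (hrq : ¬ r ∣ q) (P : Sylow r ↥(Matrix.symplecticGroup (Fin n) F)) :
    Nonempty (↥(P : Subgroup ↥(Matrix.symplecticGroup (Fin n) F)) ≃*
      (Fin ((Finset.Icc 1 n).filter (fun i => orderOf (q : ZMod r) ∣ 2 * i)).card →
        Multiplicative (ZMod (r ^ padicValNat r ((Polynomial.cyclotomic (orderOf (q : ZMod r)) ℤ).eval (q : ℤ)).natAbs)))) := by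
  classical
  have hr : r.Prime := Fact.out
  have hq1 : 1 < q := hq ▸ Fintype.one_lt_card
  have := Fact.mk (CharP.char_is_prime F (ringChar F))
  have hpq : ringChar F ∣ q := (CharP.cast_eq_zero_iff F _ _).1 (hq ▸ FiniteField.cast_card_eq_zero F)
  have hrp : r ≠ ringChar F := fun h => hrq (h ▸ hpq)
  have hd : 0 < orderOf (q : ZMod r) := hq ▸ orderOf_card_pos (ringChar F) hr hrp
  rw [val_cyclotomic hq1 hd]
  have hdvd := dvd_pow_sub_one_iff (r := r) (q := q) (by omega)
  obtain ⟨η, hη⟩ : ∃ η, IsEta (orderOf (q : ZMod r)) η := by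
    rcases Nat.even_or_odd (orderOf (q : ZMod r)) with h | h
    · exact ⟨_, Or.inr ⟨h, Nat.two_mul_div_two_of_even h⟩⟩
    · exact ⟨_, Or.inl ⟨h, rfl⟩⟩
  have hη0 := hη.pos hd
  set d := orderOf (q : ZMod r)
  set v := padicValNat r (q ^ d - 1) with hv
  set a := ((Finset.Icc 1 n).filter (fun i => d ∣ 2 * i)).card with ha
  have haη : a * η ≤ n := by
    refine le_trans (Nat.mul_le_mul_right _ ?_) (Nat.div_mul_le_self n η)
    rw [← Nat.Ioc_filter_dvd_card_eq_div]
    refine Finset.card_le_card fun i hi => ?_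
    simp only [Finset.mem_filter, Finset.mem_Icc, Finset.mem_Ioc] at hi ⊢
    exact ⟨hi.1, hη.dvd hi.2⟩
  obtain ⟨ψ, hψ⟩ := exists_pi_hom_sp (F := F) haη hη0
  obtain ⟨g, hg⟩ : ∃ g : Matrix.symplecticGroup (Fin η) F, orderOf g = r ^ v := by
    obtain ⟨K, _, _, _⟩ := exists_algClosed F
    have := charP_ext K (ringChar F) F
    obtain ⟨l, hl⟩ := exists_prim_root K (ringChar F) (m := r ^ v) fun h =>
      hrp ((Nat.prime_dvd_prime_iff_eq Fact.out hr).1 ((Fact.out : (ringChar F).Prime).dvd_of_dvd_pow h)).symm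
    have hl0 := hl.ne_zero (pow_pos hr.pos v).ne'
    have h1 : r ^ v ∣ q ^ d - 1 := pow_padicValNat_dvd
    have h2 : l ^ q ^ η = l ∨ l ^ q ^ η = l⁻¹ := by
      have h3 : 1 ≤ q ^ η := Nat.one_le_pow _ _ (by omega)
      rcases hη with ⟨-, h⟩ | ⟨-, h⟩
      · left
        rw [← h] at h1
        rw [← Nat.sub_add_cancel h3, pow_succ, (hl.pow_eq_one_iff_dvd _).2 h1, one_mul]
      · right
        rw [← h, mul_comm, pow_mul, ← one_pow 2, Nat.sq_sub_sq] at h1
        have h4 := ((hr.coprime_iff_not_dvd.2 fun h4 => (Nat.le_of_dvd hη0 ((hdvd η).1 h4)).not_gt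
          (by omega)).pow_left v).dvd_of_dvd_mul_right h1
        refine eq_inv_of_mul_eq_one_left ?_
        rw [← pow_succ, (hl.pow_eq_one_iff_dvd _).2 h4]
    obtain ⟨g, hg, -⟩ := exists_cyc_sp (F := F) K (n := η) (M := sorb q l η) (by rw [hq]; exact sorb_stable h2)
      (sorb_inv _ _ _) (sorb_prod _ hl0 _) (by simp [sorb, orb, two_mul])
    refine exists_orderOf_eq_of_dvd g ((hl.pow_eq_one_iff_dvd _).1 ?_)
    have := pow_eq_of_pow_eq_smul K (A := g.1) (i := orderOf g) (c := 1)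
      (by rw [one_smul]; exact congrArg Subtype.val (pow_orderOf_eq_one g))
      (hg ▸ self_mem_sorb q l hη0)
    rwa [map_one] at this
  obtain ⟨f, hf⟩ : ∃ f : Multiplicative (ZMod (r ^ v)) →* Matrix.symplecticGroup (Fin η) F,
      Injective f := by
    rw [← hg, ← Nat.card_zpowers]
    exact ⟨(Subgroup.zpowers g).subtype.comp (zmodCyclicMulEquiv inferInstance).toMonoidHom,
      Subtype.val_injective.comp (MulEquiv.injective _)⟩
  have h0 : ∀ i, q ^ (2 * (i + 1)) - 1 ≠ 0 := fun i =>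
    Nat.sub_ne_zero_of_lt (Nat.one_lt_pow (by omega) hq1)
  obtain ⟨e⟩ := nonempty_equiv_sylow (ψ.comp (f.compLeft (Fin a))) (hψ.comp hf.comp_left) (by
    rw [Nat.card_fun, Nat.card_congr Multiplicative.toAdd, Nat.card_zmod, card_sp, hq,
      Nat.factorization_mul (by positivity) (Finset.prod_ne_zero_iff.2 fun i _ => h0 i),
      Nat.factorization_prod fun i _ => h0 i, ← pow_mul, Finsupp.add_apply,
      Nat.factorization_eq_zero_of_not_dvd (mt hr.dvd_of_dvd_pow hrq), zero_add, Finsupp.finsetSum_apply,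
      Nat.card_eq_fintype_card, Fintype.card_fin, ha, Finset.card_filter, Finset.mul_sum,
      Finset.range_eq_Ico, ← Finset.Ico_add_one_right_eq_Icc,
      ← Finset.sum_Ico_add' (fun i => v * if d ∣ 2 * i then 1 else 0) 0 n 1]
    refine congrArg _ (Finset.sum_congr rfl fun i hi => ?_)
    split_ifs with h
    · obtain ⟨k, hk⟩ := h
      have hk0 : k ≠ 0 := by rintro rfl; omega
      have h1 := padicValNat.pow_sub_pow (p := r) (hr.odd_of_ne_two hr2) (x := q ^ d) (y := 1)
        (Nat.one_lt_pow hd.ne' hq1) ((hdvd d).2 dvd_rfl) (mt hr.dvd_of_dvd_pow hrq) hk0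
      rw [one_pow] at h1
      rw [Nat.factorization_def _ hr, hk, pow_mul, h1, mul_one,
        padicValNat.eq_zero_of_not_dvd (n := k), add_zero]
      intro h2
      rcases (Nat.Prime.dvd_mul hr).1 (hk ▸ h2.mul_left d : r ∣ 2 * (i + 1)) with h3 | h3
      · exact hr2 ((Nat.prime_dvd_prime_iff_eq hr Nat.prime_two).1 h3)
      · have := Nat.le_of_dvd (by omega) h3
        have := (Finset.mem_Ico.1 hi).2
        omega
    · rw [Nat.factorization_eq_zero_of_not_dvd (mt (hdvd _).1 h), mul_zero]) P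
  exact ⟨e.symm⟩

end Cfsg.Agent.S2381
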