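import Cfsg.Statements.S2382
import Cfsg.Agent.H7.Weight2
import Cfsg.Agent.H7.All

set_option autoImplicit false
open Cfsg

namespace Cfsg.Agent.S2382

open Cfsg.Lie Cfsg.Agent.H7 Cfsg.Agent.H8

/-- Steinberg's count of semisimple classes for the three types whose simply connected and adjoint groups coincide: in the Chevalley group of type G₂, F₄ or E₈ over a field with `q` elements of characteristic `p`, the conjugacy classes of elements of order prime to `p` number exactly `q^l`, `l = 2, 4, 8` the rank. -/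
theorem result {F : Type*} [Field F] [Fintype F] {q : ℕ} (hq : Fintype.card F = q) (p : ℕ) [Fact p.Prime] [CharP F p]
    (D : Cfsg.Lie.ChevalleyDatum) (hD : D ∈ [Cfsg.Lie.chevG2, Cfsg.Lie.chevF4, Cfsg.Lie.chevE8]) :
    Nat.card {c : ConjClasses ↥(D.group F) // ∃ g : ↥(D.group F), ConjClasses.mk g = c ∧ (orderOf g).Coprime p} = q ^ D.rank := by
  obtain ⟨_, _, _, _, _⟩ := facts_of_mem (D := D) (by simp only [List.mem_cons] at hD ⊢; tauto)
  have := isChev_xg.finite_G (GG_xg (D := D) (F := F))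
  let _ := Fintype.ofFinite (D.group F)
  refine hq ▸ isChev_xg.card_preg GG_xg ?_ p
  simp only [List.mem_cons, List.not_mem_nil, or_false] at hD
  rcases hD with rfl | rfl | rfl
  · exact (zker_eq_bot 1 (Nat.coprime_one_left _) [[2, 1], [3, 2]] (by decide +kernel))
  · exact (zker_eq_bot 1 (Nat.coprime_one_left _) [[2, 3, 2, 1], [3, 6, 4, 2], [4, 8, 6, 3], [2, 4, 3, 2]] (by decide +kernel))
  · exact (zker_eq_bot 1 (Nat.coprime_one_left _) [[4, 5, 7, 10, 8, 6, 4, 2], [5, 8, 10, 15, 12, 9, 6, 3], [7, 10, 14, 20, 16, 12, 8, 4], [10, 15, 20, 30, 24, 18, 12, 6], [8, 12, 16, 24, 20, 15, 10, 5], [6, 9, 12, 18, 15, 12, 8, 4], [4, 6, 8, 12, 10, 8, 6, 3], [2, 3, 4, 6, 5, 4, 3, 2]] (by decide +kernel))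

end Cfsg.Agent.S2382
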