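import Cfsg.Statements.S2383
import Cfsg.Agent.H7.Weight2
import Cfsg.Agent.H7.All

set_option autoImplicit false
open Cfsg

namespace Cfsg.Agent.S2383

open Cfsg.Lie Cfsg.Agent.H7 Cfsg.Agent.H8

/-- Steinberg's count of semisimple classes in characteristic 2 for the types B₂, D₄, E₇, where the finite simply connected group has trivial centre and so coincides with the Chevalley group: for the Chevalley group of type B₂, D₄ or E₇ over a field with `q` elements of characteristic 2, the conjugacy classes of elements of odd order number exactly `q^l`, `l` the rank. -/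
theorem result {F : Type*} [Field F] [Fintype F] {q : ℕ} (hq : Fintype.card F = q) [CharP F 2]
    (D : Cfsg.Lie.ChevalleyDatum) (hD : D ∈ [Cfsg.Lie.chevB2, Cfsg.Lie.chevD4, Cfsg.Lie.chevE7]) :
    Nat.card {c : ConjClasses ↥(D.group F) // ∃ g : ↥(D.group F), ConjClasses.mk g = c ∧ Odd (orderOf g)} = q ^ D.rank := by
  obtain ⟨_, _, _, _, _⟩ := facts_of_mem (D := D) (by simp only [List.mem_cons] at hD ⊢; tauto)
  have := isChev_xg.finite_G (GG_xg (D := D) (F := F))
  let _ := Fintype.ofFinite (D.group F)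
  have h2 : Nat.Coprime 2 (Fintype.card F - 1) := by
    obtain ⟨n, -, h⟩ := FiniteField.card F 2
    rw [h, Nat.coprime_two_left]
    exact Nat.Even.sub_odd Nat.one_le_two_pow ((Nat.even_pow' n.ne_zero).2 even_two) odd_one
  simp only [← Nat.coprime_two_right]
  refine hq ▸ isChev_xg.card_preg GG_xg ?_ 2
  simp only [List.mem_cons, List.not_mem_nil, or_false] at hD
  rcases hD with rfl | rfl | rfl
  · exact (zker_eq_bot 2 h2 [[2, 1], [2, 2]] (by decide +kernel))
  · exact (zker_eq_bot 2 h2 [[2, 2, 1, 1], [2, 4, 2, 2], [1, 2, 2, 1], [1, 2, 1, 2]] (by decide +kernel))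
  · exact (zker_eq_bot 2 h2 [[4, 4, 6, 8, 6, 4, 2], [4, 7, 8, 12, 9, 6, 3], [6, 8, 12, 16, 12, 8, 4], [8, 12, 16, 24, 18, 12, 6], [6, 9, 12, 18, 15, 10, 5], [4, 6, 8, 12, 10, 8, 4], [2, 3, 4, 6, 5, 4, 3]] (by decide +kernel))

end Cfsg.Agent.S2383
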