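import Cfsg.Statements.S2391
import Cfsg.Agent.H4.FixFlag

set_option autoImplicit false
open Cfsg

namespace Cfsg.Agent.S2391

open Cfsg.Agent.H4

/-- The Borel–Tits property of `SL_n(q)` in flag form: for a field `F` of characteristic `p` with finitely many elements and a non-trivial `p`-subgroup `U` of `SL_n(F)`, there is a flag `0 = V₀ < V₁ < ⋯ < V_{k+1} = F^n` with at least one proper non-zero member such that every element of the normaliser of `U` maps each `V_i` onto itself and every element of `U` acts trivially on each quotient `V_{i+1}/V_i` (so the normaliser lies in the parabolic subgroup of the flag and `U` in its unipotent radical). -/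
theorem result {F : Type*} [Field F] [Fintype F] (p : ℕ) [Fact p.Prime] [CharP F p] (n : ℕ)
    (U : Subgroup (Matrix.SpecialLinearGroup (Fin n) F)) (hU : IsPGroup p ↥U) (hne : U ≠ ⊥) :
    ∃ (k : ℕ) (V : Fin (k + 2) → Submodule F (Fin n → F)), 1 ≤ k ∧ StrictMono V ∧ V 0 = ⊥ ∧ V (Fin.last (k + 1)) = ⊤ ∧
      (∀ g ∈ Subgroup.normalizer (U : Set (Matrix.SpecialLinearGroup (Fin n) F)), ∀ i, (V i).map (Matrix.mulVecLin (g : Matrix (Fin n) (Fin n) F)) = V i) ∧
      (∀ u ∈ U, ∀ i : Fin (k + 1), ∀ v ∈ V i.succ, (u : Matrix (Fin n) (Fin n) F).mulVec v - v ∈ V (Fin.castSucc i)) := by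
  classical
  let ρ : Representation F U (Fin n → F) :=
    { toFun := fun u => Matrix.mulVecLin (u.1 : Matrix (Fin n) (Fin n) F)
      map_one' := by simp [Module.End.one_eq_id]
      map_mul' := fun a b => by simp [Module.End.mul_eq_comp, Matrix.mulVecLin_mul] }
  have hex := exists_fixFil_eq_top hU ρ
  have h1 : fixFil ρ 1 ≠ ⊤ := by
    intro h
    apply hne
    rw [eq_bot_iff]
    intro u hu
    rw [Subgroup.mem_bot]
    apply Subtype.ext
    apply Matrix.ext_of_mulVec_single
    intro i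
    have := (mem_fixFil_succ ρ 0 (Pi.single i 1)).1 (h ▸ Submodule.mem_top) ⟨u, hu⟩
    rw [Matrix.SpecialLinearGroup.coe_one, Matrix.one_mulVec]
    exact sub_eq_zero.1 this
  have h0 : fixFil ρ 0 ≠ ⊤ := fun h => h1 (top_le_iff.1 (h ▸ fixFil_le_succ ρ 0))
  have h2 : 2 ≤ Nat.find hex := by
    rw [Nat.le_find_iff]
    intro m hm
    interval_cases m
    · exact h0
    · exact h1
  obtain ⟨k, hk⟩ : ∃ k, Nat.find hex = k + 1 := ⟨Nat.find hex - 1, by omega⟩
  have hmap : ∀ g ∈ Subgroup.normalizer (U : Set (Matrix.SpecialLinearGroup (Fin n) F)), ∀ i,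
      ∀ v ∈ fixFil ρ i, (g : Matrix (Fin n) (Fin n) F).mulVec v ∈ fixFil ρ i := by
    intro g hg i
    refine fixFil_map ρ (Matrix.mulVecLin (g : Matrix (Fin n) (Fin n) F)) (fun u => ?_) i
    refine ⟨⟨g⁻¹ * u * g, (Subgroup.mem_normalizer_iff''.1 hg u).1 u.2⟩, ?_⟩
    change Matrix.mulVecLin _ ∘ₗ _ = _ ∘ₗ Matrix.mulVecLin _
    rw [← Matrix.mulVecLin_mul, ← Matrix.mulVecLin_mul, ← Matrix.SpecialLinearGroup.coe_mul,
      ← Matrix.SpecialLinearGroup.coe_mul]
    congr 2
    simp only [← mul_assoc, mul_inv_cancel, one_mul]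
    rfl
  refine ⟨k, fun i => fixFil ρ i, by omega, ?_, rfl, ?_, fun g hg i => ?_, fun u hu i v hv => ?_⟩
  · rw [Fin.strictMono_iff_lt_succ]
    intro i
    exact fixFil_lt_succ hU ρ (Nat.find_min hex (by rw [hk]; exact i.2))
  · simpa [hk] using Nat.find_spec hex
  · refine le_antisymm (Submodule.map_le_iff_le_comap.2 (hmap g hg i)) fun v hv => ?_
    refine ⟨_, hmap g⁻¹ (inv_mem hg) i v hv, ?_⟩
    rw [Matrix.mulVecLin_apply, Matrix.mulVec_mulVec, ← Matrix.SpecialLinearGroup.coe_mul]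
    simp
  · exact (mem_fixFil_succ ρ i v).1 hv ⟨u, hu⟩

end Cfsg.Agent.S2391
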