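import Cfsg.Statements.S2392
import Cfsg.Agent.H1.SLT

set_option autoImplicit false
open scoped MatrixGroups
open Cfsg

namespace Cfsg.Agent.S2392

/-- A lower bound for representations in cross characteristic: for `n ≥ 3` and a field `F` with `q` elements, every homomorphism from `SL_n(F)` to `GL_d(K)`, `K` a field of characteristic different from that of `F`, whose kernel is central has `d ≥ q^(n-1) - 1`. -/
theorem result {F : Type*} [Field F] [Fintype F] {q : ℕ} (hq : Fintype.card F = q) (n : ℕ) (hn : 3 ≤ n)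
    {K : Type*} [Field K] (hK : ringChar K ≠ ringChar F) {d : ℕ}
    (ρ : Matrix.SpecialLinearGroup (Fin n) F →* GL (Fin d) K) (hker : ρ.ker ≤ Subgroup.center (Matrix.SpecialLinearGroup (Fin n) F)) :
    q ^ (n - 1) - 1 ≤ d := by
  classical
  obtain ⟨L, _, _, ψ, hψ⟩ := H1.exists_psi_ext F K hK
  let e := Matrix.SpecialLinearGroup.toLin'_equiv (n := Fin n) (R := F)
  let τ : GL (Fin d) K →* Module.End L (Fin d → L) :=
    (Matrix.toLinAlgEquiv' (R := L) (n := Fin d)).toMonoidHom.comp
      ((algebraMap K L).mapMatrix.toMonoidHom.comp (Units.coeHom _))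
  have hτ : ∀ g, τ g = 1 → g = 1 := by
    intro g hg
    have h1 : (algebraMap K L).mapMatrix (g : Matrix (Fin d) (Fin d) K) = 1 :=
      (Matrix.toLinAlgEquiv' (R := L) (n := Fin d)).injective (by rw [map_one]; exact hg)
    ext i j
    have h2 := congrFun (congrFun h1 i) j
    apply (algebraMap K L).injective
    simp only [RingHom.mapMatrix_apply, Matrix.map_apply] at h2
    rw [h2]
    by_cases h : i = j <;> simp [Matrix.one_apply, h]
  let ρ' : SpecialLinearGroup F (Fin n → F) →* Module.End L (Fin d → L) :=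
    τ.comp (ρ.comp e.symm.toMonoidHom)
  have hE : Module.finrank F (Fin n → F) = n := by simp
  let i0 : Fin n := ⟨0, by omega⟩
  let i1 : Fin n := ⟨1, by omega⟩
  have h01 : i0 ≠ i1 := by simp [i0, i1]
  let w : Fin n → F := Pi.single i0 1
  let w' : Fin n → F := Pi.single i1 1
  let f : Module.Dual F (Fin n → F) := LinearMap.proj i1
  let f' : Module.Dual F (Fin n → F) := LinearMap.proj i0
  have hf : f w = 0 := by simp [f, w, h01.symm]
  have hf' : f' w' = 0 := by simp [f', w', h01]
  have hw : w ≠ 0 := by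
    intro h
    simpa [w] using congrFun h i0
  have hne : ρ' (H1.tv w f) ≠ 1 := by
    intro h
    have h1 : e.symm (H1.tv w f) ∈ ρ.ker := hτ _ h
    have h2 := Subgroup.mem_center_iff.mp (hker h1) (e.symm (H1.tv w' f'))
    rw [← map_mul, ← map_mul, e.symm.injective.eq_iff] at h2
    have h3 := congrArg (fun g => H1.slAct g w i0) h2
    simp only [H1.act_mul_apply, H1.tv_apply hf, H1.tv_apply hf'] at h3
    simp [f, f', w, w', h01, h01.symm] at h3
  obtain ⟨y, hy, hb⟩ := H1.exists_Ws_ne_bot ρ' hψ hf hne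
  have := H1.mul_le_finrank_of_Ws ρ' hψ hw (m := 1) (fun y' hy' => by
    refine le_trans ?_ (H1.finrank_Ws_le (by omega) ρ' ψ hy hy' hw hw)
    rw [Nat.one_le_iff_ne_zero]
    intro h0
    exact hb (Submodule.finrank_eq_zero.mp h0))
  simpa [hE, hq] using this

end Cfsg.Agent.S2392
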