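import Cfsg.Statements.S2393
import Cfsg.Agent.H1.SpEta

set_option autoImplicit false
open scoped MatrixGroups
open Cfsg

namespace Cfsg.Agent.S2393

/-- A lower bound for representations in cross characteristic: for `n ≥ 2` and a field `F` with `q` elements, `q` odd, every homomorphism from the symplectic group `Sp_{2n}(F)` to `GL_d(K)`, `K` a field of characteristic different from that of `F`, whose kernel is central has `d ≥ q^(n-1)(q-1)/2`. -/
theorem result {F : Type*} [Field F] [Fintype F] {q : ℕ} (hq : Fintype.card F = q) (hodd : Odd q) (n : ℕ) (hn : 2 ≤ n)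
    {K : Type*} [Field K] (hK : ringChar K ≠ ringChar F) {d : ℕ}
    (ρ : ↥(Matrix.symplecticGroup (Fin n) F) →* GL (Fin d) K) (hker : ρ.ker ≤ Subgroup.center ↥(Matrix.symplecticGroup (Fin n) F)) :
    q ^ (n - 1) * (q - 1) / 2 ≤ d := by
  classical
  obtain ⟨L, _, _, ψ, hψ⟩ := H1.exists_psi_ext F K hK
  obtain ⟨τ, hτ⟩ := H1.exists_base_change K L d
  let e := (H5.spEquiv n F).symm
  have hB := H5.isSp_std (F := F) n
  have h2 : (2 : F) ≠ 0 := by
    intro h
    have h1 : ringChar F = 2 := by
      have := (ringChar.spec F 2).mp (by exact_mod_cast h)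
      exact (Nat.prime_dvd_prime_iff_eq (CharP.char_is_prime F _) Nat.prime_two).mp this
    have := (FiniteField.even_card_iff_char_two (F := F)).mp h1
    rw [hq] at this
    exact absurd this (by have := Nat.odd_iff.mp hodd; omega)
  obtain ⟨x, -, y, -, hxy⟩ := H1.exists_pair_perp hB ⊥
    (by rw [H5.finrank_std_sp, finrank_bot]; omega) 1
  have hne : (τ.comp (ρ.comp e.toMonoidHom)) (hB.transv x 1) ≠ 1 := by
    intro h
    have h1 : e (hB.transv x 1) ∈ ρ.ker := hτ _ h
    have h2 := Subgroup.mem_center_iff.mp (hker h1) (e (hB.transv y 1))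
    rw [← map_mul, ← map_mul, e.injective.eq_iff] at h2
    have h3 := congrArg (fun g => H5.stdSp n F (H1.isoAct _ g x) y) h2
    simp only [H1.act_mul_apply, H1.tr_apply] at h3
    simp [hB.alt, hB.skew y x, hxy] at h3
  have := H1.sp_bound_one hB h2 _ hψ hne (H5.finrank_std_sp n)
  simp only [Module.finrank_fin_fun, hq] at this
  refine Nat.div_le_of_le_mul (le_trans ?_ this)
  obtain ⟨m, rfl⟩ : ∃ m, n = m + 1 := ⟨n - 1, by omega⟩
  have : 1 ≤ q ^ m := Nat.one_le_pow _ _ (hq ▸ Fintype.card_pos)
  rw [Nat.add_sub_cancel, Nat.mul_sub_one, pow_succ]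
  omega

end Cfsg.Agent.S2393
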