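import Cfsg.Statements.S2394
import Cfsg.Agent.H5.Sp
import Cfsg.Agent.H5.GLCard

set_option autoImplicit false
open scoped MatrixGroups
open Cfsg

namespace Cfsg.Agent.S2394

/-- The smallest degree of a faithful representation of the symplectic group `Sp_{2n}(q)` over its own field `F_q` is `2n`: every injective homomorphism from `Sp_{2n}(F)` to `GL_d(F)`, `F` the field with `q` elements, has `d ≥ 2n`. -/
theorem result {F : Type*} [Field F] [Fintype F] (n : ℕ) {d : ℕ}
    (ρ : ↥(Matrix.symplecticGroup (Fin n) F) →* GL (Fin d) F) (hρ : Function.Injective ρ) : 2 * n ≤ d := by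
  by_contra hlt
  push Not at hlt
  have hdvd := Subgroup.card_dvd_of_injective ρ hρ
  rw [H5.card_sp, H5.card_GL_prod] at hdvd
  set q := Fintype.card F with hqdef
  have hq : 2 ≤ q := Fintype.one_lt_card
  obtain ⟨m, rfl⟩ : ∃ m, n = m + 1 := ⟨n - 1, by omega⟩
  rcases Nat.eq_zero_or_pos m with rfl | hm
  · have h1 : q ∣ (∏ i ∈ Finset.range d, q ^ i) * ∏ i ∈ Finset.range d, (q ^ (i + 1) - 1) :=
      (Dvd.intro (q ^ 2 - 1) (by simp)).trans hdvd
    have : d = 0 ∨ d = 1 := by omega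
    rcases this with rfl | rfl
    · simp at h1; omega
    · have h1' : q ∣ q - 1 := by simpa only [Finset.prod_range_one, pow_zero, one_mul, zero_add, pow_one] using h1
      have := Nat.le_of_dvd (by omega) h1'
      omega
  have h1 : ∏ i ∈ Finset.range d, (q ^ (i + 1) - 1) ∣
      ∏ i ∈ Finset.range (2 * m + 1), (q ^ (i + 1) - 1) :=
    Finset.prod_dvd_prod_of_subset _ _ _ (Finset.range_mono (by omega))
  have h2 : ∀ k, ∏ i ∈ Finset.range (2 * k + 1), (q ^ (i + 1) - 1) =
      (∏ i ∈ Finset.range k, (q ^ (2 * (i + 1)) - 1)) *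
        ∏ i ∈ Finset.range (k + 1), (q ^ (2 * i + 1) - 1) := by
    intro k
    induction k with
    | zero => simp
    | succ k ih =>
      rw [show 2 * (k + 1) + 1 = 2 * k + 1 + 1 + 1 by ring, Finset.prod_range_succ,
        Finset.prod_range_succ, ih, Finset.prod_range_succ (fun i => q ^ (2 * (i + 1)) - 1) k,
        Finset.prod_range_succ (fun i => q ^ (2 * i + 1) - 1) (k + 1),
        show 2 * k + 1 + 1 + 1 = 2 * (k + 1) + 1 by ring, show 2 * k + 1 + 1 = 2 * (k + 1) by ring]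
      ring
  have h3 := (Dvd.intro_left _ rfl).trans (hdvd.trans (Nat.mul_dvd_mul_left _ h1))
  rw [h2, Finset.prod_range_succ, mul_left_comm] at h3
  have hpos : 0 < ∏ i ∈ Finset.range m, (q ^ (2 * (i + 1)) - 1) := by
    apply Finset.prod_pos
    intro i _
    have : 1 < q ^ (2 * (i + 1)) := Nat.one_lt_pow (by omega) hq
    omega
  have h4 := Nat.dvd_of_mul_dvd_mul_left hpos h3
  obtain ⟨r, hr, hr2, hrd⟩ := H5.exists_odd_prime_dvd_pow_add_one hq (show 2 ≤ m + 1 by omega)
  have h5 : r ∣ q ^ (2 * (m + 1)) - 1 := by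
    rw [mul_comm, pow_mul]
    exact hrd.trans (Dvd.intro _ (Nat.sq_sub_sq (q ^ (m + 1)) 1).symm)
  have := Fact.mk hr
  have h6 : ((q : ZMod r)) ^ (m + 1) = -1 := by
    have := (ZMod.natCast_eq_zero_iff _ _).2 hrd
    push_cast at this
    exact eq_neg_of_add_eq_zero_left this
  have h12 : (1 : ZMod r) ≠ -1 := by
    intro h
    have : ((2 : ℕ) : ZMod r) = 0 := by push_cast; linear_combination h
    exact hr2 ((Nat.prime_dvd_prime_iff_eq hr Nat.prime_two).1 ((ZMod.natCast_eq_zero_iff _ _).1 this))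
  rcases (Nat.Prime.dvd_mul hr).1 (h5.trans h4) with h | h
  · obtain ⟨i, -, hi⟩ := (Prime.dvd_finsetProd_iff hr.prime _).1 h
    have := (ZMod.natCast_eq_zero_iff _ _).2 (hr.dvd_of_dvd_pow hi)
    rw [this] at h6
    simp at h6
  · obtain ⟨i, -, hi⟩ := (Prime.dvd_finsetProd_iff hr.prime _).1 h
    have := (ZMod.natCast_eq_zero_iff _ _).2 hi
    rw [Nat.cast_sub (Nat.one_le_pow _ _ (by omega))] at this
    push_cast at this
    apply h12
    calc (1 : ZMod r) = ((q : ZMod r) ^ (2 * i + 1)) ^ (m + 1) := by rw [sub_eq_zero.1 this, one_pow]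
      _ = ((q : ZMod r) ^ (m + 1)) ^ (2 * i + 1) := by rw [← pow_mul, ← pow_mul, mul_comm]
      _ = -1 := by rw [h6]; exact Odd.neg_one_pow ⟨i, rfl⟩

end Cfsg.Agent.S2394
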