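import Cfsg.Statements.S2399
import Cfsg.Agent.H8.CoverAll
import Cfsg.Agent.H8.LiftP
import Cfsg.Agent.H7.ChainTables

set_option autoImplicit false
open scoped MatrixGroups
open Cfsg

namespace Cfsg.Agent.S2399

/-- Projective representations in the natural characteristic lift: for each of the types G₂, B₂, D₄, F₄, E₆, E₇, E₈ over any field `K` (for types B₂ and G₂ the field must have more than two elements — the cases where the Chevalley group is not simple are set aside), every homomorphism from the Chevalley group to `PGL_n(L) = GL_n(L)/Z`, `L` a field of the same characteristic as `K`, lifts uniquely to a homomorphism from the group Δ presented by (R1), (R2) to `GL_n(L)`, compatibly with the projection Δ → Chevalley group sending x̄_r(t) to x_r(t). -/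
theorem result {K : Type*} [Field K] (D : Cfsg.Lie.ChevalleyDatum) (hD : D ∈ [Cfsg.Lie.chevG2, Cfsg.Lie.chevB2, Cfsg.Lie.chevD4, Cfsg.Lie.chevF4, Cfsg.Lie.chevE6, Cfsg.Lie.chevE7, Cfsg.Lie.chevE8]) (hK : D ∈ [Cfsg.Lie.chevB2, Cfsg.Lie.chevG2] → ∃ x : K, x ≠ 0 ∧ x ≠ 1)
    (θ : D.SteinbergCover K →* ↥(D.group K))
    (hθ : ∀ (r : ℕ) (t : K), r < D.nroots → ((θ (D.scGen K r t) : GL D.Idx K) : Matrix D.Idx D.Idx K) = D.x K r t)
    {L : Type*} [Field L] (hL : ringChar L = ringChar K) {n : ℕ}
    (φ : ↥(D.group K) →* GL (Fin n) L ⧸ Subgroup.center (GL (Fin n) L)) :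
    ∃! ψ : D.SteinbergCover K →* GL (Fin n) L, (QuotientGroup.mk' (Subgroup.center (GL (Fin n) L))).comp ψ = φ.comp θ := by
  have := H8.rootFacts_of_mem hD
  have := H8.nFacts_of_mem hD
  have := H7.matFacts_of_mem hD
  have := H7.chainFacts_of_mem hD
  have hp := H8.commutator_eq_top (H8.XS_scGen_top D K) (H8.perfect_of_mem hD hK (H8.isSt_scGen D K))
  by_cases hK5 : ∃ s : Finset K, 4 < s.card
  · exact H8.exists_unique_lift hp
      (fun Γ _ π h1 h2 => H8.lift_of_mem_large hD hK5 h1 h2 (H8.isSt_scGen D K) H8.faithful_scGen) _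
      (QuotientGroup.mk'_surjective _) (QuotientGroup.ker_mk' _).le _
  · have : Finite K := by
      by_contra h
      have := not_finite_iff_infinite.1 h
      obtain ⟨s, hs⟩ := Infinite.exists_subset_card_eq K 5
      exact hK5 ⟨s, by omega⟩
    have := Fintype.ofFinite K
    have : Fact (ringChar K).Prime := ⟨CharP.char_is_prime K _⟩
    have : CharP L (ringChar K) := hL ▸ ringChar.charP L
    have hx := H8.isChev_xg (D := D) (K := K)
    obtain ⟨y, hy, h1⟩ := H8.exists_proj_lift (ringChar K) hx.toIsSt hx.top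
      (H8.commutator_eq_top H8.GG_xg (H8.perfect_of_mem hD hK hx.toIsSt)) φ
    obtain ⟨ψ, hψ⟩ := hy.exists_lift
    have h2 : (QuotientGroup.mk' (Subgroup.center (GL (Fin n) L))).comp ψ = φ.comp θ :=
      H8.hom_ext_XS (H8.XS_scGen_top D K) fun r _ t => by
        rw [MonoidHom.comp_apply, MonoidHom.comp_apply, hψ, h1]
        by_cases hr : r < D.nroots
        · rw [H7.eq_xg_iff.1 (hθ r t hr)]
        · rw [hx.out r (not_lt.1 hr), (H8.isSt_scGen D K).out r (not_lt.1 hr), map_one, map_one, map_one]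
    exact ⟨ψ, h2, fun ψ' h => H8.hom_eq_of_perfect hp (QuotientGroup.ker_mk' _).le (h.trans h2.symm)⟩

end Cfsg.Agent.S2399
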