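import Cfsg.Statements.S2400
import Cfsg.Agent.H8.CoverSmall
import Cfsg.Agent.H8.LiftTabE6
import Cfsg.Agent.H8.LiftTabE7
import Cfsg.Agent.H8.NTabD4
import Cfsg.Agent.H8.NTabE6
import Cfsg.Agent.H8.NTabE7
import Cfsg.Agent.H7.ChainB2
import Cfsg.Agent.H7.ChainD4
import Cfsg.Agent.H7.ChainE6
import Cfsg.Agent.H7.ChainE7

set_option autoImplicit false
open Cfsg

namespace Cfsg.Agent.S2400

/-- Over a finite field `K`, the group presented by Steinberg's relators (R1)–(R3) (the universal Chevalley group) of type E₆ or E₇, or of type B₂ or D₄ with `K` of more than two elements, has trivial Schur multiplier: every finite stem extension of it is an isomorphism (Schur multiplier described through stem extensions as in the definitions). Types G₂, F₄ and E₈ are not covered here. -/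
theorem result {K : Type*} [Field K] [Fintype K] (e : Cfsg.Lie.ChevalleyDatum × ℕ)
    (he : e ∈ [(Cfsg.Lie.chevE6, 0), (Cfsg.Lie.chevE7, 0), (Cfsg.Lie.chevB2, 2), (Cfsg.Lie.chevD4, 2)]) (hK : Fintype.card K ≠ e.2) :
    Cfsg.HasCyclicSchurMultiplier (e.1.SteinbergGroup K) 1 := by
  have h3 : Fintype.card K ≠ 2 → ∃ v : K, v ≠ 0 ∧ v ≠ 1 := fun h => by
    by_contra h1
    push Not at h1
    classical
    refine h (Finset.card_eq_two.2 ⟨0, 1, zero_ne_one, ?_⟩)
    ext v; by_cases hv : v = 0 <;> simp [hv, h1 v]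
  simp only [List.mem_cons, List.not_mem_nil, or_false] at he
  rcases he with rfl | rfl | rfl | rfl
  · exact H8.hasSchur_one_stGen fun Γ _ π h1 h2 => H8.lift_of_rich h1 h2 (H8.isSt_stGen _ K) H8.faithful_stGen
  · exact H8.hasSchur_one_stGen fun Γ _ π h1 h2 => H8.lift_of_rich h1 h2 (H8.isSt_stGen _ K) H8.faithful_stGen
  · exact H8.hasSchur_one_stGen fun Γ _ π h1 h2 => H8.lift_B2 h1 h2 (H8.isSt_stGen _ K) H8.faithful_stGen (h3 hK)
  · exact H8.hasSchur_one_stGen fun Γ _ π h1 h2 => H8.lift_of_small h1 h2 (H8.isSt_stGen _ K) H8.faithful_stGen (h3 hK)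

end Cfsg.Agent.S2400
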