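import Cfsg.Statements.S2401
import Cfsg.Agent.H6.St2

set_option autoImplicit false
open Cfsg

namespace Cfsg.Agent.S2401

/-- The Steinberg presentation of `SL_n` over a finite field for `n ≥ 3`: the group generated by symbols `x_ij(t)` (`i ≠ j`, `t` in the field) subject to `x_ij(t) x_ij(u) = x_ij(t + u)` and, for `i ≠ l`, `x_ij(t) x_kl(u) x_ij(t)⁻¹ x_kl(u)⁻¹ = x_il(tu)` if `j = k` and `= 1` if `j ≠ k`, is isomorphic to `SL_n` by an isomorphism sending `x_ij(t)` to the elementary matrix `1 + t E_ij`. -/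
theorem result {K : Type*} [Field K] [Finite K] (n : ℕ) (hn : 3 ≤ n) :
    ∃ e : PresentedGroup
        ({g : FreeGroup ({ij : Fin n × Fin n // ij.1 ≠ ij.2} × K) | ∃ (a : {ij : Fin n × Fin n // ij.1 ≠ ij.2}) (t u : K),
            g = FreeGroup.of (a, t) * FreeGroup.of (a, u) * (FreeGroup.of (a, t + u))⁻¹} ∪
          {g | ∃ (a b : {ij : Fin n × Fin n // ij.1 ≠ ij.2}) (t u : K), a.1.1 ≠ b.1.2 ∧ a.1.2 ≠ b.1.1 ∧
            g = FreeGroup.of (a, t) * FreeGroup.of (b, u) * (FreeGroup.of (a, t))⁻¹ * (FreeGroup.of (b, u))⁻¹} ∪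
          {g | ∃ (a b : {ij : Fin n × Fin n // ij.1 ≠ ij.2}) (h : a.1.1 ≠ b.1.2) (t u : K), a.1.2 = b.1.1 ∧
            g = FreeGroup.of (a, t) * FreeGroup.of (b, u) * (FreeGroup.of (a, t))⁻¹ * (FreeGroup.of (b, u))⁻¹ *
              (FreeGroup.of (⟨(a.1.1, b.1.2), h⟩, t * u))⁻¹}) ≃* Matrix.SpecialLinearGroup (Fin n) K,
      ∀ (a : {ij : Fin n × Fin n // ij.1 ≠ ij.2}) (t : K), ((e (PresentedGroup.of (a, t)) : Matrix (Fin n) (Fin n) K)) = Matrix.transvection a.1.1 a.1.2 t := by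
  set R : Set (FreeGroup ({ij : Fin n × Fin n // ij.1 ≠ ij.2} × K)) := _ ∪ _ ∪ _ with hR
  let x : Fin n → Fin n → K → PresentedGroup R := fun i j t =>
    if h : i ≠ j then PresentedGroup.of (⟨(i, j), h⟩, t) else 1
  have hx : ∀ {i j} (h : i ≠ j) t, x i j t = PresentedGroup.of (⟨(i, j), h⟩, t) :=
    fun h t => dif_pos h
  have hrel : ∀ r ∈ R, PresentedGroup.mk R r = 1 := fun r hr => PresentedGroup.one_of_mem hr
  have H0 : H6.IsSt0 x :=
    { add := fun {i j} h t u => by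
        have := hrel _ (Or.inl (Or.inl ⟨⟨(i, j), h⟩, t, u, rfl⟩))
        rw [map_mul, map_mul, map_inv, mul_inv_eq_one] at this
        rw [hx h, hx h, hx h]; exact this.symm
      comm := fun {i j k l} hij hkl hil hjk t u => by
        have := hrel _ (Or.inl (Or.inr ⟨⟨(i, j), hij⟩, ⟨(k, l), hkl⟩, t, u, hil, hjk, rfl⟩))
        rw [map_mul, map_mul, map_mul, map_inv, map_inv, mul_inv_eq_one,
          mul_inv_eq_iff_eq_mul] at this
        rw [hx hij, hx hkl]; exact this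
      rel := fun {i j l} hij hjl hil t u => by
        have := hrel _ (Or.inr ⟨⟨(i, j), hij⟩, ⟨(j, l), hjl⟩, hil, t, u, rfl, rfl⟩)
        rw [map_mul, map_inv, mul_inv_eq_one, map_mul, map_mul, map_mul, map_inv, map_inv] at this
        rw [hx hij, hx hjl, hx hil]; exact this }
  have H : H6.IsSt x := H0.isSt fun a b => by
    have : ({a, b} : Finset (Fin n)).card < (Finset.univ : Finset (Fin n)).card :=
      lt_of_le_of_lt Finset.card_le_two (by simp; omega)
    obtain ⟨k, -, hk⟩ := Finset.exists_mem_notMem_of_card_lt_card this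
    simp only [Finset.mem_insert, Finset.mem_singleton, not_or] at hk
    exact ⟨k, Ne.symm hk.1, Ne.symm hk.2⟩
  obtain ⟨ψ, hψ⟩ := H.exists_hom
  have S := H6.isSt0_slX (K := K) (ι := Fin n)
  let f : {ij : Fin n × Fin n // ij.1 ≠ ij.2} × K → Matrix.SpecialLinearGroup (Fin n) K :=
    fun a => H6.slX K a.1.1.1 a.1.1.2 a.2
  have hf : ∀ r ∈ R, FreeGroup.lift f r = 1 := by
    rintro _ ((⟨a, t, u, rfl⟩ | ⟨a, b, t, u, h1, h2, rfl⟩) | ⟨a, b, h, t, u, h1, rfl⟩)
    · simp only [map_mul, map_inv, FreeGroup.lift_apply_of, f]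
      rw [S.add a.2, mul_inv_cancel]
    · simp only [map_mul, map_inv, FreeGroup.lift_apply_of, f]
      rw [S.conjC a.2 b.2 h1 h2, mul_inv_cancel]
    · obtain ⟨⟨i, j⟩, hij⟩ := a
      obtain ⟨⟨k, l⟩, hkl⟩ := b
      obtain rfl : j = k := h1
      simp only [map_mul, map_inv, FreeGroup.lift_apply_of, f]
      rw [S.rel hij hkl h, mul_inv_cancel]
  refine ⟨MonoidHom.toMulEquiv (PresentedGroup.toGroup hf) ψ ?_ ?_, fun a t => ?_⟩
  · apply PresentedGroup.ext
    rintro ⟨⟨⟨i, j⟩, h⟩, t⟩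
    rw [MonoidHom.comp_apply, PresentedGroup.toGroup.of, MonoidHom.id_apply]
    exact (hψ i j h t).trans (hx h t)
  · apply H6.slX_hom_ext
    intro i j h t
    rw [MonoidHom.comp_apply, hψ i j h t, hx h, PresentedGroup.toGroup.of, MonoidHom.id_apply]
  · change (PresentedGroup.toGroup hf (PresentedGroup.of (a, t))).val = _
    rw [PresentedGroup.toGroup.of]
    exact H6.slX_val a.2 t

end Cfsg.Agent.S2401
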