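import Cfsg.Statements.S2404
import Cfsg.Agent.H7.Weight2
import Cfsg.Agent.H7.All

set_option autoImplicit false
open Cfsg

namespace Cfsg.Agent.S2404

open Cfsg.Lie Cfsg.Agent.H7 Cfsg.Agent.H8

/-- Steinberg's count of semisimple classes for type E₆ when the finite simply connected group has trivial centre: over a field with `q` elements of characteristic `p` with `q ≢ 1 (mod 3)`, the simply connected group E₆(q) coincides with the Chevalley group, and the conjugacy classes of elements of order prime to `p` in the Chevalley group of type E₆ number exactly `q^6`. -/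
theorem result {F : Type*} [Field F] [Fintype F] {q : ℕ} (hq : Fintype.card F = q) (hq3 : q % 3 ≠ 1) (p : ℕ) [Fact p.Prime] [CharP F p] :
    Nat.card {c : ConjClasses ↥(Cfsg.Lie.chevE6.group F) // ∃ g : ↥(Cfsg.Lie.chevE6.group F), ConjClasses.mk g = c ∧ (orderOf g).Coprime p} = q ^ 6 := by
  have := isChev_xg.finite_G (GG_xg (D := chevE6) (F := F))
  let _ := Fintype.ofFinite (chevE6.group F)
  have h2 : Nat.Coprime 3 (Fintype.card F - 1) := by
    have := Fintype.card_pos (α := F)
    rw [Nat.prime_three.coprime_iff_not_dvd]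
    omega
  exact hq ▸ isChev_xg.card_preg GG_xg (zker_eq_bot 3 h2 [[4, 3, 5, 6, 4, 2], [3, 6, 6, 9, 6, 3], [5, 6, 10, 12, 8, 4], [6, 9, 12, 18, 12, 6], [4, 6, 8, 12, 10, 5], [2, 3, 4, 6, 5, 4]] (by decide +kernel)) p

end Cfsg.Agent.S2404
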