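import Cfsg.Statements.S2405
import Cfsg.Agent.H7.Gen2
import Cfsg.Agent.H7.All
import Cfsg.Agent.H8.TwD4
import Cfsg.Agent.H8.InvF4

set_option autoImplicit false
open Cfsg

namespace Cfsg.Agent.S2405

open Cfsg.Lie Cfsg.Agent.H7 Cfsg.Agent.H8

/-- Closure certificates. -/
def stD4 : List (ℕ × ℕ × ℕ) :=
  [(18,24,1),(14,24,18),(22,24,14),(5,24,22),(9,24,5),(21,24,10),(11,1,21),(15,24,21),(12,15,9),(13,24,15)]

/-- Closure certificates. -/
def stF4 : List (ℕ × ℕ × ℕ) := [(20,48,14),(23,48,22),(42,48,23),(30,48,42),(43,48,30),(31,48,43),(25,48,31),(24,48,25),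
  (12,48,20),(9,48,12),(19,48,9),(11,48,19),(33,48,11),(27,48,33)]

/-- Closure certificates. -/
def stE6 : List (ℕ × ℕ × ℕ) := [(28,72,8),(23,72,28),(11,72,23),(56,72,11),(42,72,56),(47,72,42),(59,72,47),(52,72,59),
  (15,8,52),(39,72,52),(37,72,39),(36,72,37),(9,8,36),(25,59,9),(29,28,39),(32,28,42),(34,23,47),(35,11,59),(46,47,32)]

/-- Closure certificates. -/
def stE7 : List (ℕ × ℕ × ℕ) := [(39,126,28),(56,126,39),(59,126,56),(61,126,59),(62,126,61),(102,126,62),(74,126,102),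
  (80,126,74),(97,126,80),(86,126,97),(69,126,86),(66,126,69),(64,126,66),(63,126,64),(23,126,63),(32,86,23),(98,97,63),
  (47,23,98),(51,126,23),(52,69,51),(73,56,74),(27,28,62),(78,102,27),(93,39,102)]

/-- Closure certificates. -/
def stE8 : List (ℕ × ℕ × ℕ) := [(88,240,72),(109,240,88),(113,240,109),(116,240,113),(118,240,116),(119,240,118),
  (173,240,119),(136,240,173),(143,240,136),(166,240,143),(150,240,166),(177,240,150),(137,240,177),(144,240,137),
  (167,240,144),(151,240,167),(130,240,151),(126,240,130),(123,240,126),(121,240,123),(120,240,121),(66,240,120),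
  (77,151,66),(168,167,120),(98,66,168),(103,240,66),(104,130,103),(135,109,136),(71,72,119),(141,173,71),(162,88,173)]

/-- Each Chevalley group of type G₂, B₂, D₄, F₄, E₆, E₇ or E₈ over a finite field is generated by two of its elements (types B₂ and G₂ over the field with two elements, where the group is not simple, excepted). -/
theorem result {F : Type*} [Field F] [Finite F] (D : Cfsg.Lie.ChevalleyDatum) (hD : D ∈ [Cfsg.Lie.chevG2, Cfsg.Lie.chevB2, Cfsg.Lie.chevD4, Cfsg.Lie.chevF4, Cfsg.Lie.chevE6, Cfsg.Lie.chevE7, Cfsg.Lie.chevE8])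
    (hF : D ∈ [Cfsg.Lie.chevB2, Cfsg.Lie.chevG2] → ∃ x : F, x ≠ 0 ∧ x ≠ 1) :
    ∃ a b : ↥(D.group F), Subgroup.closure ({a, b} : Set ↥(D.group F)) = ⊤ := by
  have h1 : ∀ N ∈ [(1 : ℤ), -1], (N : F) ≠ 0 := by simp
  simp only [List.mem_cons, List.not_mem_nil, or_false] at hD
  by_cases hK : ∃ t : F, t ≠ 0 ∧ t ≠ 1
  · obtain ⟨θ, hθ⟩ := exists_primE hK
    rcases hD with rfl | rfl | rfl | rfl | rfl | rfl | rfl
    · exact gen_two H7.isChev_xg H7.GG_xg hθ (List.finRange _) 5 7 3 0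
        [(9,12,7),(8,12,9),(4,12,8),(10,12,5),(11,12,10),(6,12,11)] (by decide +kernel)
    · by_cases h2 : (2 : F) = 0
      · have : CharP F 2 := (CharP.charP_iff_prime_eq_zero Nat.prime_two).2 h2
        obtain ⟨θ, hθ⟩ := hθ.two
        exact gen_two H7.isChev_xg H7.GG_xg hθ (List.finRange _) 3 5 1 1 [(6,8,5),(2,8,6),(7,8,3),(4,8,7)] (by decide +kernel)
      · exact gen_one (Ns := [1, -1, 2, -2]) H7.isChev_xg H7.GG_xg hθ (by simpa using h2) (List.finRange _) 1 0
          [(5,8,1),(6,8,5),(2,8,6),(3,1,5),(4,6,2)] (by decide +kernel)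
    · exact gen_two H7.isChev_xg H7.GG_xg hθ (List.finRange _) 10 1 9 4 stD4 (by decide +kernel)
    · exact gen_two H7.isChev_xg H7.GG_xg hθ (List.finRange _) 14 22 16 17 stF4 (by decide +kernel)
    · exact gen_one H7.isChev_xg H7.GG_xg hθ h1 (List.finRange _) 8 3 stE6 (by decide +kernel)
    · exact gen_one H7.isChev_xg H7.GG_xg hθ h1 (List.finRange _) 28 10 stE7 (by decide +kernel)
    · exact gen_one H7.isChev_xg H7.GG_xg hθ h1 (List.finRange _) 72 8 stE8 (by decide +kernel)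
  have h2 : ∀ t : F, t = 0 ∨ t = 1 := fun t => by_contra fun h => hK ⟨t, not_or.1 h⟩
  have h3 : ∀ t : F, ∃ k : ℕ, t = k := fun t => (h2 t).elim (fun e => ⟨0, by simp [e]⟩) fun e => ⟨1, by simp [e]⟩
  have : CharP F 2 := (CharP.charP_iff_prime_eq_zero Nat.prime_two).2 ((h2 (-1)).elim (by simp) fun e => by
    linear_combination -e)
  rcases hD with rfl | rfl | rfl | rfl | rfl | rfl | rfl
  · exact (hK (hF (by simp))).elim
  · exact (hK (hF (by simp))).elim
  · exact gen_mask agrD4 H7.isChev_xg H7.GG_xg h3 (List.finRange _) 1 10 6 [1,8,15] [] [(18,24,1),(6,1,18)] stD4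
      (by decide +kernel)
  · exact gen_mask agrF4 H7.isChev_xg H7.GG_xg h3 (List.finRange _) 22 14 30 [22,10,37] [6,30] [(23,48,22),(42,48,23),
      (30,48,42),(43,48,30),(31,48,43),(25,48,31),(24,48,25),(5,48,24),(6,24,5)] stF4 (by decide +kernel)
  · exact gen_prime H7.isChev_xg.toIsSt H7.GG_xg h3 h1 (List.finRange _) 8 stE6 (by decide +kernel)
  · exact gen_prime H7.isChev_xg.toIsSt H7.GG_xg h3 h1 (List.finRange _) 28 stE7 (by decide +kernel)
  · exact gen_prime H7.isChev_xg.toIsSt H7.GG_xg h3 h1 (List.finRange _) 72 stE8 (by decide +kernel)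

end Cfsg.Agent.S2405
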