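import Cfsg.Statements.S2407
import Cfsg.Agent.H7.Gen2Tw

set_option autoImplicit false
open Cfsg

namespace Cfsg.Agent.S2407

open Cfsg.Lie Cfsg.Agent.H7 Cfsg.Agent.H8

/-- The twisted group ³D₄(q) (realised inside D₄ over the field with `q³` elements) is generated by two of its elements. -/
theorem result {K : Type*} [Field K] [Fintype K] {q : ℕ} (hq : IsPrimePow q) (hK : Fintype.card K = q ^ 3) :
    ∃ a b : ↥(Cfsg.Lie.twistedD4 K q), Subgroup.closure ({a, b} : Set ↥(Cfsg.Lie.twistedD4 K q)) = ⊤ := by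
  obtain ⟨f, hf⟩ := exists_frob hK three_ne_zero
  refine two_gen_of (twEquiv (d4Words K q)) (genD4 H7.isChev_xg H7.GG_xg (frobG_xg f) hf (fun t => ?_) ?_)
  · rw [hf, hf, hf, ← pow_mul, ← pow_mul, ← pow_three, ← hK, FiniteField.pow_card]
  · simpa only [hf] using exists_pow_ne hq.one_lt (hK ▸ lt_self_pow₀ hq.one_lt (by decide))

end Cfsg.Agent.S2407
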