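import Cfsg.Statements.S2408
import Cfsg.Agent.H7.Gen2Ree

set_option autoImplicit false
open Cfsg

namespace Cfsg.Agent.S2408

open Cfsg.Lie Cfsg.Agent.H7 Cfsg.Agent.H8

/-- The large Ree group ²F₄(2^(2m+1)) with `m ≥ 1` is generated by two of its elements. -/
theorem result {K : Type*} [Field K] [Fintype K] {m : ℕ} (hm : 1 ≤ m) (hK : Fintype.card K = 2 ^ (2 * m + 1)) :
    ∃ a b : ↥(Cfsg.Lie.twistedF4 K (2 ^ m)), Subgroup.closure ({a, b} : Set ↥(Cfsg.Lie.twistedF4 K (2 ^ m))) = ⊤ := by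
  have : CharP K 2 := charP_of_card_eq_prime_pow hK
  have hφ : ∀ t : K, iterateFrobenius K 2 m t = t ^ 2 ^ m := fun _ => rfl
  refine two_gen_of (twEquiv (f4Words K _)) (genF4 H7.isChev_xg H7.GG_xg hφ (fun t => ?_) ?_)
  · rw [hφ, hφ, ← pow_mul, ← pow_mul, ← pow_succ, ← pow_add, ← add_assoc, ← two_mul, ← hK, FiniteField.pow_card]
  · obtain ⟨t, ht⟩ := exists_pow_ne (K := K) one_lt_two (hK ▸ lt_self_pow₀ one_lt_two (by omega))
    exact ⟨t, by rintro rfl; simp at ht, by rintro rfl; simp at ht⟩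

end Cfsg.Agent.S2408
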