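import Cfsg.Statements.S2416
import Cfsg.Agent.H7.Misc
import Cfsg.Agent.H7.All

set_option autoImplicit false
open scoped MatrixGroups
open Cfsg

namespace Cfsg.Agent.S2416

open Cfsg.Lie Cfsg.Agent.H7 Cfsg.Agent.H8

/-- A Chevalley group of type G₂, B₂, D₄, F₄, E₆, E₇ or E₈ over a finite field lies in (indeed equals) the subgroup generated by its monomial subgroup `N` and a single fundamental root subgroup `X_p`, where `p` is a short fundamental root if there are two root lengths (any fundamental root otherwise), provided the characteristic is not 2 for types B₂, F₄ and not 3 for type G₂ (and the field has more than two elements for B₂, G₂). -/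
theorem result {K : Type*} [Field K] [Finite K] (D : Cfsg.Lie.ChevalleyDatum) (hD : D ∈ [Cfsg.Lie.chevG2, Cfsg.Lie.chevB2, Cfsg.Lie.chevD4, Cfsg.Lie.chevF4, Cfsg.Lie.chevE6, Cfsg.Lie.chevE7, Cfsg.Lie.chevE8])
    (hK : D ∈ [Cfsg.Lie.chevB2, Cfsg.Lie.chevG2] → ∃ x : K, x ≠ 0 ∧ x ≠ 1)
    (h2 : D ∈ [Cfsg.Lie.chevB2, Cfsg.Lie.chevF4] → ringChar K ≠ 2) (h3 : D = Cfsg.Lie.chevG2 → ringChar K ≠ 3)
    (i : ℕ) (hi : i < D.rank) (hshort : D.isLong (D.simple i) = false) :
    D.group K ≤ D.monomialSubgroup K ⊔ D.rootSubgroup K (D.simple i) := by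
  obtain ⟨_, _, _, _, _⟩ := facts_of_mem hD
  rw [← GG_xu, ← NN_xu, ← XS_single_xu]
  refine GG_le_of_short isSt_xu le_sup_left (i := ⟨i, hi⟩) hshort
    (fun t => Subgroup.mem_sup_right (x_mem_XS (S := {D.simple i}) rfl t)) fun a b hab => Or.inl ?_
  have key : ∀ n : ℕ, n.Prime → ringChar K ≠ n → ((-(n : ℤ) : ℤ) : K) ≠ 0 := fun n hn h h0 => by
    have h1 : (n : K) = 0 := by simpa using h0
    rcases (Nat.dvd_prime hn).1 ((ringChar.spec K n).1 h1) with h2 | h2
    · exact CharP.ringChar_ne_one h2
    · exact h h2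
  simp only [List.mem_cons, List.not_mem_nil, or_false] at hD
  rcases hD with rfl | rfl | rfl | rfl | rfl | rfl | rfl
  · rw [show chevG2.cartan b (chevG2.simple a) = -(3 : ℕ) by revert a b; decide +kernel]
    exact key 3 Nat.prime_three (h3 rfl)
  · rw [show chevB2.cartan b (chevB2.simple a) = -(2 : ℕ) by revert a b; decide +kernel]
    exact key 2 Nat.prime_two (h2 (by simp))
  · exact absurd hab (by revert a b; decide +kernel)
  · rw [show chevF4.cartan b (chevF4.simple a) = -(2 : ℕ) by revert a b; decide +kernel]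
    exact key 2 Nat.prime_two (h2 (by simp))
  · exact absurd hab (by revert a b; decide +kernel)
  · exact absurd hab (by revert a b; decide +kernel)
  · exact absurd hab (by revert a b; decide +kernel)

end Cfsg.Agent.S2416
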