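import Cfsg.Statements.S2417
import Cfsg.Agent.H7.Misc
import Cfsg.Agent.H7.All

set_option autoImplicit false
open scoped MatrixGroups
open Cfsg

namespace Cfsg.Agent.S2417

open Cfsg.Lie Cfsg.Agent.H7 Cfsg.Agent.H8

/-- In the characteristics with an exceptional graph symmetry — type B₂ or F₄ in characteristic 2 (field of more than two elements for B₂) and type G₂ in characteristic 3 — the Chevalley group lies in the subgroup generated by its monomial subgroup `N` and the two fundamental root subgroups `X_a`, `X_b` of a short root `a` and a long root `b` joined in the Dynkin diagram. -/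
theorem result {K : Type*} [Field K] [Finite K] (e : Cfsg.Lie.ChevalleyDatum × ℕ)
    (he : e ∈ [(Cfsg.Lie.chevB2, 2), (Cfsg.Lie.chevF4, 2), (Cfsg.Lie.chevG2, 3)]) [CharP K e.2]
    (hK : e.1 = Cfsg.Lie.chevB2 → ∃ x : K, x ≠ 0 ∧ x ≠ 1)
    (i j : ℕ) (hi : i < e.1.rank) (hj : j < e.1.rank) (hshort : e.1.isLong (e.1.simple i) = false)
    (hlong : e.1.isLong (e.1.simple j) = true) (hbond : e.1.bonds i j ≠ 0) :
    e.1.group K ≤ e.1.monomialSubgroup K ⊔ e.1.rootSubgroup K (e.1.simple i) ⊔ e.1.rootSubgroup K (e.1.simple j) := by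
  obtain ⟨D, n⟩ := e
  have hD : D ∈ [chevG2, chevB2, chevD4, chevF4, chevE6, chevE7, chevE8] := by
    simp only [List.mem_cons, List.not_mem_nil, or_false, Prod.mk.injEq] at he
    rcases he with ⟨rfl, -⟩ | ⟨rfl, -⟩ | ⟨rfl, -⟩ <;> simp
  obtain ⟨_, _, _, _, _⟩ := facts_of_mem hD
  simp only at hi hj hshort hlong hbond ⊢
  rw [← GG_xu, ← NN_xu, ← XS_single_xu, ← XS_single_xu]
  refine GG_le_of_short isSt_xu (le_sup_left.trans le_sup_left) (i := ⟨i, hi⟩) hshort
    (fun t => Subgroup.mem_sup_left (Subgroup.mem_sup_right (x_mem_XS (S := {D.simple i}) rfl t))) fun a b hab => Or.inr ?_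
  have key : ∀ i j a b : Fin D.rank, D.isLong (D.simple i) = false → D.isLong (D.simple j) = true → D.bonds i j ≠ 0 →
      D.cartan b (D.simple a) ≤ -2 → a = j := by
    simp only [List.mem_cons, List.not_mem_nil, or_false, Prod.mk.injEq] at he
    rcases he with ⟨rfl, -⟩ | ⟨rfl, -⟩ | ⟨rfl, -⟩ <;> decide +kernel
  rw [key ⟨i, hi⟩ ⟨j, hj⟩ a b hshort hlong hbond hab]
  exact fun t => Subgroup.mem_sup_right (x_mem_XS (S := {D.simple j}) rfl t)

end Cfsg.Agent.S2417
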