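import Cfsg.Statements.S2419
import Cfsg.Agent.H7.Cox

set_option autoImplicit false
open Cfsg

namespace Cfsg.Agent.S2419

open Cfsg.Lie Cfsg.Agent.H7 Cfsg.Agent.H8

theorem two (M : CoxeterMatrix (Fin 2)) :
    ∃ T : Finset M.Group, T.card = 1 ∧ (∀ t ∈ T, ∃ (g : M.Group) (i : Fin 2), t = g * M.simple i * g⁻¹) ∧
      Subgroup.closure (({((List.finRange 2).map M.simple).prod} : Set M.Group) ∪ ↑T) = ⊤ := by
  refine ⟨{M.simple 0}, rfl, fun t ht => ⟨1, 0, by simpa using ht⟩, ?_⟩
  rw [eq_top_iff, ← M.toCoxeterSystem.subgroup_closure_range_simple, Subgroup.closure_le]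
  have h0 : M.simple 0 ∈ Subgroup.closure (({((List.finRange 2).map M.simple).prod} : Set M.Group) ∪ ↑({M.simple 0} : Finset M.Group)) :=
    Subgroup.subset_closure (Or.inr (by simp))
  rintro _ ⟨i, rfl⟩
  fin_cases i
  · exact h0
  · have h1 := mul_mem (inv_mem h0) (Subgroup.subset_closure (Or.inl rfl))
    rwa [show ((List.finRange 2).map M.simple).prod = M.simple 0 * M.simple 1 by simp [List.finRange_succ], inv_mul_cancel_left,
      ← show ((List.finRange 2).map M.simple).prod = M.simple 0 * M.simple 1 by simp [List.finRange_succ]] at h1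

/-- The Coxeter groups of types B₂, G₂, E₆, E₇, E₈ are generated by the Coxeter element `s₁ s₂ ⋯ s_l` together with one suitable reflection (a conjugate of a simple reflection); for types D₄ and F₄ the Coxeter element together with two suitable reflections suffices. -/
theorem result (c : (Σ n : ℕ, CoxeterMatrix (Fin n)) × ℕ)
    (hc : c ∈ [(⟨2, CoxeterMatrix.B 2⟩, 1), (⟨2, CoxeterMatrix.G₂⟩, 1), (⟨4, Cfsg.Lie.coxeterD4⟩, 2), (⟨4, CoxeterMatrix.F₄⟩, 2),
      (⟨6, CoxeterMatrix.E₆⟩, 1), (⟨7, CoxeterMatrix.E₇⟩, 1), (⟨8, CoxeterMatrix.E₈⟩, 1)]) :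
    ∃ T : Finset c.1.2.Group, T.card = c.2 ∧ (∀ t ∈ T, ∃ (g : c.1.2.Group) (i : Fin c.1.1), t = g * c.1.2.simple i * g⁻¹) ∧
      Subgroup.closure (({((List.finRange c.1.1).map c.1.2.simple).prod} : Set c.1.2.Group) ∪ ↑T) = ⊤ := by
  simp only [List.mem_cons, List.not_mem_nil, or_false] at hc
  rcases hc with rfl | rfl | rfl | rfl | rfl | rfl | rfl
  · exact two _
  · exact two _
  · exact chkCoxD4.gen ([0, 2] : List (Fin 4)) (show List.Nodup ([0, 2] : List (Fin 4)) by decide) [(14, 24, 18), (16, 13, 14), (12, 24, 16)]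
      (by decide +kernel)
  · exact chkCoxF4.gen ([0, 2] : List (Fin 4)) (show List.Nodup ([0, 2] : List (Fin 4)) by decide) [(27, 48, 33), (24, 48, 25)]
      (by decide +kernel)
  · exact chkCoxE6.gen ([3] : List (Fin 6)) (show List.Nodup ([3] : List (Fin 6)) by decide) [(37, 72, 39), (40, 39, 37), (34, 37, 37), (36, 72, 37), (38,
      72, 40), (35, 72, 34), (8, 72, 36), (9, 72, 38), (63, 72, 35), (7, 39, 9), (43, 72, 63), (2, 72, 7), (42, 39, 43),
      (17, 72, 2), (47, 72, 42), (19, 39, 17), (46, 39, 47), (56, 8, 19)]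
      (by decide +kernel)
  · exact chkCoxE7.gen ([3] : List (Fin 7)) (show List.Nodup ([3] : List (Fin 7)) by decide) [(66, 126, 69), (70, 69, 66), (59, 66, 66), (64, 126, 66), (67,
      126, 70), (61, 126, 59), (63, 126, 64), (65, 126, 67), (62, 126, 61), (23, 126, 63), (24, 126, 65), (102, 126,
      62), (21, 69, 24), (19, 66, 21), (74, 126, 102), (11, 126, 19), (73, 69, 74), (36, 126, 11), (79, 126, 73), (39,
      69, 36), (78, 69, 79), (93, 23, 39)]
      (by decide +kernel)
  · exact chkCoxE8.gen ([3] : List (Fin 8)) (show List.Nodup ([3] : List (Fin 8)) by decide) [(126, 240, 130), (131, 130, 126), (113, 126, 126), (123, 240,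
      126), (127, 240, 131), (116, 240, 113), (121, 240, 123), (124, 240, 127), (118, 240, 116), (120, 240, 121), (122,
      240, 124), (119, 240, 118), (66, 240, 120), (67, 240, 122), (173, 240, 119), (63, 130, 67), (60, 126, 63), (58,
      123, 60), (136, 240, 173), (46, 240, 58), (135, 130, 136), (84, 240, 46), (142, 240, 135), (88, 130, 84), (141,
      130, 142), (162, 66, 88)]
      (by decide +kernel)

end Cfsg.Agent.S2419
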