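import Cfsg.Statements.S2424
import Cfsg.Agent.H6.UnipDegree

set_option autoImplicit false
open scoped MatrixGroups
open Cfsg

namespace Cfsg.Agent.S2424

/-- Degrees of the partition-indexed irreducible characters of `GL_n(q)`: for `ν` a partition of `n` with `n` non-decreasing parts `ν_0 ≤ ⋯ ≤ ν_{n−1}` (zeros allowed; positions counted from 0) and `λ_i = ν_i + i`, write `Q(r)` for the q-integer `1 + q + ⋯ + q^(r−1)` and `Q!(r)` for `Q(1)Q(2)⋯Q(r)`; then the degree `γ(ν)` of the character satisfies `γ(ν) · q^(n(n−1)(n−2)/6) · ∏_i Q!(λ_i) = Q!(n) · ∏_{i<j} (Q(λ_j) − Q(λ_i))`. For `ν = (1,…,1)` this gives the Steinberg degree `q^(n(n−1)/2)`, for `ν = (0,…,0,n)` degree 1. -/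
theorem result {F : Type*} [Field F] [Fintype F] {q : ℕ} (hq : Fintype.card F = q) {n : ℕ} (ν : Fin n → ℕ) (hmono : Monotone ν) (hsum : ∑ i, ν i = n) :
    Cfsg.unipotentCharacterGL n F ν 1 * (q : ℂ) ^ (n * (n - 1) * (n - 2) / 6) *
        ∏ i : Fin n, ∏ j ∈ Finset.range (ν i + i.val), ((∑ l ∈ Finset.range (j + 1), q ^ l : ℕ) : ℂ) =
      (∏ j ∈ Finset.range n, ((∑ l ∈ Finset.range (j + 1), q ^ l : ℕ) : ℂ)) *
        ∏ i : Fin n, ∏ j ∈ Finset.univ.filter (fun j : Fin n => i < j),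
          (((∑ l ∈ Finset.range (ν j + j.val), q ^ l : ℕ) : ℂ) - ((∑ l ∈ Finset.range (ν i + i.val), q ^ l : ℕ) : ℂ)) := by
  subst hq
  have h := H6.unipotentCharacterGL_one (F := F) ν hsum
  simp only [H6.qfact, H6.qint, Nat.cast_prod] at h
  rw [h]
  congr 1
  refine Finset.prod_congr rfl fun i _ => ?_
  rw [Finset.filter_lt_eq_Ioi]

end Cfsg.Agent.S2424
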