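import Cfsg.Statements.S2425
import Cfsg.Agent.H6.St4

set_option autoImplicit false
open scoped MatrixGroups
open Cfsg

namespace Cfsg.Agent.S2425

/-- Values of the Steinberg character of `GL_n(q)` (the partition-indexed character for `ν = (1,…,1)`, of degree `q^(n(n−1)/2)`) at elements of order prime to the characteristic: if the characteristic polynomial of such an element is `∏ f^(m_f)` over distinct monic irreducible `f`, the value is `∏_f (−1)^((deg f − 1) m_f) q^(deg f · m_f (m_f − 1)/2)`. (At elements of order divisible by the characteristic the value is 0; that is not part of this statement.) -/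
theorem result {F : Type*} [Field F] [Fintype F] [DecidableEq F] {q : ℕ} (hq : Fintype.card F = q) (p : ℕ) [Fact p.Prime] [CharP F p]
    {n : ℕ} (x : GL (Fin n) F) (hx : (orderOf x).Coprime p) :
    Cfsg.unipotentCharacterGL n F (fun _ => 1) x =
      ∏ f ∈ (UniqueFactorizationMonoid.normalizedFactors (x : Matrix (Fin n) (Fin n) F).charpoly).toFinset,
        (-1 : ℂ) ^ ((f.natDegree - 1) * (UniqueFactorizationMonoid.normalizedFactors (x : Matrix (Fin n) (Fin n) F).charpoly).count f) *
          (q : ℂ) ^ (f.natDegree * (UniqueFactorizationMonoid.normalizedFactors (x : Matrix (Fin n) (Fin n) F).charpoly).count f *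
            ((UniqueFactorizationMonoid.normalizedFactors (x : Matrix (Fin n) (Fin n) F).charpoly).count f - 1) / 2) := by
  classical
  subst hq
  have hss : Module.End.IsSemisimple (Matrix.toLin' (x : Matrix (Fin n) (Fin n) F)) := by
    refine Module.End.isSemisimple_of_squarefree_aeval_eq_zero
      (p := Polynomial.X ^ orderOf x - Polynomial.C 1) ?_ ?_
    · refine (Polynomial.separable_X_pow_sub_C 1 ?_ one_ne_zero).squarefree
      rw [Ne, CharP.cast_eq_zero_iff F p]
      exact (Nat.Prime.coprime_iff_not_dvd Fact.out).1 hx.symm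
    · rw [map_sub, map_pow, Polynomial.aeval_X, map_one, map_one, ← Matrix.toLin'_pow,
        ← Units.val_pow_eq_pow_val, pow_orderOf_eq_one, Units.val_one, Matrix.toLin'_one]
      exact sub_self _
  have : IsSemisimpleModule (Polynomial F)
    (Module.AEval' (Matrix.toLin' (x : Matrix (Fin n) (Fin n) F))) := hss
  have := Fintype.ofFinite (Submodule (Polynomial F)
    (Module.AEval' (Matrix.toLin' (x : Matrix (Fin n) (Fin n) F))))
  have h := H6.hess_zet (F := F) (M := Module.AEval' (Matrix.toLin' (x : Matrix (Fin n) (Fin n) F)))
  have hd : H6.sdim (⊤ : Submodule (Polynomial F)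
      (Module.AEval' (Matrix.toLin' (x : Matrix (Fin n) (Fin n) F)))) = n := by
    rw [H6.sdim, Submodule.restrictScalars_top, finrank_top,
      ← (Module.AEval'.of (Matrix.toLin' (x : Matrix (Fin n) (Fin n) F))).finrank_eq]
    simp
  rw [hd, H6.mchi_aeval, Matrix.charpoly_toLin'] at h
  rw [H6.unipotent_eq_hess, h, ← H6.neg_one_pow_mob _ (Matrix.charpoly_monic _)]
  simp

end Cfsg.Agent.S2425
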