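import Cfsg.Statements.S2426
import Cfsg.Agent.H6.St2

set_option autoImplicit false
open Cfsg

namespace Cfsg.Agent.S2426

/-- The rank-one Steinberg presentation of `SL₂` over a finite field `K`: generators `x(t)`, `y(t)` (`t ∈ K`; the two opposite root subgroups) subject to additivity `x(t)x(u) = x(t+u)`, `y(t)y(u) = y(t+u)` and, with `w(t) = x(t) y(−t⁻¹) x(t)` and `w'(t) = y(t) x(−t⁻¹) y(t)` for `t ≠ 0`, the relations `w(t) x(u) w(t)⁻¹ = y(−t⁻² u)` and `w'(t) y(u) w'(t)⁻¹ = x(−t⁻² u)`, present `SL₂(K)`, with `x(t) ↦ (1 t; 0 1)` and `y(t) ↦ (1 0; t 1)`. -/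
theorem result {K : Type*} [Field K] [Finite K] :
    ∃ e : PresentedGroup
        ({g : FreeGroup (Bool × K) | ∃ (b : Bool) (t u : K), g = FreeGroup.of (b, t) * FreeGroup.of (b, u) * (FreeGroup.of (b, t + u))⁻¹} ∪
          {g | ∃ (b : Bool) (t u : K), t ≠ 0 ∧
            g = (FreeGroup.of (b, t) * FreeGroup.of (!b, -t⁻¹) * FreeGroup.of (b, t)) * FreeGroup.of (b, u) *
                  (FreeGroup.of (b, t) * FreeGroup.of (!b, -t⁻¹) * FreeGroup.of (b, t))⁻¹ * (FreeGroup.of (!b, -(t⁻¹ ^ 2 * u)))⁻¹})
        ≃* Matrix.SpecialLinearGroup (Fin 2) K,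
      (∀ t : K, ((e (PresentedGroup.of (true, t)) : Matrix (Fin 2) (Fin 2) K)) = !![1, t; 0, 1]) ∧
      (∀ t : K, ((e (PresentedGroup.of (false, t)) : Matrix (Fin 2) (Fin 2) K)) = !![1, 0; t, 1]) := by
  set R : Set (FreeGroup (Bool × K)) := _ ∪ _ with hR
  let x : Fin 2 → Fin 2 → K → PresentedGroup R := fun i _ t =>
    PresentedGroup.of (decide (i = 0), t)
  have hrel : ∀ r ∈ R, PresentedGroup.mk R r = 1 := fun r hr => PresentedGroup.one_of_mem hr
  have hadd : ∀ (b : Bool) (t u : K), (PresentedGroup.of (b, t + u) : PresentedGroup R) =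
      PresentedGroup.of (b, t) * PresentedGroup.of (b, u) := fun b t u => by
    have := hrel _ (Or.inl ⟨b, t, u, rfl⟩)
    rw [map_mul, map_mul, map_inv, mul_inv_eq_one] at this
    exact this.symm
  have H1 : H6.IsR1 (x 0 1) (x 1 0) :=
    { addx := hadd true
      addy := hadd false
      wx := fun t ht u => by
        have := hrel _ (Or.inr ⟨true, t, u, ht, rfl⟩)
        rw [map_mul, map_inv, mul_inv_eq_one] at this
        simp only [map_mul, map_inv] at this
        exact this }
  have H : H6.IsSt x :=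
    { add := fun {i j} _ t u => hadd _ t u
      comm := fun {i j k l} hij hkl hil hjk t u => by
        obtain rfl : i = k := by omega
        exact H6.add_fam_commute (x := x i j) (hadd _) t u
      rel := fun {i j l} hij hjl hil t u => by omega
      r1 := fun {i j} hij => by
        fin_cases i <;> fin_cases j
        · exact absurd rfl hij
        · exact H1
        · exact H1.symm
        · exact absurd rfl hij }
  obtain ⟨ψ, hψ⟩ := H.exists_hom
  have S := H6.isSt_slX (K := K) (ι := Fin 2)
  let f : Bool × K → Matrix.SpecialLinearGroup (Fin 2) K :=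
    fun a => if a.1 then H6.slX K 0 1 a.2 else H6.slX K 1 0 a.2
  have hf : ∀ r ∈ R, FreeGroup.lift f r = 1 := by
    rintro _ (⟨b, t, u, rfl⟩ | ⟨b, t, u, ht, rfl⟩)
    · simp only [map_mul, map_inv, FreeGroup.lift_apply_of, f]
      cases b
      · simp only [Bool.false_eq_true, if_false]
        rw [S.add one_ne_zero, mul_inv_cancel]
      · simp only [if_true]
        rw [S.add zero_ne_one, mul_inv_cancel]
    · simp only [map_mul, map_inv, FreeGroup.lift_apply_of, f]
      rw [mul_inv_eq_one]
      cases b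
      · exact (S.r1 one_ne_zero).wx t ht u
      · exact (S.r1 zero_ne_one).wx t ht u
  refine ⟨MonoidHom.toMulEquiv (PresentedGroup.toGroup hf) ψ ?_ ?_, fun t => ?_, fun t => ?_⟩
  · apply PresentedGroup.ext
    rintro ⟨b, t⟩
    rw [MonoidHom.comp_apply, PresentedGroup.toGroup.of, MonoidHom.id_apply]
    cases b
    · exact hψ 1 0 one_ne_zero t
    · exact hψ 0 1 zero_ne_one t
  · apply H6.slX_hom_ext
    intro i j h t
    rw [MonoidHom.comp_apply, hψ i j h t, PresentedGroup.toGroup.of, MonoidHom.id_apply]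
    fin_cases i <;> fin_cases j
    · exact absurd rfl h
    · rfl
    · rfl
    · exact absurd rfl h
  · change (PresentedGroup.toGroup hf (PresentedGroup.of (true, t))).val = _
    rw [PresentedGroup.toGroup.of]
    refine (H6.slX_val zero_ne_one t).trans ?_
    ext i j
    fin_cases i <;> fin_cases j <;> simp [Matrix.transvection]
  · change (PresentedGroup.toGroup hf (PresentedGroup.of (false, t))).val = _
    rw [PresentedGroup.toGroup.of]
    refine (H6.slX_val one_ne_zero t).trans ?_
    ext i j
    fin_cases i <;> fin_cases j <;> simp [Matrix.transvection]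

end Cfsg.Agent.S2426
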