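import Cfsg.Statements.S2427
import Cfsg.Agent.H2.PSL2

set_option autoImplicit false
open Cfsg

namespace Cfsg.Agent.S2427

/-- the group -/
abbrev G3 := Matrix.SpecialLinearGroup (Fin 2) (ZMod 3)

/-- generator -/
def gA : G3 := ⟨!![0, 2; 1, 0], by decide⟩
/-- generator -/
def gX : G3 := ⟨!![1, 1; 1, 2], by decide⟩

/-- the embedding of the quaternion group -/
def fQ : QuaternionGroup 2 → G3
  | QuaternionGroup.a i => gA ^ i.val
  | QuaternionGroup.xa i => gX * gA ^ i.val

theorem fQ_mul : ∀ x y, fQ (x * y) = fQ x * fQ y := by decide +kernel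

theorem fQ_inj : ∀ x y, fQ x = fQ y → x = y := by decide +kernel

/-- the embedding as a homomorphism -/
def fH : QuaternionGroup 2 →* G3 := MonoidHom.mk' fQ fQ_mul

theorem t1 : ∀ a b : G3, (a * b * a⁻¹ * b⁻¹) ^ 4 = 1 := by decide +kernel
theorem t2 : ∀ a : G3, a ^ 4 = 1 → ∃ x, fQ x = a := by decide +kernel
theorem t3 : ∀ x, ∃ a : G3, fQ x = a * gA * a⁻¹ * gA⁻¹ ∨ fQ x = a * gX * a⁻¹ * gX⁻¹ := by decide +kernel
theorem t4 : ∀ g : G3, g = 1 ∨ g = -1 ∨ ∃ a b : G3, gA = a * g * a⁻¹ * (b * g⁻¹ * b⁻¹) ∨ gA = a * g * a⁻¹ := by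
  decide +kernel
theorem t5 : ∃ a : G3, gX = a * gA * a⁻¹ := by decide +kernel

theorem comm_eq : commutator G3 = fH.range := by
  apply le_antisymm
  · rw [commutator_def, Subgroup.commutator_le]
    intro a _ b _
    exact t2 _ (t1 a b)
  · rintro _ ⟨x, rfl⟩
    obtain ⟨a, h | h⟩ := t3 x <;> change fQ x ∈ _ <;> rw [h] <;>
      exact Subgroup.commutator_mem_commutator trivial trivial

theorem card_comm : Nat.card (commutator G3) = 8 := by
  rw [comm_eq, ← Nat.card_congr (MonoidHom.ofInjective (f := fH) fQ_inj).toEquiv, Nat.card_eq_fintype_card,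
    QuaternionGroup.card]

theorem card_G3 : Nat.card G3 = 24 := by
  rw [Cfsg.Agent.H2.card_SL2, Nat.card_zmod]; rfl

/-- The group SL₂ over the field with 3 elements has order 24 and centre of order 2; its commutator subgroup has order 8, is isomorphic to the quaternion group of order 8 and is complemented by every Sylow 3-subgroup (so the group is a semidirect product of a quaternion group of order 8 by a cyclic group of order 3); and its only normal subgroups besides the trivial subgroup and the whole group are the centre and the commutator subgroup. -/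
theorem result :
    Nat.card (Matrix.SpecialLinearGroup (Fin 2) (ZMod 3)) = 24 ∧
    Nat.card (Subgroup.center (Matrix.SpecialLinearGroup (Fin 2) (ZMod 3))) = 2 ∧
    Nat.card (commutator (Matrix.SpecialLinearGroup (Fin 2) (ZMod 3))) = 8 ∧
    Nonempty (commutator (Matrix.SpecialLinearGroup (Fin 2) (ZMod 3)) ≃* QuaternionGroup 2) ∧
    (∀ P : Sylow 3 (Matrix.SpecialLinearGroup (Fin 2) (ZMod 3)),
      Subgroup.IsComplement' (commutator (Matrix.SpecialLinearGroup (Fin 2) (ZMod 3)))
        (P : Subgroup (Matrix.SpecialLinearGroup (Fin 2) (ZMod 3)))) ∧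
    ∀ N : Subgroup (Matrix.SpecialLinearGroup (Fin 2) (ZMod 3)), N.Normal →
      N = ⊥ ∨ N = ⊤ ∨ N = Subgroup.center (Matrix.SpecialLinearGroup (Fin 2) (ZMod 3)) ∨
        N = commutator (Matrix.SpecialLinearGroup (Fin 2) (ZMod 3)) := by
  open Cfsg.Agent.H2 in
  have h2 : (2 : ZMod 3) ≠ 0 := by decide
  refine ⟨card_G3, card_center_of_ne h2, card_comm, ⟨(MulEquiv.subgroupCongr comm_eq).trans
    (MonoidHom.ofInjective (f := fH) fQ_inj).symm⟩, fun P => ?_, fun N hN => ?_⟩
  · have h : Nat.card P = 3 := by
      rw [P.card_eq_multiplicity, card_G3, show 24 = 3 * 8 from rfl, Nat.factorization_mul (by norm_num) (by norm_num),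
        Finsupp.add_apply, Nat.Prime.factorization_self Nat.prime_three,
        Nat.factorization_eq_zero_of_not_dvd (by norm_num)]
      rfl
    exact Subgroup.isComplement'_of_coprime (by rw [card_comm, h, card_G3]) (by rw [card_comm, h]; norm_num)
  · by_cases h : N ≤ Subgroup.center _
    · by_cases h1 : (-1 : G3) ∈ N
      · refine Or.inr (Or.inr (Or.inl (le_antisymm h fun g hg => ?_)))
        rcases mem_center_SL_iff'.1 hg with rfl | rfl
        · exact one_mem _
        · exact h1
      · refine Or.inl (eq_bot_iff.2 fun g hg => ?_)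
        rcases mem_center_SL_iff'.1 (h hg) with rfl | rfl
        · exact one_mem _
        · exact absurd hg h1
    · obtain ⟨g, hg, hg'⟩ := SetLike.not_le_iff_exists.1 h
      have hA : gA ∈ N := by
        rcases t4 g with h1 | h1 | ⟨a, b, h1 | h1⟩
        · exact absurd (mem_center_SL_iff'.2 (Or.inl h1)) hg'
        · exact absurd (mem_center_SL_iff'.2 (Or.inr h1)) hg'
        · rw [h1]; exact N.mul_mem (hN.conj_mem _ hg _) (hN.conj_mem _ (N.inv_mem hg) _)
        · rw [h1]; exact hN.conj_mem _ hg _
      have hX : gX ∈ N := by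
        obtain ⟨a, h1⟩ := t5
        rw [h1]; exact hN.conj_mem _ hA _
      have hle : commutator G3 ≤ N := by
        rw [comm_eq]
        rintro _ ⟨x | x, rfl⟩
        · exact N.pow_mem hA _
        · exact N.mul_mem hX (N.pow_mem hA _)
      have hi : (commutator G3).index = 3 := by
        have := (commutator G3).index_mul_card
        rw [card_comm, card_G3] at this
        omega
      rcases (Nat.dvd_prime Nat.prime_three).1 (hi ▸ Subgroup.index_dvd_of_le hle) with h1 | h1
      · exact Or.inr (Or.inl (Subgroup.index_eq_one.1 h1))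
      · refine Or.inr (Or.inr (Or.inr (Subgroup.eq_of_le_of_card_ge hle ?_).symm))
        have h3 : N.index * Nat.card N = 24 := N.index_mul_card.trans card_G3
        rw [h1] at h3
        rw [card_comm]
        exact Nat.le_of_mul_le_mul_left (h3.le.trans (by norm_num)) three_pos

end Cfsg.Agent.S2427
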