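import Cfsg.Statements.S2428
import Cfsg.Agent.H2.SL2Tor

set_option autoImplicit false
open Cfsg

namespace Cfsg.Agent.S2428

/-- Let F be a finite field with q elements, q odd, and let d be a diagonal element of SL₂ over F whose diagonal entry a has a² ≠ 1 (such d exist exactly when q > 3). Then the centraliser of d is precisely the diagonal subgroup T; the normaliser of T has order 2(q − 1) and exactly (q + 5)/2 conjugacy classes; and every element of that normaliser outside T has square equal to −1. -/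
theorem result {F : Type*} [Field F] [Fintype F] (hodd : Odd (Fintype.card F))
    (d : Matrix.SpecialLinearGroup (Fin 2) F) (hd01 : (d : Matrix (Fin 2) (Fin 2) F) 0 1 = 0) (hd10 : (d : Matrix (Fin 2) (Fin 2) F) 1 0 = 0) (hda : (d : Matrix (Fin 2) (Fin 2) F) 0 0 ^ 2 ≠ 1) :
    (∀ g : Matrix.SpecialLinearGroup (Fin 2) F, g ∈ Subgroup.centralizer ({d} : Set (Matrix.SpecialLinearGroup (Fin 2) F)) ↔ ((g : Matrix (Fin 2) (Fin 2) F) 0 1 = 0 ∧ (g : Matrix (Fin 2) (Fin 2) F) 1 0 = 0)) ∧
    Nat.card (Subgroup.normalizer ((Subgroup.centralizer ({d} : Set (Matrix.SpecialLinearGroup (Fin 2) F))) : Set (Matrix.SpecialLinearGroup (Fin 2) F))) = 2 * (Fintype.card F - 1) ∧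
    Nat.card (ConjClasses (Subgroup.normalizer ((Subgroup.centralizer ({d} : Set (Matrix.SpecialLinearGroup (Fin 2) F))) : Set (Matrix.SpecialLinearGroup (Fin 2) F)))) = (Fintype.card F + 5) / 2 ∧
    ∀ g : Matrix.SpecialLinearGroup (Fin 2) F, g ∈ Subgroup.normalizer ((Subgroup.centralizer ({d} : Set (Matrix.SpecialLinearGroup (Fin 2) F))) : Set (Matrix.SpecialLinearGroup (Fin 2) F)) →
      g ∉ Subgroup.centralizer ({d} : Set (Matrix.SpecialLinearGroup (Fin 2) F)) → ((g * g) : Matrix (Fin 2) (Fin 2) F) = -1 := by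
  open Cfsg.Agent.H2 in
  have h2 := two_ne_zero_of_odd hodd
  have hdet := d.det_coe
  rw [Matrix.det_fin_two, hd01, zero_mul, sub_zero] at hdet
  have htr : tr d = d.1 0 0 + d.1 1 1 := Matrix.trace_fin_two _
  have hne : d.1 0 0 ≠ d.1 1 1 := fun h => hda (by rw [sq]; nth_rewrite 2 [h]; exact hdet)
  have hS : SS d := by
    intro h
    rw [htr] at h
    have : (d.1 0 0 - d.1 1 1) ^ 2 = 0 := by linear_combination h - 4 * hdet
    exact hne (sub_eq_zero.1 (pow_eq_zero_iff two_ne_zero |>.1 this))
  have hc : Nat.card (Cen d) = Fintype.card F - 1 := by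
    rw [← Nat.card_eq_fintype_card]
    exact hS.card_Cen_of_root (x := d.1 0 0) (by rw [htr]; linear_combination -hdet)
  refine ⟨fun g => ?_, by rw [← hc]; exact hS.card_NC, ?_, fun g h1 h3 => ?_⟩
  · rw [mem_centralizer_SL_iff, m2_ext_iff]
    simp only [m2_mul_apply, hd01, hd10, mul_zero, zero_mul, add_zero, zero_add]
    constructor
    · rintro ⟨-, a, b, -⟩
      exact ⟨mul_right_cancel₀ (sub_ne_zero.2 hne) (by linear_combination -a),
        mul_right_cancel₀ (sub_ne_zero.2 hne) (by linear_combination b)⟩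
    · rintro ⟨a, b⟩
      simp [a, b, mul_comm]
  · have := hS.card_conjClasses_NC h2
    rw [hc] at this
    have h3 : 0 < Fintype.card F := Fintype.card_pos
    change Nat.card (ConjClasses (NC d)) = _
    omega
  · have := congrArg Subtype.val (hS.sq_of_not_mem h1 h3)
    rw [sq] at this
    exact this

end Cfsg.Agent.S2428
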