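import Cfsg.Statements.S2429
import Cfsg.Agent.H2.SL2Tor

set_option autoImplicit false
open Cfsg

namespace Cfsg.Agent.S2429

/-- Let F be a finite field with q elements, q odd. Then SL₂ over F contains a cyclic subgroup T′ of order q + 1 (a non-split torus) with the following properties: T′ is its own centraliser, and indeed the centraliser of each element of T′ other than 1 and −1 is exactly T′; every element of SL₂ having no eigenvector in F² is conjugate to an element of T′; the normaliser of T′ has order 2(q + 1) and exactly (q + 7)/2 conjugacy classes; and every element of that normaliser outside T′ has square −1. -/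
theorem result {F : Type*} [Field F] [Fintype F] (hodd : Odd (Fintype.card F)) :
    ∃ T' : Subgroup (Matrix.SpecialLinearGroup (Fin 2) F), IsCyclic T' ∧ Nat.card T' = Fintype.card F + 1 ∧
      Subgroup.centralizer ((T' : Set (Matrix.SpecialLinearGroup (Fin 2) F))) = T' ∧
      (∀ g : Matrix.SpecialLinearGroup (Fin 2) F, g ∈ T' → (g : Matrix (Fin 2) (Fin 2) F) ≠ 1 → (g : Matrix (Fin 2) (Fin 2) F) ≠ -1 → Subgroup.centralizer ({g} : Set (Matrix.SpecialLinearGroup (Fin 2) F)) = T') ∧
      (∀ g : Matrix.SpecialLinearGroup (Fin 2) F, (∀ (c : F) (v : Fin 2 → F), v ≠ 0 → (g : Matrix (Fin 2) (Fin 2) F).mulVec v ≠ c • v) → ∃ h : Matrix.SpecialLinearGroup (Fin 2) F, h * g * h⁻¹ ∈ T') ∧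
      Nat.card (Subgroup.normalizer (T' : Set (Matrix.SpecialLinearGroup (Fin 2) F))) = 2 * (Fintype.card F + 1) ∧
      Nat.card (ConjClasses (Subgroup.normalizer (T' : Set (Matrix.SpecialLinearGroup (Fin 2) F)))) = (Fintype.card F + 7) / 2 ∧
      ∀ g : Matrix.SpecialLinearGroup (Fin 2) F, g ∈ Subgroup.normalizer (T' : Set (Matrix.SpecialLinearGroup (Fin 2) F)) → g ∉ T' → ((g * g) : Matrix (Fin 2) (Fin 2) F) = -1 := by
  open Cfsg.Agent.H2 in
  have h2 := two_ne_zero_of_odd hodd
  obtain ⟨d, hd⟩ := exists_nonsplit_SL (F := F)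
  have hS := SS_of_no_root hd
  have hc : Nat.card (Cen d) = Fintype.card F + 1 := by
    rw [← Nat.card_eq_fintype_card]; exact card_Cen_of_no_root hd
  refine ⟨Cen d, hS.isCyclic_Cen, hc, ?_, fun g hg a b => ?_, fun g hg => ?_, by rw [← hc]; exact hS.card_NC, ?_,
    fun g h1 h3 => ?_⟩
  · apply le_antisymm
    · exact Subgroup.centralizer_le (by simpa using self_mem_Cen d)
    · intro x hx y hy
      exact Cen_comm hS.not_sc hy hx
  · refine Cen_eq_of_mem hS.not_sc hg fun h => ?_
    rcases isScal_SL_iff.1 h with rfl | rfl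
    · exact a rfl
    · exact b rfl
  · exact exists_conj_mem_nonsplit hd (no_root_of_no_eigen hg)
  · have := hS.card_conjClasses_NC h2
    rw [hc] at this
    change Nat.card (ConjClasses (NC d)) = _
    omega
  · have := congrArg Subtype.val (hS.sq_of_not_mem h1 h3)
    rw [sq] at this
    exact this

end Cfsg.Agent.S2429
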