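import Cfsg.Statements.S2430
import Cfsg.Agent.H2.SL2Syl

set_option autoImplicit false
open Cfsg

namespace Cfsg.Agent.S2430

/-- Let F be a finite field with q elements, q odd, ℓ an odd prime, and P a Sylow ℓ-subgroup of SL₂ over F. If ℓ divides q − 1, the centraliser of P is cyclic of order q − 1 (a split torus) and the normaliser of P has order 2(q − 1); if ℓ divides q + 1, the centraliser of P is cyclic of order q + 1 (a non-split torus) and the normaliser of P has order 2(q + 1). -/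
theorem result {F : Type*} [Field F] [Fintype F] (hodd : Odd (Fintype.card F)) (ℓ : ℕ) [Fact ℓ.Prime] (hℓ : ℓ ≠ 2)
    (P : Sylow ℓ (Matrix.SpecialLinearGroup (Fin 2) F)) :
    (ℓ ∣ Fintype.card F - 1 →
      Nat.card (Subgroup.centralizer ((P : Subgroup (Matrix.SpecialLinearGroup (Fin 2) F)) : Set (Matrix.SpecialLinearGroup (Fin 2) F))) = Fintype.card F - 1 ∧
      IsCyclic (Subgroup.centralizer ((P : Subgroup (Matrix.SpecialLinearGroup (Fin 2) F)) : Set (Matrix.SpecialLinearGroup (Fin 2) F))) ∧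
      Nat.card (Subgroup.normalizer ((P : Subgroup (Matrix.SpecialLinearGroup (Fin 2) F)) : Set (Matrix.SpecialLinearGroup (Fin 2) F))) = 2 * (Fintype.card F - 1)) ∧
    (ℓ ∣ Fintype.card F + 1 →
      Nat.card (Subgroup.centralizer ((P : Subgroup (Matrix.SpecialLinearGroup (Fin 2) F)) : Set (Matrix.SpecialLinearGroup (Fin 2) F))) = Fintype.card F + 1 ∧
      IsCyclic (Subgroup.centralizer ((P : Subgroup (Matrix.SpecialLinearGroup (Fin 2) F)) : Set (Matrix.SpecialLinearGroup (Fin 2) F))) ∧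
      Nat.card (Subgroup.normalizer ((P : Subgroup (Matrix.SpecialLinearGroup (Fin 2) F)) : Set (Matrix.SpecialLinearGroup (Fin 2) F))) = 2 * (Fintype.card F + 1)) := by
  open Cfsg.Agent.H2 in
  rw [← Nat.card_eq_fintype_card]
  have hp : ℓ.Prime := Fact.out
  have h0 : 0 < Nat.card F := Nat.card_pos
  have key : ℓ ∣ Nat.card F - 1 → ℓ ∣ Nat.card F + 1 → False := fun a b => by
    have := Nat.dvd_sub b a
    rw [show Nat.card F + 1 - (Nat.card F - 1) = 2 by omega] at this
    exact hℓ ((Nat.prime_dvd_prime_iff_eq hp Nat.prime_two).1 this)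
  constructor
  · intro h
    obtain ⟨z, hz, h1, h2, h3⟩ := sylow_odd hℓ P (Or.inl h)
    have h4 := h1 ▸ (Cen z).orderOf_dvd_natCard (self_mem_Cen z)
    have h5 := (hz.card_Cen.resolve_right fun h' => key h (h'.2 ▸ h4)).2
    rw [h2, h3, hz.card_NC, h5]
    exact ⟨rfl, hz.isCyclic_Cen, rfl⟩
  · intro h
    obtain ⟨z, hz, h1, h2, h3⟩ := sylow_odd hℓ P (Or.inr h)
    have h4 := h1 ▸ (Cen z).orderOf_dvd_natCard (self_mem_Cen z)
    have h5 := (hz.card_Cen.resolve_left fun h' => key (h'.2 ▸ h4) h).2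
    rw [h2, h3, hz.card_NC, h5]
    exact ⟨rfl, hz.isCyclic_Cen, rfl⟩

end Cfsg.Agent.S2430
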