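import Cfsg.Statements.S2431
import Cfsg.Agent.H2.SL2Syl

set_option autoImplicit false
open Cfsg

namespace Cfsg.Agent.S2431

/-- Let F be a finite field with q elements, q odd, and S a Sylow 2-subgroup of SL₂ over F. The centraliser of S is the centre of SL₂ (of order 2); S is its own normaliser when q ≡ ±1 mod 8, and has index 3 in its normaliser when q ≡ ±3 mod 8. -/
theorem result {F : Type*} [Field F] [Fintype F] (hodd : Odd (Fintype.card F)) (S : Sylow 2 (Matrix.SpecialLinearGroup (Fin 2) F)) :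
    Subgroup.centralizer ((S : Subgroup (Matrix.SpecialLinearGroup (Fin 2) F)) : Set (Matrix.SpecialLinearGroup (Fin 2) F)) = Subgroup.center (Matrix.SpecialLinearGroup (Fin 2) F) ∧
    ((Fintype.card F % 8 = 1 ∨ Fintype.card F % 8 = 7) →
      Subgroup.normalizer ((S : Subgroup (Matrix.SpecialLinearGroup (Fin 2) F)) : Set (Matrix.SpecialLinearGroup (Fin 2) F)) = (S : Subgroup (Matrix.SpecialLinearGroup (Fin 2) F))) ∧
    ((Fintype.card F % 8 = 3 ∨ Fintype.card F % 8 = 5) →
      Nat.card (Subgroup.normalizer ((S : Subgroup (Matrix.SpecialLinearGroup (Fin 2) F)) : Set (Matrix.SpecialLinearGroup (Fin 2) F))) = 3 * Nat.card S) := by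
  open Cfsg.Agent.H2 in
  have h2 := two_ne_zero_of_odd hodd
  rw [← Nat.card_eq_fintype_card]
  obtain ⟨i, hi, hS⟩ := exists_le_NC_of_two h2 S.isPGroup'
  have h4 := four_dvd_card_Cen h2 hi
  have h0 : 0 < Nat.card F := Nat.card_pos
  have hc := (SS_of_tr_zero h2 hi).card_Cen
  refine ⟨centralizer_syl h2 S hi hS, fun h => normalizer_syl_of_eight h2 S hi hS ?_,
    fun h => card_normalizer_syl h2 S hi hS ?_⟩
  · rcases hc with ⟨-, hc⟩ | ⟨-, hc⟩ <;> omega
  · rcases hc with ⟨-, hc⟩ | ⟨-, hc⟩ <;> omega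

end Cfsg.Agent.S2431
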