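import Cfsg.Statements.S2434
import Cfsg.Agent.H1.SL2Torus

set_option autoImplicit false
open Cfsg

namespace Cfsg.Agent.S2434

/-- Let F be a finite field with q elements, q odd, and C a cyclic subgroup of order q + 1 of SL₂ over F (a non-split torus; it contains the centre). For every homomorphism θ from C to the non-zero complex numbers with θ² ≠ 1 there is an irreducible complex character χ of degree q − 1 such that χ(c) = −θ(c) − θ(c)⁻¹ for every non-central c in C, χ(zg) = θ(z)χ(g) for central z in C, χ vanishes at diagonal elements with entry a, a² ≠ 1, and χ takes the value −1 at every upper unitriangular element other than 1. Conversely every irreducible character of degree q − 1 has, for some such θ, the values −θ(c) − θ(c)⁻¹ at the non-central elements c of C (for q ≥ 5 these are exactly the cuspidal characters of degree q − 1). -/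
theorem result {F : Type*} [Field F] [Fintype F] (hodd : Odd (Fintype.card F))
    (C : Subgroup (Matrix.SpecialLinearGroup (Fin 2) F)) (hC : IsCyclic C) (hcard : Nat.card C = Fintype.card F + 1) :
    (∀ θ : C →* ℂˣ, (∃ c : C, θ c ^ 2 ≠ 1) →
      ∃ χ : Matrix.SpecialLinearGroup (Fin 2) F → ℂ, Cfsg.IsIrrCharacter (Matrix.SpecialLinearGroup (Fin 2) F) χ ∧ χ 1 = (Fintype.card F : ℂ) - 1 ∧
        (∀ c : C, (c : Matrix.SpecialLinearGroup (Fin 2) F) ∉ Subgroup.center (Matrix.SpecialLinearGroup (Fin 2) F) → χ c = -((θ c).val + (θ c)⁻¹.val)) ∧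
        (∀ c : C, (c : Matrix.SpecialLinearGroup (Fin 2) F) ∈ Subgroup.center (Matrix.SpecialLinearGroup (Fin 2) F) → ∀ g : Matrix.SpecialLinearGroup (Fin 2) F, χ ((c : Matrix.SpecialLinearGroup (Fin 2) F) * g) = (θ c).val * χ g) ∧
        (∀ g : Matrix.SpecialLinearGroup (Fin 2) F, (g : Matrix (Fin 2) (Fin 2) F) 0 1 = 0 → (g : Matrix (Fin 2) (Fin 2) F) 1 0 = 0 → (g : Matrix (Fin 2) (Fin 2) F) 0 0 ^ 2 ≠ 1 → χ g = 0) ∧
        (∀ g : Matrix.SpecialLinearGroup (Fin 2) F, (g : Matrix (Fin 2) (Fin 2) F) 1 0 = 0 → (g : Matrix (Fin 2) (Fin 2) F) 0 0 = 1 → (g : Matrix (Fin 2) (Fin 2) F) 1 1 = 1 → (g : Matrix (Fin 2) (Fin 2) F) 0 1 ≠ 0 → χ g = -1)) ∧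
    (∀ χ : Matrix.SpecialLinearGroup (Fin 2) F → ℂ, Cfsg.IsIrrCharacter (Matrix.SpecialLinearGroup (Fin 2) F) χ → χ 1 = (Fintype.card F : ℂ) - 1 →
      ∃ θ : C →* ℂˣ, (∃ c : C, θ c ^ 2 ≠ 1) ∧
        ∀ c : C, (c : Matrix.SpecialLinearGroup (Fin 2) F) ∉ Subgroup.center (Matrix.SpecialLinearGroup (Fin 2) F) → χ c = -((θ c).val + (θ c)⁻¹.val)) := by
  classical
  obtain ⟨E, _, _, _, ⟨Q₀⟩⟩ := H1.exists_quadEmb F
  have h2 := H2.two_ne_zero_of_odd hodd
  have h3 := H1.three_le_card_of_two_ne_zero h2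
  obtain ⟨Q, j, hinj, hj, hsurj⟩ := H1.exists_quadEmb_of_cyclic Q₀ h2 C hC hcard
  have hval : ∀ (θ : MulChar E ℂ) (c : C), (c : Matrix.SpecialLinearGroup (Fin 2) F) ∉
      Subgroup.center (Matrix.SpecialLinearGroup (Fin 2) F) →
      H1.resSL (H1.cusp Q θ) c = -(θ (j c) + (θ (j c))⁻¹) := by
    intro θ c hc
    have e : Q.ι (j c) = ((c : Matrix.SpecialLinearGroup (Fin 2) F) : Matrix (Fin 2) (Fin 2) F) :=
      congrArg Units.val (hj c)
    rw [H1.resSL_apply, ← hj, H1.cusp_ell' Q θ (by rwa [e, ← H2.mem_center_SL_iff])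
      (by rw [e]; exact c.1.2)]
  have hnorm : ∀ c : C, (j c : E) ^ (Fintype.card F + 1) = 1 := by
    intro c
    rw [← Units.val_pow_eq_pow_val, ← map_pow, ← hcard, pow_card_eq_one', map_one, Units.val_one]
  refine ⟨fun θ ⟨c₀, hc₀⟩ => ?_, fun χ hχ hd => ?_⟩
  · obtain ⟨φ, hφ⟩ := H1.exists_extend_hom j hinj θ
    have hφ' : ∀ c, MulChar.ofUnitHom φ (j c : E) = θ c := fun c => by
      rw [MulChar.ofUnitHom_coe, hφ]
    have hθ : (MulChar.ofUnitHom φ ^ (Fintype.card F - 1)) ^ 2 ≠ 1 := by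
      intro e
      apply hc₀
      obtain ⟨ζ, hζ, h⟩ := H1.exists_pow_sub_one_of_norm_one Q (hnorm c₀)
      have := DFunLike.congr_fun e ζ
      rw [MulChar.pow_apply' _ two_ne_zero, MulChar.pow_apply' _ (by omega), ← map_pow, ← h, hφ',
        H1.mulChar_one_apply hζ] at this
      exact Units.ext this
    have hirr := H1.isIrr_resSL_cusp Q hθ
    refine ⟨_, hirr, by rw [H1.resSL_one, H1.cusp_one], fun c hc => ?_, fun c hc g => ?_,
      fun g h1 h4 h5 => ?_, fun g h1 h4 h5 h6 => ?_⟩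
    · rw [hval _ c hc, hφ', Units.val_inv_eq_inv_val]
    · rw [H1.IsIrrCharacter.mul_central hirr hc, H1.resSL_one, H1.cusp_one]
      congr 1
      have hs := H2.mem_center_SL_iff.mp hc
      rw [H1.resSL_apply, H1.cusp_scal _ _ hs, mul_div_cancel_left₀ _ H1.card_sub_one_ne_zero,
        ← hφ']
      congr 1
      apply Q.inj
      have e : Q.ι (j c) = ((c : Matrix.SpecialLinearGroup (Fin 2) F) : Matrix (Fin 2) (Fin 2) F) :=
        congrArg Units.val (hj c)
      rw [Q.ι_algebraMap, e]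
      obtain ⟨a, ha⟩ := H2.isScal_iff.mp hs
      simp [ha]
    · obtain ⟨ht, hd', h⟩ := H1.diag_trace_det h1
      exact H1.cusp_split _ _ (H1.diag_ne h1 h5) ht hd'
    · obtain ⟨ht, hd⟩ := H1.jordan_trace_det h1 (h4.trans h5.symm)
      rw [H1.resSL_apply, H1.cusp_jordan _ _ (fun h => h6 h.1) ht hd, h4]
      simp
  · have key : ∀ θ : MulChar E ℂ, (θ ^ (Fintype.card F - 1)) ^ 2 ≠ 1 →
        ∃ c : C, (θ.toUnitHom.comp j) c ^ 2 ≠ 1 := by
      intro θ hθ
      by_contra hc
      push Not at hc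
      apply hθ
      apply MulChar.ext
      intro ζ
      obtain ⟨c, hc'⟩ := hsurj (ζ ^ (Fintype.card F - 1)) (by
        rw [← pow_mul, ← Units.val_inj, Units.val_pow_eq_pow_val, Units.val_one,
          ← FiniteField.pow_card_sub_one_eq_one _ ζ.ne_zero, Q.card_E, ← one_pow 2,
          Nat.sq_sub_sq, one_pow, mul_comm])
      have := congrArg Units.val (hc c)
      rw [MonoidHom.comp_apply, hc'] at this
      simpa [MulChar.pow_apply_coe] using this
    by_cases hq : 4 ≤ Fintype.card F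
    · obtain ⟨θ, hθ, rfl⟩ := H1.irr_SL2_deg_q_sub Q hq hχ hd
      refine ⟨θ.toUnitHom.comp j, key θ hθ, fun c hc => ?_⟩
      rw [hval _ c hc]
      simp
    · have hq : Fintype.card F = 3 := by omega
      obtain ⟨θ, hθ⟩ := IsCyclic.exists_ofOrder_eq_natCard (α := MulChar E ℂ)
      rw [Nat.card_eq_fintype_card, H1.card_mulChar, Q.card_E, hq] at hθ
      have hθ' : (θ ^ (Fintype.card F - 1)) ^ 2 ≠ 1 := by
        rw [← pow_mul, hq]
        intro e
        have := orderOf_dvd_of_pow_eq_one e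
        rw [hθ] at this
        norm_num at this
      refine ⟨θ.toUnitHom.comp j, key θ hθ', fun c hc => ?_⟩
      have e : Q.ι (j c) = ((c : Matrix.SpecialLinearGroup (Fin 2) F) : Matrix (Fin 2) (Fin 2) F) :=
        congrArg Units.val (hj c)
      have hell := Q.no_root (ξ := j c) (by rwa [e, ← H2.mem_center_SL_iff])
      rw [e] at hell
      have h5 := hval θ c hc
      rw [H1.resSL_apply, H1.cusp_ell_three Q hq hθ' hell] at h5
      have h6 : χ c = 0 := by
        rcases H1.irr_SL2_cases_deg Q hχ with ⟨e, -⟩ | ⟨e, -⟩ | ⟨e, -⟩ | ⟨e, θ, h7, rfl⟩ | ⟨e, h7⟩ |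
          ⟨e, -⟩
        · rw [hq, e] at hd; norm_num at hd
        · rw [e, hq] at hd; norm_num at hd
        · rw [e, hq] at hd; norm_num at hd
        · exact H1.cusp_ell_three Q hq h7 hell
        · rw [h7.2.apply _ (Or.inr (H1.trace_sq_ne_of_no_root h2 hell)), H1.ps_ell _ _ hell,
            zero_div]
        · rw [e, hq] at hd; norm_num at hd
      rw [h6, h5]
      simp

end Cfsg.Agent.S2434
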