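import Cfsg.Statements.S2435
import Cfsg.Agent.H1.SL2More

set_option autoImplicit false
open Cfsg

namespace Cfsg.Agent.S2435

/-- Let F be a finite field with q elements, q odd and q ≥ 5, and χ an irreducible complex character of SL₂ over F. If χ has degree (q + 1)/2, then at a diagonal element with entry a, a² ≠ 1, χ takes the value 1 when a is a square in F and −1 otherwise. If χ has degree (q − 1)/2, then at an element g with no eigenvector in F² (so g has order dividing q + 1), χ takes the value −1 when g raised to the power (q + 1)/2 is the identity and the value 1 otherwise. -/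
theorem result {F : Type*} [Field F] [Fintype F] (hodd : Odd (Fintype.card F)) (hq : 5 ≤ Fintype.card F)
    (χ : Matrix.SpecialLinearGroup (Fin 2) F → ℂ) (hχ : Cfsg.IsIrrCharacter (Matrix.SpecialLinearGroup (Fin 2) F) χ) (g : Matrix.SpecialLinearGroup (Fin 2) F) :
    (χ 1 = (((Fintype.card F + 1) / 2 : ℕ) : ℂ) → (g : Matrix (Fin 2) (Fin 2) F) 0 1 = 0 → (g : Matrix (Fin 2) (Fin 2) F) 1 0 = 0 → (g : Matrix (Fin 2) (Fin 2) F) 0 0 ^ 2 ≠ 1 →
      (IsSquare ((g : Matrix (Fin 2) (Fin 2) F) 0 0) → χ g = 1) ∧ (¬ IsSquare ((g : Matrix (Fin 2) (Fin 2) F) 0 0) → χ g = -1)) ∧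
    (χ 1 = (((Fintype.card F - 1) / 2 : ℕ) : ℂ) → (∀ (c : F) (v : Fin 2 → F), v ≠ 0 → (g : Matrix (Fin 2) (Fin 2) F).mulVec v ≠ c • v) →
      (((g ^ ((Fintype.card F + 1) / 2)) : Matrix (Fin 2) (Fin 2) F) = 1 → χ g = -1) ∧ (((g ^ ((Fintype.card F + 1) / 2)) : Matrix (Fin 2) (Fin 2) F) ≠ 1 → χ g = 1)) := by
  classical
  obtain ⟨E, _, _, _, ⟨Q⟩⟩ := H1.exists_quadEmb F
  have h2 := H2.two_ne_zero_of_odd hodd
  rw [H1.cast_half_add hodd, H1.cast_half_sub hodd]
  refine ⟨fun hd h1 h4 h5 => ?_, fun hd h => ?_⟩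
  · obtain ⟨ht, hd', h⟩ := H1.diag_trace_det h1
    have h0 := left_ne_zero_of_mul_eq_one h
    have h0' := right_ne_zero_of_mul_eq_one h
    have : χ g = H1.eta F ((g : Matrix (Fin 2) (Fin 2) F) 0 0) := by
      rw [(H1.irr_SL2_deg_half_add Q (by omega) hχ hd).apply g (Or.inr (H1.diag_trace_sq_ne h1 h5)),
        H1.ps_split _ _ (H1.diag_ne h1 h5) ht hd', H1.mulChar_one_apply h0,
        H1.mulChar_one_apply h0', eq_inv_of_mul_eq_one_right h, H1.mulChar_inv,
        ← MulChar.inv_apply_eq_inv', H1.eta_isQuadratic.inv]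
      ring
    rw [this]
    exact ⟨H1.eta_of_isSquare h0, H1.eta_of_not_isSquare⟩
  · obtain ⟨θ, a1, a2, a⟩ := H1.irr_SL2_deg_half_sub Q (by omega) hχ hd
    exact a.cusp_ell Q h2 a1 a2 (H1.no_root_of_no_eigenvector h)

end Cfsg.Agent.S2435
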