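import Cfsg.Statements.S2438
import Cfsg.Agent.H1.SL2More

set_option autoImplicit false
open Cfsg

namespace Cfsg.Agent.S2438

/-- Let F be a finite field with q elements, q odd, q ≥ 5, U the upper unitriangular subgroup of SL₂ over F, and χ an irreducible complex character. The sum of the values of χ over U equals 2q, q, 0, q, 0 according as the degree of χ is q + 1, q, q − 1, (q + 1)/2, (q − 1)/2; so among these five degrees the sum vanishes exactly for the degrees q − 1 and (q − 1)/2, i.e. the irreducible characters of those two degrees are the ones whose restriction to U does not contain the trivial character (the cuspidal characters), while those of degree q + 1, q and (q + 1)/2 are not cuspidal. -/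
theorem result {F : Type*} [Field F] [Fintype F] [DecidableEq F] (hodd : Odd (Fintype.card F)) (hq : 5 ≤ Fintype.card F)
    (χ : Matrix.SpecialLinearGroup (Fin 2) F → ℂ) (hχ : Cfsg.IsIrrCharacter (Matrix.SpecialLinearGroup (Fin 2) F) χ) :
    (χ 1 = (Fintype.card F : ℂ) + 1 →
      (∑ g : Matrix.SpecialLinearGroup (Fin 2) F, if (g : Matrix (Fin 2) (Fin 2) F) 1 0 = 0 ∧ (g : Matrix (Fin 2) (Fin 2) F) 0 0 = 1 ∧ (g : Matrix (Fin 2) (Fin 2) F) 1 1 = 1 then χ g else 0) = 2 * (Fintype.card F : ℂ)) ∧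
    (χ 1 = (Fintype.card F : ℂ) →
      (∑ g : Matrix.SpecialLinearGroup (Fin 2) F, if (g : Matrix (Fin 2) (Fin 2) F) 1 0 = 0 ∧ (g : Matrix (Fin 2) (Fin 2) F) 0 0 = 1 ∧ (g : Matrix (Fin 2) (Fin 2) F) 1 1 = 1 then χ g else 0) = (Fintype.card F : ℂ)) ∧
    (χ 1 = (Fintype.card F : ℂ) - 1 →
      (∑ g : Matrix.SpecialLinearGroup (Fin 2) F, if (g : Matrix (Fin 2) (Fin 2) F) 1 0 = 0 ∧ (g : Matrix (Fin 2) (Fin 2) F) 0 0 = 1 ∧ (g : Matrix (Fin 2) (Fin 2) F) 1 1 = 1 then χ g else 0) = 0) ∧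
    (χ 1 = (((Fintype.card F + 1) / 2 : ℕ) : ℂ) →
      (∑ g : Matrix.SpecialLinearGroup (Fin 2) F, if (g : Matrix (Fin 2) (Fin 2) F) 1 0 = 0 ∧ (g : Matrix (Fin 2) (Fin 2) F) 0 0 = 1 ∧ (g : Matrix (Fin 2) (Fin 2) F) 1 1 = 1 then χ g else 0) = (Fintype.card F : ℂ)) ∧
    (χ 1 = (((Fintype.card F - 1) / 2 : ℕ) : ℂ) →
      (∑ g : Matrix.SpecialLinearGroup (Fin 2) F, if (g : Matrix (Fin 2) (Fin 2) F) 1 0 = 0 ∧ (g : Matrix (Fin 2) (Fin 2) F) 0 0 = 1 ∧ (g : Matrix (Fin 2) (Fin 2) F) 1 1 = 1 then χ g else 0) = 0) := by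
  obtain ⟨E, _, _, _, ⟨Q⟩⟩ := H1.exists_quadEmb F
  classical
  have h2 := H2.two_ne_zero_of_odd hodd
  have hs : (∑ g : Matrix.SpecialLinearGroup (Fin 2) F,
      if (g : Matrix (Fin 2) (Fin 2) F) 1 0 = 0 ∧ (g : Matrix (Fin 2) (Fin 2) F) 0 0 = 1 ∧
        (g : Matrix (Fin 2) (Fin 2) F) 1 1 = 1 then χ g else 0) = ∑ b : F, χ (H2.uSL b) := by
    rw [← Finset.sum_filter]
    symm
    refine Finset.sum_bij (fun b _ => H2.uSL b) (by simp) (fun a _ b _ h => H2.uSL_injective h) ?_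
      (by simp)
    intro g hg
    simp only [Finset.mem_filter, Finset.mem_univ, true_and] at hg
    refine ⟨(g : Matrix (Fin 2) (Fin 2) F) 0 1, by simp, H2.SL_ext (H2.m2_ext ?_ ?_ ?_ ?_)⟩ <;>
      simp [hg.1, hg.2.1, hg.2.2]
  have hη : ∑ b : F, H1.eta F b = 0 := by rw [H1.sum_mulChar, if_neg (H1.eta_ne_one h2)]
  have half : ∀ e s : ℂ, χ 1 = (Fintype.card F + e) / 2 →
      (∀ b, b ≠ 0 → χ (H2.uSL b) = (e + H1.eta F b * s) / 2) →
      ∑ b : F, χ (H2.uSL b) = Fintype.card F * (1 + e) / 2 := by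
    intro e s h1 h3
    have : ∑ b : F, χ (H2.uSL b) = ∑ b : F, (χ (H2.uSL b) - H1.eta F b * s / 2) := by
      rw [Finset.sum_sub_distrib, ← Finset.sum_div, ← Finset.sum_mul, hη]; simp
    rw [this, H1.sum_split_zero _ ((Fintype.card F + e) / 2) (e / 2) (by simp [h1, MulChar.map_zero])
      (fun c hc => by rw [h3 c hc]; ring)]
    ring
  rw [hs, H1.cast_half_add hodd, H1.cast_half_sub hodd]
  refine ⟨fun hd => ?_, fun hd => ?_, fun hd => ?_, fun hd => ?_, fun hd => ?_⟩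
  · obtain ⟨α, -, h⟩ := H1.irr_SL2_deg_q_add Q hχ hd
    rw [H1.sum_split_zero _ _ 1 (by rw [H2.uSL_zero, hd])
      (fun c hc => by rw [h]; exact H1.ps_uSL _ _ hc)]
    ring
  · have h := H1.irr_SL2_deg_q Q hχ hd
    rw [H1.sum_split_zero _ _ 0 (by rw [H2.uSL_zero, hd])
      (fun c hc => by rw [h]; exact H1.st_uSL _ hc)]
    ring
  · obtain ⟨θ, -, h⟩ := H1.irr_SL2_deg_q_sub Q (by omega) hχ hd
    rw [H1.sum_split_zero _ _ (-1) (by rw [H2.uSL_zero, hd])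
      (fun c hc => by rw [h]; exact H1.cusp_uSL _ _ hc)]
    ring
  · obtain ⟨s, -, h⟩ := (H1.irr_SL2_deg_half_add Q (by omega) hχ hd).ps_unip h2
    rw [half 1 s hd h]; ring
  · obtain ⟨θ, -, -, h⟩ := H1.irr_SL2_deg_half_sub Q (by omega) hχ hd
    obtain ⟨s, -, h⟩ := h.cusp_unip Q h2
    rw [half (-1) s (by rw [hd]; ring) h]; ring

end Cfsg.Agent.S2438
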