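import Cfsg.Statements.S2439
import Cfsg.Agent.H1.SLnSt
import Cfsg.Agent.H1.SL2Table
import Cfsg.Agent.H4.CountSL

set_option autoImplicit false
open Cfsg

namespace Cfsg.Agent.S2439

/-- Let F be a finite field with q elements of odd characteristic p, and M a maximal ideal of the algebraic integers containing p. Then SL₂ over F has exactly three p-blocks relative to M: the irreducible character of degree q (the Steinberg character) alone; the other irreducible characters taking the same value at −1 as at 1 (the principal block); and the irreducible characters χ with χ(−1) = −χ(1). Every Sylow p-subgroup is a defect group of each of the last two blocks. -/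
theorem result {F : Type*} [Field F] [Fintype F] (p : ℕ) [Fact p.Prime] [CharP F p] (hp : p ≠ 2)
    (M : Ideal Cfsg.AlgInt) (hM : Cfsg.IsPModular p M) :
    (∀ B : Set (Cfsg.IrrCharacter (Matrix.SpecialLinearGroup (Fin 2) F)), Cfsg.IsPBlock M B ↔
      (B = {χ : Cfsg.IrrCharacter (Matrix.SpecialLinearGroup (Fin 2) F) | (χ : Matrix.SpecialLinearGroup (Fin 2) F → ℂ) 1 = (Fintype.card F : ℂ)} ∨
       B = {χ : Cfsg.IrrCharacter (Matrix.SpecialLinearGroup (Fin 2) F) | (χ : Matrix.SpecialLinearGroup (Fin 2) F → ℂ) (-1) = (χ : Matrix.SpecialLinearGroup (Fin 2) F → ℂ) 1 ∧ (χ : Matrix.SpecialLinearGroup (Fin 2) F → ℂ) 1 ≠ (Fintype.card F : ℂ)} ∨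
       B = {χ : Cfsg.IrrCharacter (Matrix.SpecialLinearGroup (Fin 2) F) | (χ : Matrix.SpecialLinearGroup (Fin 2) F → ℂ) (-1) = -(χ : Matrix.SpecialLinearGroup (Fin 2) F → ℂ) 1})) ∧
    Nat.card {B : Set (Cfsg.IrrCharacter (Matrix.SpecialLinearGroup (Fin 2) F)) // Cfsg.IsPBlock M B} = 3 ∧
    ∀ P : Sylow p (Matrix.SpecialLinearGroup (Fin 2) F),
      Cfsg.IsDefectGroup p M {χ : Cfsg.IrrCharacter (Matrix.SpecialLinearGroup (Fin 2) F) | (χ : Matrix.SpecialLinearGroup (Fin 2) F → ℂ) (-1) = (χ : Matrix.SpecialLinearGroup (Fin 2) F → ℂ) 1 ∧ (χ : Matrix.SpecialLinearGroup (Fin 2) F → ℂ) 1 ≠ (Fintype.card F : ℂ)} (P : Subgroup (Matrix.SpecialLinearGroup (Fin 2) F)) ∧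
      Cfsg.IsDefectGroup p M {χ : Cfsg.IrrCharacter (Matrix.SpecialLinearGroup (Fin 2) F) | (χ : Matrix.SpecialLinearGroup (Fin 2) F → ℂ) (-1) = -(χ : Matrix.SpecialLinearGroup (Fin 2) F → ℂ) 1} (P : Subgroup (Matrix.SpecialLinearGroup (Fin 2) F)) := by
  classical
  have hp' : p.Prime := Fact.out
  have := hM.2.1
  have := H1.charP_resF hM
  obtain ⟨E, _, _, _, ⟨Q⟩⟩ := H1.exists_quadEmb F
  have h2 : (2 : F) ≠ 0 := H2.two_ne_zero_of_charP p hp
  have hq := Fintype.one_lt_card (α := F)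
  have hodd := H2.odd_card_of_two_ne_zero h2
  rw [Nat.card_eq_fintype_card] at hodd
  have hZ : Nat.card (Subgroup.center (Matrix.SpecialLinearGroup (Fin 2) F)) = 2 := by
    rw [H4.card_center_SL, Fintype.card_fin]
    exact Nat.gcd_eq_left (by omega)
  have hp2 : ¬ p ∣ 2 := fun h => hp ((Nat.prime_dvd_prime_iff_eq hp' Nat.prime_two).mp h)
  have hZ' : ¬ p ∣ Nat.card (Subgroup.center (Matrix.SpecialLinearGroup (Fin 2) F)) := by
    rwa [hZ]
  have hL := H1.locChar_SL (F := F) (ι := Fin 2) p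
  have hG : p ∣ Nat.card (Matrix.SpecialLinearGroup (Fin 2) F) := by
    rw [H2.card_SL2, Nat.card_eq_fintype_card]
    exact (H1.char_dvd_card p).mul_right _
  have hst := H1.isIrr_resSL_st (F := F) 1
  have hst1 : H1.resSL (H1.st (1 : MulChar F ℂ)) 1 = Fintype.card F := by
    rw [H1.resSL_one, H1.st_one]
  have hDZ : ∀ χ : Matrix.SpecialLinearGroup (Fin 2) F → ℂ, IsIrrCharacter _ χ →
      (H1.DefZero p χ ↔ χ 1 = Fintype.card F) := by
    have h1 : ∀ χ : Matrix.SpecialLinearGroup (Fin 2) F → ℂ, χ 1 = Fintype.card F →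
        H1.DefZero p χ := by
      intro χ h
      rw [H1.DefZero, H1.charDegree_eq h]
      have c1 := (Nat.Prime.coprime_iff_not_dvd hp').mpr (H1.not_char_dvd_card_sub_one (F := F) p)
      have c2 := (Nat.Prime.coprime_iff_not_dvd hp').mpr
        (H1.not_dvd_qfact hp' (H1.char_dvd_card (F := F) p) 2)
      refine Nat.Coprime.dvd_of_dvd_mul_right
        (((c1.pow_right (2 - 1)).mul_right c2).pow_left _) ?_
      have := H1.card_SL_eq (F := F) (n := 2) (by norm_num)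
      simp only [Finset.sum_range_succ, Finset.range_zero, Finset.sum_empty, add_zero, zero_add,
        pow_one] at this
      rw [← this]
      exact Nat.ordProj_dvd _ _
    intro χ hχ
    refine ⟨fun h => ?_, h1 χ⟩
    obtain ⟨D, hD⟩ := H1.exists_splitData_SL (F := F) (n := 2) (by norm_num)
    rw [D.defZero_unique (hD ▸ H1.isPGroup_radSL _) hχ hst h (h1 _ hst1), hst1]
  have hc : (-1 : Matrix.SpecialLinearGroup (Fin 2) F) ∈ Subgroup.center _ :=
    H2.mem_center_SL_iff'.mpr (Or.inr rfl)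
  have hpm : ∀ χ : Matrix.SpecialLinearGroup (Fin 2) F → ℂ, IsIrrCharacter _ χ →
      χ (-1) = χ 1 ∨ χ (-1) = -χ 1 := by
    intro χ hχ
    have h0 := H1.IsIrrCharacter.one_ne_zero hχ
    have := H1.IsIrrCharacter.mul_central hχ hc (-1)
    rw [neg_mul_neg, one_mul] at this
    field_simp at this
    exact sq_eq_sq_iff_eq_or_eq_neg.mp this.symm
  have hne : ∀ χ : Matrix.SpecialLinearGroup (Fin 2) F → ℂ, IsIrrCharacter _ χ →
      χ (-1) = χ 1 → χ (-1) ≠ -χ 1 := by
    intro χ hχ h1 h2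
    exact H1.IsIrrCharacter.one_ne_zero hχ (by linear_combination (h2 - h1) / 2)
  have hstm : ∀ χ : Matrix.SpecialLinearGroup (Fin 2) F → ℂ, IsIrrCharacter _ χ →
      χ 1 = Fintype.card F → χ (-1) = χ 1 := by
    intro χ hχ h
    rw [h, H1.irr_SL2_deg_q Q hχ h, H1.resSL_apply,
      H1.st_scal _ (H2.isScal_SL_iff.mpr (Or.inr rfl)), H1.det_sl2gl]
    simp
  have hSB : ∀ χ ψ : Matrix.SpecialLinearGroup (Fin 2) F → ℂ, IsIrrCharacter _ χ →
      IsIrrCharacter _ ψ → (SameBlock M χ ψ ↔ χ = ψ ∨ (χ 1 ≠ Fintype.card F ∧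
        ψ 1 ≠ Fintype.card F ∧ χ (-1) / χ 1 = ψ (-1) / ψ 1)) := by
    intro χ ψ hχ hψ
    rw [H1.sameBlock_iff M hL hZ' hχ hψ, hDZ χ hχ, hDZ ψ hψ]
    refine or_congr Iff.rfl (and_congr Iff.rfl (and_congr Iff.rfl ⟨fun h => h _ hc, fun h z hz => ?_⟩))
    rcases H2.mem_center_SL_iff'.mp hz with rfl | rfl
    · rw [div_self (H1.IsIrrCharacter.one_ne_zero hχ), div_self (H1.IsIrrCharacter.one_ne_zero hψ)]
    · exact h
  have b1 : ∀ χ : Matrix.SpecialLinearGroup (Fin 2) F → ℂ, IsIrrCharacter _ χ →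
      χ 1 = Fintype.card F → blockOf M χ = {χ : Cfsg.IrrCharacter (Matrix.SpecialLinearGroup (Fin 2) F) | (χ : Matrix.SpecialLinearGroup (Fin 2) F → ℂ) 1 = (Fintype.card F : ℂ)} := by
    intro χ hχ h
    ext ψ
    change SameBlock M χ ψ ↔ (ψ : Matrix.SpecialLinearGroup (Fin 2) F → ℂ) 1 = _
    rw [hSB _ _ hχ ψ.2]
    constructor
    · rintro (h1 | h1)
      · rw [← h1, h]
      · exact absurd h h1.1
    · intro h1
      left
      rw [H1.irr_SL2_deg_q Q hχ h, H1.irr_SL2_deg_q Q ψ.2 h1]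
  have b2 : ∀ χ : Matrix.SpecialLinearGroup (Fin 2) F → ℂ, IsIrrCharacter _ χ →
      χ 1 ≠ Fintype.card F → χ (-1) = χ 1 → blockOf M χ = {χ : Cfsg.IrrCharacter (Matrix.SpecialLinearGroup (Fin 2) F) | (χ : Matrix.SpecialLinearGroup (Fin 2) F → ℂ) (-1) = (χ : Matrix.SpecialLinearGroup (Fin 2) F → ℂ) 1 ∧ (χ : Matrix.SpecialLinearGroup (Fin 2) F → ℂ) 1 ≠ (Fintype.card F : ℂ)} := by
    intro χ hχ h h'
    ext ψ
    change SameBlock M χ ψ ↔ _ ∧ _
    rw [hSB _ _ hχ ψ.2, h', div_self (H1.IsIrrCharacter.one_ne_zero hχ), eq_comm (a := (1 : ℂ)),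
      div_eq_one_iff_eq (H1.IsIrrCharacter.one_ne_zero ψ.2)]
    constructor
    · rintro (h1 | h1)
      · rw [← h1]; exact ⟨h', h⟩
      · exact ⟨h1.2.2, h1.2.1⟩
    · intro h1
      exact Or.inr ⟨h, h1.2, h1.1⟩
  have b3 : ∀ χ : Matrix.SpecialLinearGroup (Fin 2) F → ℂ, IsIrrCharacter _ χ →
      χ (-1) = -χ 1 → blockOf M χ = {χ : Cfsg.IrrCharacter (Matrix.SpecialLinearGroup (Fin 2) F) | (χ : Matrix.SpecialLinearGroup (Fin 2) F → ℂ) (-1) = -(χ : Matrix.SpecialLinearGroup (Fin 2) F → ℂ) 1} := by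
    intro χ hχ h'
    ext ψ
    change SameBlock M χ ψ ↔ (ψ : Matrix.SpecialLinearGroup (Fin 2) F → ℂ) (-1) = _
    rw [hSB _ _ hχ ψ.2, h', neg_div, div_self (H1.IsIrrCharacter.one_ne_zero hχ),
      eq_comm (a := (-1 : ℂ)), div_eq_iff (H1.IsIrrCharacter.one_ne_zero ψ.2), neg_one_mul]
    constructor
    · rintro (h1 | h1)
      · rw [← h1]; exact h'
      · exact h1.2.2
    · intro h1
      exact Or.inr ⟨fun h => hne _ hχ (hstm _ hχ h) h', fun h => hne _ ψ.2 (hstm _ ψ.2 h) h1, h1⟩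
  have s1 := H1.sum_irr_mul_conj (G := Matrix.SpecialLinearGroup (Fin 2) F) 1 1
  have s2 := H1.sum_irr_mul_conj (G := Matrix.SpecialLinearGroup (Fin 2) F) (-1) 1
  rw [if_pos (IsConj.refl _), show Subgroup.centralizer {(1 : Matrix.SpecialLinearGroup (Fin 2) F)}
    = ⊤ by simp [Subgroup.centralizer_eq_top_iff_subset], Subgroup.card_top] at s1
  rw [if_neg (by
    intro h
    have h1 : (-1 : Matrix.SpecialLinearGroup (Fin 2) F) = 1 := by simpa using h
    have := congrArg (fun g : Matrix.SpecialLinearGroup (Fin 2) F => g.1 0 0) h1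
    simp only [Matrix.SpecialLinearGroup.coe_neg, Matrix.SpecialLinearGroup.coe_one,
      Matrix.neg_apply, Matrix.one_apply_eq] at this
    exact h2 (by linear_combination -this))] at s2
  have s3 := (Finset.sum_sub_distrib _ _).trans (congrArg₂ (· - ·) s1 s2)
  have s4 := Finset.sum_add_distrib.trans (congrArg₂ (· + ·) s1 s2)
  simp only [sub_zero, add_zero] at s3 s4
  have hG0 := H1.card_ne_zero' (G := Matrix.SpecialLinearGroup (Fin 2) F)
  have k2 : H1.redC M 2 ≠ 0 := by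
    have := H1.redC_natCast (M := M) 2
    rw [Nat.cast_ofNat] at this
    rw [this, Ne, CharP.cast_eq_zero_iff _ p]
    exact hp2
  have m2 : (2 : ℂ)⁻¹ ∈ H1.locRing M := H1.inv_mem_locRing (ofNat_mem _ 2) k2
  have k2' : H1.redC M 2⁻¹ ≠ 0 := by
    intro h
    have := H1.redC_mul (ofNat_mem (H1.locRing M) 2) m2
    rw [h, mul_inv_cancel₀ two_ne_zero, H1.redC_one, mul_zero] at this
    exact one_ne_zero this
  have hdef : ∀ (B : Set (IrrCharacter (Matrix.SpecialLinearGroup (Fin 2) F)))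
      (P : Sylow p (Matrix.SpecialLinearGroup (Fin 2) F)), blockCoeff B 1 ∈ H1.locRing M →
      H1.redC M (blockCoeff B 1) ≠ 0 → IsDefectGroup p M B P := by
    intro B P h1 h2
    refine ⟨1, ⟨h1, fun h => h2 ((H1.redC_eq_zero_iff h1).mpr h), fun χ _ h => ?_⟩,
      P.subtype (fun x _ => by simp [Subgroup.mem_centralizer_singleton_iff]), ?_⟩
    · rw [H1.centralChar_of_mem_center _ (one_mem _), div_self (H1.IsIrrCharacter.one_ne_zero χ.2),
        ← H1.redC_eq_zero_iff (one_mem _), H1.redC_one] at h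
      exact one_ne_zero h
    · rw [Sylow.coe_subtype, Subgroup.map_subgroupOf_eq_of_le]
      exact fun x _ => by simp [Subgroup.mem_centralizer_singleton_iff]
  have hsum : ∀ (B : IrrCharacter (Matrix.SpecialLinearGroup (Fin 2) F) → Prop) [DecidablePred B],
      blockCoeff {χ | B χ} 1 = (Nat.card (Matrix.SpecialLinearGroup (Fin 2) F) : ℂ)⁻¹ *
        ∑ χ : IrrCharacter (Matrix.SpecialLinearGroup (Fin 2) F), if B χ then
          (χ : Matrix.SpecialLinearGroup (Fin 2) F → ℂ) 1 *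
            (starRingEnd ℂ) ((χ : Matrix.SpecialLinearGroup (Fin 2) F → ℂ) 1) else 0 := by
    intro B _
    rw [blockCoeff, finsum_mem_eq_finite_toFinset_sum _ (Set.toFinite _), ← Finset.sum_filter]
    congr 2
    ext; simp
  refine ⟨fun B => ⟨?_, ?_⟩, ?_, fun P => ⟨hdef _ P ?_ ?_, hdef _ P ?_ ?_⟩⟩
  · rintro ⟨χ, rfl⟩
    by_cases h : (χ : Matrix.SpecialLinearGroup (Fin 2) F → ℂ) 1 = Fintype.card F
    · exact Or.inl (b1 _ χ.2 h)
    · rcases hpm _ χ.2 with h' | h'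
      · exact Or.inr (Or.inl (b2 _ χ.2 h h'))
      · exact Or.inr (Or.inr (b3 _ χ.2 h'))
  · rintro (rfl | rfl | rfl)
    · exact ⟨⟨_, hst⟩, (b1 _ hst hst1).symm⟩
    · exact ⟨⟨_, H1.isIrrCharacter_one⟩, (b2 _ H1.isIrrCharacter_one
        (by exact_mod_cast hq.ne) rfl).symm⟩
    · by_contra hc
      apply hG0
      rw [← s1, ← s2]
      refine Finset.sum_congr rfl (fun χ _ => ?_)
      rw [(hpm _ χ.2).resolve_right (fun h => hc ⟨χ, (b3 _ χ.2 h).symm⟩)]
  · rw [H1.card_blocks M hL hG hZ', hZ, H1.card_defZero_SL p (by norm_num)]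
  all_goals rw [hsum]
  rotate_left 2
  iterate 2
    rw [show (∑ χ : IrrCharacter (Matrix.SpecialLinearGroup (Fin 2) F),
      if (χ : Matrix.SpecialLinearGroup (Fin 2) F → ℂ) (-1) = -(χ : Matrix.SpecialLinearGroup (Fin 2) F → ℂ) 1 then
          (χ : Matrix.SpecialLinearGroup (Fin 2) F → ℂ) 1 *
            (starRingEnd ℂ) ((χ : Matrix.SpecialLinearGroup (Fin 2) F → ℂ) 1) else 0) =
        Nat.card (Matrix.SpecialLinearGroup (Fin 2) F) * 2⁻¹ from by
      rw [← s3, Finset.sum_mul]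
      refine Finset.sum_congr rfl (fun χ _ => ?_)
      rcases hpm _ χ.2 with h | h
      · rw [if_neg (hne _ χ.2 h), h]; ring
      · rw [if_pos h, h]; ring, inv_mul_cancel_left₀ hG0]
    assumption
  all_goals
    have e : (∑ χ : IrrCharacter (Matrix.SpecialLinearGroup (Fin 2) F),
      if (χ : Matrix.SpecialLinearGroup (Fin 2) F → ℂ) (-1) = (χ : Matrix.SpecialLinearGroup (Fin 2) F → ℂ) 1 ∧
          (χ : Matrix.SpecialLinearGroup (Fin 2) F → ℂ) 1 ≠ Fintype.card F then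
          (χ : Matrix.SpecialLinearGroup (Fin 2) F → ℂ) 1 *
            (starRingEnd ℂ) ((χ : Matrix.SpecialLinearGroup (Fin 2) F → ℂ) 1) else 0) =
        Nat.card (Matrix.SpecialLinearGroup (Fin 2) F) * 2⁻¹ - (Fintype.card F : ℂ) ^ 2 := by
      have e2 : (Fintype.card F : ℂ) ^ 2 = ∑ χ : IrrCharacter (Matrix.SpecialLinearGroup (Fin 2) F),
          if χ = ⟨_, hst⟩ then (Fintype.card F : ℂ) ^ 2 else 0 := by simp
      rw [← s4, Finset.sum_mul, e2, ← Finset.sum_sub_distrib]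
      refine Finset.sum_congr rfl (fun χ _ => ?_)
      by_cases h0 : (χ : Matrix.SpecialLinearGroup (Fin 2) F → ℂ) 1 = Fintype.card F
      · rw [if_neg (fun h => h.2 h0), if_pos (Subtype.ext (H1.irr_SL2_deg_q Q χ.2 h0)),
          hstm _ χ.2 h0, h0]
        simp; ring
      · rw [if_neg (c := χ = _) (fun h => h0 (by rw [h]; exact hst1))]
        rcases hpm _ χ.2 with h | h
        · rw [if_pos ⟨h, h0⟩, h]; ring
        · rw [if_neg (fun h' => hne _ χ.2 h'.1 h), h]; ring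
    have k3 : H1.redC M ((Fintype.card F : ℂ) ^ 2 - 1) ≠ 0 := by
      rw [H1.redC_sub (pow_mem (natCast_mem _ _) _) (one_mem _), H1.redC_pow (natCast_mem _ _),
        H1.redC_natCast, (CharP.cast_eq_zero_iff _ p _).mpr (H1.char_dvd_card p)]
      simp
    have m3 := H1.inv_mem_locRing (sub_mem (pow_mem (natCast_mem _ _) _) (one_mem _)) k3
    have e3 : (Nat.card (Matrix.SpecialLinearGroup (Fin 2) F) : ℂ)⁻¹ *
        (Nat.card (Matrix.SpecialLinearGroup (Fin 2) F) * 2⁻¹ - (Fintype.card F : ℂ) ^ 2) =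
        2⁻¹ - Fintype.card F * ((Fintype.card F : ℂ) ^ 2 - 1)⁻¹ := by
      rw [H1.card_SL2']
      have := H1.card_field_ne_zero (K := F)
      have := H1.card_sq_sub_one_ne_zero (F := F)
      field_simp
    rw [e, e3]
  · exact sub_mem m2 (mul_mem (natCast_mem _ _) m3)
  · rw [H1.redC_sub m2 (mul_mem (natCast_mem _ _) m3), H1.redC_mul (natCast_mem _ _) m3,
      H1.redC_natCast, (CharP.cast_eq_zero_iff _ p _).mpr (H1.char_dvd_card p)]
    simpa using k2'

end Cfsg.Agent.S2439
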