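import Cfsg.Statements.S2440
import Cfsg.Agent.H1.SLnSt
import Cfsg.Agent.H4.CountSL

set_option autoImplicit false
open Cfsg

namespace Cfsg.Agent.S2440

/-- For a prime p and n ≥ 2, the group SL_n over the field with p elements has exactly gcd(n, p − 1) + 1 p-blocks relative to any maximal ideal of the algebraic integers containing p, that is, one more than the order of its centre (only this total is asserted; it arises as the defect-zero block of the Steinberg character plus as many blocks of maximal defect as the order of the centre). -/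
theorem result (p : ℕ) [Fact p.Prime] (n : ℕ) (hn : 2 ≤ n) (M : Ideal Cfsg.AlgInt) (hM : Cfsg.IsPModular p M) :
    Nat.card {B : Set (Cfsg.IrrCharacter (Matrix.SpecialLinearGroup (Fin n) (ZMod p))) // Cfsg.IsPBlock M B} =
      Nat.gcd n (p - 1) + 1 := by
  have := hM.2.1
  have := H1.charP_resF hM
  have : Nonempty (Fin n) := ⟨⟨0, by omega⟩⟩
  have hZ := H4.card_center_SL (F := ZMod p) (n := Fin n)
  rw [H1.card_blocks M (H1.locChar_SL p) ?_ ?_, H1.card_defZero_SL p (by omega), hZ]
  · simp
  · rw [H1.card_SL_eq (by omega)]
    refine Dvd.dvd.mul_right (dvd_trans (H1.char_dvd_card p) (dvd_pow_self _ ?_)) _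
    obtain ⟨m, rfl⟩ := Nat.exists_eq_add_of_le' hn
    simp [Finset.sum_range_succ]
  · rw [hZ]
    exact fun h => H1.not_char_dvd_card_sub_one (F := ZMod p) p (h.trans (Nat.gcd_dvd_right _ _))

end Cfsg.Agent.S2440
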