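import Cfsg.Statements.S2441
import Cfsg.Agent.H7.CentU
import Cfsg.Agent.H7.StMore
import Cfsg.Agent.H7.All

set_option autoImplicit false
open Cfsg

namespace Cfsg.Agent.S2441

open Cfsg.Lie Cfsg.Agent.H7 Cfsg.Agent.H8

/-- For a prime p, the Chevalley groups of types G₂, F₄ and E₈ over the field with p elements (types for which the simply connected and adjoint groups coincide, so the group has trivial centre) each have exactly two p-blocks relative to any maximal ideal of the algebraic integers containing p (only the count is asserted; it arises as the defect-zero block of the Steinberg character plus a single block of maximal defect). -/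
theorem result (p : ℕ) [Fact p.Prime] (M : Ideal Cfsg.AlgInt) (hM : Cfsg.IsPModular p M) :
    Nat.card {B : Set (Cfsg.IrrCharacter (Cfsg.Lie.chevG2.group (ZMod p))) // Cfsg.IsPBlock M B} = 2 ∧
    Nat.card {B : Set (Cfsg.IrrCharacter (Cfsg.Lie.chevF4.group (ZMod p))) // Cfsg.IsPBlock M B} = 2 ∧
    Nat.card {B : Set (Cfsg.IrrCharacter (Cfsg.Lie.chevE8.group (ZMod p))) // Cfsg.IsPBlock M B} = 2 := by
  have key : ∀ D ∈ [chevG2, chevB2, chevD4, chevF4, chevE6, chevE7, chevE8],
      Nat.card {B : Set (Cfsg.IrrCharacter (D.group (ZMod p))) // Cfsg.IsPBlock M B} = 2 := fun D hD => by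
    obtain ⟨_, _, _, _, _⟩ := facts_of_mem hD
    have hx := isChev_xg (D := D) (F := ZMod p)
    have := hx.finite_G GG_xg
    have := Fintype.ofFinite (D.group (ZMod p))
    have := hM.2.1
    have := H1.charP_resF hM
    have hp : p.Prime := Fact.out
    rw [H1.card_blocks M (hx.locChar GG_xg p) ?_ (by rw [hx.center_eq_bot GG_xg]; simpa using hp.ne_one),
      hx.center_eq_bot GG_xg, Subgroup.card_bot, Nat.card_eq_one_iff_exists.2 ⟨⟨⟨_, hx.St_irr GG_xg⟩, hx.defZero_St GG_xg p⟩,
        fun χ => Subtype.ext (Subtype.ext (hx.eq_St GG_xg p χ.1.2 χ.2))⟩]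
    refine Dvd.dvd.trans ?_ (Subgroup.card_subgroup_dvd_card (XS (xg D (ZMod p)) {0}))
    rw [hx.card_XS_single nroots_pos, Nat.card_zmod]
  exact ⟨key _ (by simp), key _ (by simp), key _ (by simp)⟩

end Cfsg.Agent.S2441
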