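import Cfsg.Statements.S2442
import Cfsg.Agent.H6.HC9

set_option autoImplicit false
open scoped MatrixGroups
open Cfsg

namespace Cfsg.Agent.S2442

open Classical in
/-- Let F be a finite field with q elements and n ≥ 2. Call a complex character χ of GL_n over F cuspidal when, for every 0 < m < n, the sum of χ over the subgroup of matrices that agree with the identity outside the upper right m × (n − m) block vanishes (the restriction of χ to the unipotent radical of each maximal standard parabolic subgroup contains no principal constituent). Then GL_n has at least φ(qⁿ − 1)/n distinct cuspidal irreducible characters of degree (q − 1)(q² − 1)⋯(q^(n−1) − 1), φ being Euler's function (in particular at least one). -/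
theorem result {F : Type*} [Field F] [Fintype F] [DecidableEq F] (n : ℕ) (hn : 2 ≤ n) :
    Nat.totient (Fintype.card F ^ n - 1) / n ≤
      Nat.card {χ : Cfsg.IrrCharacter (GL (Fin n) F) //
        (χ : GL (Fin n) F → ℂ) 1 = ∏ i ∈ Finset.Ico 1 n, ((Fintype.card F : ℂ) ^ i - 1) ∧
        ∀ m : ℕ, 0 < m → m < n →
          (∑ g : GL (Fin n) F,
            if (∀ i j : Fin n, ¬ (i.val < m ∧ m ≤ j.val) → (g : Matrix (Fin n) (Fin n) F) i j = (1 : Matrix (Fin n) (Fin n) F) i j)
            then (χ : GL (Fin n) F → ℂ) g else 0) = 0} := by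
  obtain ⟨ψ, hψ⟩ := H6.HC.exists_psi (F := F)
  refine (Nat.div_le_of_le_mul (H6.HC.totient_le (by omega))).trans ?_
  rw [← H6.HC.card_cusp]
  have hn' : ∀ c : {c : H6.HC.Cusp F // c.1.1 = n}, Fintype.card (Fin n) = c.1.1.1 :=
    fun c => by simpa using c.2.symm
  refine Nat.card_le_card_of_injective (fun c => ⟨⟨_, H6.HC.isIrr_ev (hn' c)⟩, ?_, fun m h0 h1 => ?_⟩)
    fun c d h => H6.HC.ev_cusp_inj (congrArg Subtype.val h)
  · have h1 := H6.HC.isCusp_ev c.1.2.2 (hn' c)
    have h2 := H6.HC.isIrr_ev (hn' c)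
    have := H6.HC.degree_cusp hψ (H1.IsIrrCharacter.isCharacter h2) h1 (by omega)
    rwa [H6.HC.del_cusp hψ h2 h1 (by omega), mul_one] at this
  · have h2 := H6.HC.isCusp_ev c.1.2.2 (hn' c) (fun i => i.val < m) ⟨⟨0, by omega⟩, h0⟩
      ⟨⟨m, h1⟩, lt_irrefl _⟩
    refine Eq.trans ?_ h2
    refine (H6.HC.sum_subgroup (H6.HC.Rad2 F fun i : Fin n => i.val < m) fun g hg => if_neg ?_).trans
      (Finset.sum_congr (Finset.ext fun _ => by simp) fun u _ => if_pos ?_)
    · simpa only [H6.HC.mem_Rad2, not_lt] using hg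
    · simpa only [H6.HC.mem_Rad2, not_lt] using u.2

end Cfsg.Agent.S2442
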