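import Cfsg.Statements.S2500
import Cfsg.Agent.H5.CovF
import Cfsg.Agent.H5.CovG

set_option autoImplicit false
open Cfsg

namespace Cfsg.Agent.S2500

/-- The infinite families of simple groups with normal covering number 2. For a finite field F: each of PSL_2(F) (|F| ≥ 4), PSL_3(F), PSL_4(F), PSU_4 over F (|F| = q²), PSU_3 over F when |F| = q² with q a power of 3, PSp_{2m}(F) for |F| even, m ≥ 2 and (m, |F|) ≠ (2, 2), PSp_6(F) for |F| a power of 3, and G_2(F) (automorphisms of the split octonions) for |F| = 2^a ≥ 4 is the union of the conjugates of two proper subgroups: there are proper subgroups H, K such that every element is conjugate into H or into K. -/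
theorem result {F : Type} [Field F] [Fintype F] :
    (4 ≤ Fintype.card F → (∃ H K : Subgroup (Matrix.ProjectiveSpecialLinearGroup (Fin 2) F), H ≠ ⊤ ∧ K ≠ ⊤ ∧ ∀ g : (Matrix.ProjectiveSpecialLinearGroup (Fin 2) F), ∃ x : (Matrix.ProjectiveSpecialLinearGroup (Fin 2) F), x * g * x⁻¹ ∈ H ∨ x * g * x⁻¹ ∈ K)) ∧
    (∃ H K : Subgroup (Matrix.ProjectiveSpecialLinearGroup (Fin 3) F), H ≠ ⊤ ∧ K ≠ ⊤ ∧ ∀ g : (Matrix.ProjectiveSpecialLinearGroup (Fin 3) F), ∃ x : (Matrix.ProjectiveSpecialLinearGroup (Fin 3) F), x * g * x⁻¹ ∈ H ∨ x * g * x⁻¹ ∈ K) ∧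
    (∃ H K : Subgroup (Matrix.ProjectiveSpecialLinearGroup (Fin 4) F), H ≠ ⊤ ∧ K ≠ ⊤ ∧ ∀ g : (Matrix.ProjectiveSpecialLinearGroup (Fin 4) F), ∃ x : (Matrix.ProjectiveSpecialLinearGroup (Fin 4) F), x * g * x⁻¹ ∈ H ∨ x * g * x⁻¹ ∈ K) ∧
    (∀ q : ℕ, Fintype.card F = q ^ 2 → (∃ H K : Subgroup (Cfsg.PSU 4 F q), H ≠ ⊤ ∧ K ≠ ⊤ ∧ ∀ g : (Cfsg.PSU 4 F q), ∃ x : (Cfsg.PSU 4 F q), x * g * x⁻¹ ∈ H ∨ x * g * x⁻¹ ∈ K)) ∧
    (∀ q a : ℕ, Fintype.card F = q ^ 2 → 1 ≤ a → q = 3 ^ a → (∃ H K : Subgroup (Cfsg.PSU 3 F q), H ≠ ⊤ ∧ K ≠ ⊤ ∧ ∀ g : (Cfsg.PSU 3 F q), ∃ x : (Cfsg.PSU 3 F q), x * g * x⁻¹ ∈ H ∨ x * g * x⁻¹ ∈ K)) ∧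
    (∀ m : ℕ, 2 ≤ m → ¬ Odd (Fintype.card F) → ¬ (m = 2 ∧ Fintype.card F = 2) → (∃ H K : Subgroup (Cfsg.PSp m F), H ≠ ⊤ ∧ K ≠ ⊤ ∧ ∀ g : (Cfsg.PSp m F), ∃ x : (Cfsg.PSp m F), x * g * x⁻¹ ∈ H ∨ x * g * x⁻¹ ∈ K)) ∧
    (∀ a : ℕ, 1 ≤ a → Fintype.card F = 3 ^ a → (∃ H K : Subgroup (Cfsg.PSp 3 F), H ≠ ⊤ ∧ K ≠ ⊤ ∧ ∀ g : (Cfsg.PSp 3 F), ∃ x : (Cfsg.PSp 3 F), x * g * x⁻¹ ∈ H ∨ x * g * x⁻¹ ∈ K)) ∧
    (∀ a : ℕ, 2 ≤ a → Fintype.card F = 2 ^ a → (∃ H K : Subgroup (Cfsg.Lie.G2 F), H ≠ ⊤ ∧ K ≠ ⊤ ∧ ∀ g : (Cfsg.Lie.G2 F), ∃ x : (Cfsg.Lie.G2 F), x * g * x⁻¹ ∈ H ∨ x * g * x⁻¹ ∈ K)) := by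
  have ch : ∀ {p a : ℕ}, p.Prime → 1 ≤ a → Fintype.card F = p ^ a → CharP F p := fun {p a} hp ha h =>
    (CharP.charP_iff_prime_eq_zero hp).2 (by
      have := FiniteField.cast_card_eq_zero F
      rw [h, Nat.cast_pow] at this
      exact pow_eq_zero_iff (by omega) |>.1 this)
  refine ⟨fun _ => H5.cov_PSL le_rfl (by omega), H5.cov_PSL (by omega) (by omega), H5.cov_PSL (by omega) le_rfl,
    fun q hq => ?_, fun q a hq ha h3 => ?_, fun m hm ho _ => ?_, fun a ha h3 => ?_, fun a ha h2 => ?_⟩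
  · exact (H5.uf_frob hq).cov_su4 ((H5.uf_frob hq).lg_su 4) ((H5.uf_frob hq).isEps_std _) (by simp)
  · have := ch (a := a * 2) Nat.prime_three (by omega) (by rw [hq, h3, pow_mul])
    exact (H5.uf_frob hq).cov_su3 ((H5.uf_frob hq).lg_su 3)
  · have : CharP F 2 := by
      have := FiniteField.even_card_iff_char_two.2 (Nat.even_iff.1 (Nat.not_odd_iff_even.1 ho))
      exact this ▸ ringChar.charP F
    exact H5.cov_psp_even hm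
  · have := ch Nat.prime_three ha h3
    exact H5.cov_sp6 (H5.lg_sp 3) (H5.isSp_std 3) (H5.finrank_std_sp 3)
  · have := ch Nat.prime_two (by omega) h2
    obtain ⟨ω, h0, h1⟩ : ∃ ω : F, ω ≠ 0 ∧ ω ≠ 1 := by
      by_contra h
      push Not at h
      classical
      have : (Finset.univ : Finset F) ⊆ {0, 1} := fun x _ => by
        by_cases hx : x = 0 <;> simp [hx, h x]
      have h3 := (Finset.card_le_card this).trans Finset.card_le_two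
      have := Nat.pow_le_pow_right two_pos ha
      rw [Finset.card_univ] at h3
      omega
    exact H5.cov_g2 h0 h1

end Cfsg.Agent.S2500
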